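import Mathlib

/-!
An endomorphism with scalar square is monomial, with an involutory permutation, in a suitable basis.
-/

set_option autoImplicit false

open Module

namespace CfsgLib.Omega

universe u v

variable {F : Type u} [Field F]

/-- If `f ∘ f` is a scalar then `f` is monomial in some basis, with permutation part an involution. -/
theorem exists_monomial_basis : ∀ (n : ℕ) {V : Type v} [AddCommGroup V] [Module F V] [FiniteDimensional F V]
    (_ : finrank F V = n) (f : V →ₗ[F] V) (z : F) (_ : ∀ w, f (f w) = z • w),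
    ∃ (π : Equiv.Perm (Fin n)) (b : Basis (Fin n) F V), π * π = 1 ∧ ∀ i, ∃ c : F, f (b i) = c • b (π i) := by
  intro n
  induction n using Nat.strong_induction_on with
  | _ n ih =>
    intro V _ _ _ hn f z hz
    by_cases h : ∀ w, ∃ c : F, f w = c • w
    · obtain b := (Module.finBasisOfFinrankEq F V hn)
      exact ⟨1, b, one_mul _, fun i => h (b i)⟩
    push Not at h
    obtain ⟨v, hv⟩ := h
    have hnot : f v ∉ Submodule.span F {v} := by
      intro hmem
      obtain ⟨c, hc⟩ := Submodule.mem_span_singleton.1 hmem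
      exact hv c hc.symm
    obtain ⟨φ₀, hφ0, hφmap⟩ := Submodule.exists_dual_map_eq_bot_of_notMem hnot inferInstance
    obtain ⟨φ, hφv, hφfv⟩ : ∃ φ : V →ₗ[F] F, φ v = 0 ∧ φ (f v) = 1 := by
      refine ⟨(φ₀ (f v))⁻¹ • φ₀, ?_, ?_⟩
      · have : φ₀ v ∈ (Submodule.span F {v}).map φ₀ :=
          Submodule.mem_map_of_mem (Submodule.mem_span_singleton_self v)
        rw [hφmap, Submodule.mem_bot] at this
        simp [this]
      · simp [inv_mul_cancel₀ hφ0]
    let C : Submodule F V := LinearMap.ker φ ⊓ LinearMap.ker (φ ∘ₗ f)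
    have memC : ∀ w, w ∈ C ↔ φ w = 0 ∧ φ (f w) = 0 := fun w => Iff.rfl
    have hC : ∀ w ∈ C, f w ∈ C := by
      intro w hw
      rw [memC] at hw ⊢
      exact ⟨hw.2, by rw [hz, map_smul, hw.1, smul_zero]⟩
    let E : ((Fin 2 → F) × C) →ₗ[F] V :=
      ((LinearMap.proj 0).smulRight v + (LinearMap.proj 1).smulRight (f v)) ∘ₗ LinearMap.fst F _ _
        + C.subtype ∘ₗ LinearMap.snd F _ _
    have Eapp : ∀ a : Fin 2 → F, ∀ w : C, E (a, w) = a 0 • v + a 1 • f v + (w : V) := fun a w => rfl
    have hE : Function.Bijective E := by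
      constructor
      · rw [injective_iff_map_eq_zero]
        rintro ⟨a, ⟨w, hw⟩⟩ h0
        rw [Eapp] at h0
        obtain ⟨hw1, hw2⟩ := (memC w).1 hw
        have e1 := congrArg φ h0
        simp [hφv, hφfv, hw1] at e1
        have e2 := congrArg (fun y => φ (f y)) h0
        simp [hφfv, hz, hφv, hw2] at e2
        have : a = 0 := by ext i; fin_cases i <;> simp [e1, e2]
        subst this
        simpa using h0
      · intro y
        refine ⟨(![φ (f y), φ y], ⟨y - (φ (f y) • v + φ y • f v), ?_⟩), ?_⟩
        · rw [memC]; simp [hφv, hφfv, hz]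
        · rw [Eapp]; simp
    let e := LinearEquiv.ofBijective E hE
    have hfin : 2 + finrank F C = n := by
      rw [← hn, ← e.finrank_eq]; simp
    let g : C →ₗ[F] C := f.restrict hC
    obtain ⟨π, b, hπ, hb⟩ := ih (finrank F C) (by omega) rfl g z (fun w => Subtype.ext (hz w))
    let ee : Fin 2 ⊕ Fin (finrank F C) ≃ Fin n := finSumFinEquiv.trans (finCongr hfin)
    refine ⟨ee.permCongr (Equiv.sumCongr (Equiv.swap 0 1) π),
      (((Pi.basisFun F (Fin 2)).prod b).map e).reindex ee, ?_, ?_⟩
    · ext x : 1
      obtain ⟨x, rfl⟩ := ee.surjective x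
      rcases x with x | x
      · simp [Equiv.permCongr_apply]
      · have := Equiv.Perm.ext_iff.1 hπ x
        simp at this
        simp [Equiv.permCongr_apply, this]
    · intro i
      obtain ⟨x, rfl⟩ := ee.surjective i
      simp only [Basis.reindex_apply, Basis.map_apply, Equiv.permCongr_apply, Equiv.symm_apply_apply]
      rcases x with x | x
      · fin_cases x
        · exact ⟨1, by simp [e, Eapp, LinearEquiv.ofBijective_apply]⟩
        · exact ⟨z, by simp [e, Eapp, LinearEquiv.ofBijective_apply, hz]⟩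
      · obtain ⟨c, hc⟩ := hb x
        refine ⟨c, ?_⟩
        have hc' : f (b x : V) = c • (b (π x) : V) := congrArg Subtype.val hc
        simp [e, Eapp, LinearEquiv.ofBijective_apply, hc']

end CfsgLib.Omega
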