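import Mathlib
import Cfsg.Agent.Lib.Omega.LinearInvolution
import Cfsg.Agent.Lib.Omega.SLConj

/-!
Matrices with scalar square: plane normal form, centralisers with surjective determinant, pairings.
-/

set_option autoImplicit false

open scoped Matrix

namespace CfsgLib.Omega

variable {F : Type*} [Field F]

/-- An equivalence from the ordered representatives of an involution. -/
noncomputable def involutionEquiv {n : ℕ} (π : Equiv.Perm (Fin n)) (hπ : π * π = 1) :
    ({i // i < π i} × Fin 2) ⊕ {i // π i = i} ≃ Fin n :=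
  Equiv.ofBijective (Sum.elim (fun x => if x.2 = 0 then x.1.1 else π x.1.1) Subtype.val) (by
    have hpp : ∀ i, π (π i) = i := fun i => by
      have := Equiv.Perm.ext_iff.1 hπ i; simpa using this
    constructor
    · rintro (⟨⟨i, hi⟩, s⟩ | ⟨i, hi⟩) (⟨⟨j, hj⟩, t⟩ | ⟨j, hj⟩) h
      · fin_cases s <;> fin_cases t <;> simp at h
        · subst h; rfl
        · exfalso; subst h; rw [hpp] at hi; exact lt_asymm hi hj
        · exfalso; subst h; rw [hpp] at hj; exact lt_asymm hi hj
        · subst h; rfl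
      · fin_cases s <;> simp at h
        · subst h; rw [hj] at hi; exact absurd hi (lt_irrefl _)
        · subst h; rw [hpp] at hj; rw [← hj] at hi; exact absurd hi (lt_irrefl _)
      · fin_cases t <;> simp at h
        · subst h; rw [hi] at hj; exact absurd hj (lt_irrefl _)
        · subst h; rw [hpp] at hi; rw [← hi] at hj; exact absurd hj (lt_irrefl _)
      · simp at h; subst h; rfl
    · intro i
      rcases lt_trichotomy i (π i) with h | h | h
      · exact ⟨.inl (⟨i, h⟩, 0), by simp⟩
      · exact ⟨.inr ⟨i, h.symm⟩, by simp⟩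
      · exact ⟨.inl (⟨π i, by rw [hpp]; exact h⟩, 1), by simp [hpp]⟩)

theorem involutionEquiv_zero {n : ℕ} (π : Equiv.Perm (Fin n)) (hπ : π * π = 1) (k : {i // i < π i}) :
    involutionEquiv π hπ (.inl (k, 0)) = k.1 := rfl

theorem involutionEquiv_one {n : ℕ} (π : Equiv.Perm (Fin n)) (hπ : π * π = 1) (k : {i // i < π i}) :
    involutionEquiv π hπ (.inl (k, 1)) = π k.1 := rfl

theorem involutionEquiv_inr {n : ℕ} (π : Equiv.Perm (Fin n)) (hπ : π * π = 1) (l : {i // π i = i}) :
    involutionEquiv π hπ (.inr l) = l.1 := rfl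

/-- Plane normal form of a matrix with non-zero scalar square. -/
theorem exists_plane_form {n : ℕ} (X : Matrix (Fin n) (Fin n) F) (z : F) (hz : z ≠ 0) (hX : X * X = z • 1) :
    ∃ (α β : Type) (_ : Fintype α) (_ : Fintype β) (_ : DecidableEq α) (_ : DecidableEq β)
      (w : Module.Basis ((α × Fin 2) ⊕ β) F (Fin n → F)) (c : β → F),
      (∀ k, X *ᵥ w (.inl (k, 0)) = w (.inl (k, 1))) ∧ (∀ k, X *ᵥ w (.inl (k, 1)) = z • w (.inl (k, 0))) ∧
      ∀ l, X *ᵥ w (.inr l) = c l • w (.inr l) ∧ c l * c l = z := by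
  classical
  obtain ⟨π, b, hπ, hb⟩ := exists_monomial_basis (F := F) n (Module.finrank_fin_fun F) (Matrix.toLin' X) z
    (fun w => by simp [Matrix.mulVec_mulVec, hX, Matrix.smul_mulVec])
  choose d hd using hb
  have hd' : ∀ i, X *ᵥ b i = d i • b (π i) := fun i => by simpa using hd i
  have hsq : ∀ i, d i * d (π i) = z := by
    intro i
    have hpp : π (π i) = i := by have := Equiv.Perm.ext_iff.1 hπ i; simpa using this
    have h : X *ᵥ (X *ᵥ b i) = z • b i := by simp [Matrix.mulVec_mulVec, hX, Matrix.smul_mulVec]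
    rw [hd', Matrix.mulVec_smul, hd', hpp, smul_smul] at h
    exact smul_left_injective F (b.ne_zero i) h
  have hd0 : ∀ i, d i ≠ 0 := fun i h => hz (by rw [← hsq i, h, zero_mul])
  let e := involutionEquiv π hπ
  let u : ({i // i < π i} × Fin 2) ⊕ {i // π i = i} → Fˣ :=
    Sum.elim (fun x => if x.2 = 0 then 1 else Units.mk0 (d x.1.1) (hd0 _)) (fun _ => 1)
  refine ⟨{i // i < π i}, {i // π i = i}, inferInstance, inferInstance, inferInstance, inferInstance,
    (b.reindex e.symm).unitsSMul u, fun l => d l.1, fun k => ?_, fun k => ?_, fun l => ⟨?_, ?_⟩⟩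
  · simp [u, e, involutionEquiv_zero, involutionEquiv_one, involutionEquiv_inr, Module.Basis.unitsSMul_apply, Module.Basis.reindex_apply, hd']
  · have hpp : π (π k.1) = k.1 := by have := Equiv.Perm.ext_iff.1 hπ k.1; simpa using this
    simp [u, e, involutionEquiv_zero, involutionEquiv_one, involutionEquiv_inr, Module.Basis.unitsSMul_apply, Module.Basis.reindex_apply, Units.smul_def, Matrix.mulVec_smul, hd', hpp,
      smul_smul, hsq]
  · simp [u, e, involutionEquiv_zero, involutionEquiv_one, involutionEquiv_inr, Module.Basis.unitsSMul_apply, Module.Basis.reindex_apply, hd', l.2]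
  · have := hsq l.1; rwa [l.2] at this

/-- The centraliser of a matrix with non-zero scalar square has surjective determinant. -/
theorem exists_centralizer_det [Fintype F] {n : ℕ} [NeZero n] (X : Matrix (Fin n) (Fin n) F) (z : F)
    (hz : z ≠ 0) (hX : X * X = z • 1) {u : F} (hu : u ≠ 0) :
    ∃ C : Matrix (Fin n) (Fin n) F, C.det = u ∧ X * C = C * X := by
  classical
  obtain ⟨α, β, _, _, _, _, w, c, hw0, hw1, hwl⟩ := exists_plane_form X z hz hX
  have finish : ∀ (L : (Fin n → F) →ₗ[F] (Fin n → F)), LinearMap.det L = u →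
      (∀ p, X *ᵥ L (w p) = L (X *ᵥ w p)) → ∃ C : Matrix (Fin n) (Fin n) F, C.det = u ∧ X * C = C * X := by
    intro L hL hcomm
    refine ⟨LinearMap.toMatrix' L, by rw [LinearMap.det_toMatrix', hL], ?_⟩
    refine Matrix.toLin'.injective (w.ext fun p => ?_)
    rw [Matrix.toLin'_mul, Matrix.toLin'_mul, Matrix.toLin'_toMatrix']
    simpa using hcomm p
  by_cases hβ : Nonempty β
  · obtain ⟨l₀⟩ := hβ
    let a : (α × Fin 2) ⊕ β → F := fun p => if p = .inr l₀ then u else 1
    let L : (Fin n → F) →ₗ[F] (Fin n → F) := w.constr F fun p => a p • w p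
    refine finish L ?_ ?_
    · rw [← LinearMap.det_toMatrix w, show LinearMap.toMatrix w w L = Matrix.diagonal a by
        ext i j
        rw [LinearMap.toMatrix_apply, Module.Basis.constr_basis]
        by_cases hij : i = j
        · subst hij; simp
        · simp [hij]]
      rw [Matrix.det_diagonal]; simp [a]
    · rintro (⟨k, s⟩ | l)
      · fin_cases s
        · show X *ᵥ L (w (.inl (k, 0))) = L (X *ᵥ w (.inl (k, 0)))
          simp only [L, Module.Basis.constr_basis, hw0, Matrix.mulVec_smul]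
          simp [a]
        · show X *ᵥ L (w (.inl (k, 1))) = L (X *ᵥ w (.inl (k, 1)))
          simp only [L, Module.Basis.constr_basis, hw1, Matrix.mulVec_smul, map_smul]
          simp [a]
      · simp only [L, Module.Basis.constr_basis, (hwl l).1, Matrix.mulVec_smul, map_smul]
        rw [smul_comm]
  · haveI : IsEmpty β := not_nonempty_iff.1 hβ
    obtain ⟨k₀⟩ : Nonempty α := by
      by_contra h
      haveI : IsEmpty α := not_nonempty_iff.1 h
      have hc := Module.finrank_eq_card_basis w
      simp at hc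
      exact NeZero.ne n hc
    obtain ⟨r, t, hrt⟩ : ∃ r t : F, r * r - z * (t * t) = u := by
      by_cases h2 : ringChar F = 2
      · obtain ⟨r, hr⟩ := FiniteField.isSquare_of_char_two h2 u
        exact ⟨r, 0, by rw [mul_zero, mul_zero, sub_zero]; exact hr.symm⟩
      · obtain ⟨r, t, h⟩ := FiniteField.exists_root_sum_quadratic
          (f := Polynomial.X ^ 2 - Polynomial.C u) (g := Polynomial.C (-z) * Polynomial.X ^ 2)
          (Polynomial.degree_X_pow_sub_C (by norm_num) u) (Polynomial.degree_C_mul_X_pow 2 (neg_ne_zero.2 hz))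
          (FiniteField.odd_card_of_char_ne_two h2)
        simp at h
        exact ⟨r, t, by linear_combination h⟩
    let e : (α × Fin 2) ⊕ β ≃ Fin 2 × α := (Equiv.sumEmpty _ _).trans (Equiv.prodComm _ _)
    let v := w.reindex e
    let M : α → Matrix (Fin 2) (Fin 2) F := fun k => if k = k₀ then !![r, z * t; t, r] else 1
    let L : (Fin n → F) →ₗ[F] (Fin n → F) := Matrix.toLin v v (Matrix.blockDiagonal M)
    refine finish L ?_ ?_
    · show LinearMap.det (Matrix.toLin v v (Matrix.blockDiagonal M)) = u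
      rw [LinearMap.det_toLin, Matrix.det_blockDiagonal,
        Finset.prod_eq_single k₀ (fun k _ hk => by simp [M, hk]) (by simp)]
      simp [M, Matrix.det_fin_two_of]
      linear_combination hrt
    · have hv : ∀ k s, v (s, k) = w (.inl (k, s)) := fun k s => by simp [v, e]
      have hL : ∀ k s, L (v (s, k)) = ∑ s', M k s' s • v (s', k) := by
        intro k s
        show Matrix.toLin v v (Matrix.blockDiagonal M) (v (s, k)) = _
        rw [Matrix.toLin_self, Fintype.sum_prod_type]
        refine Finset.sum_congr rfl fun s' _ => ?_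
        rw [Finset.sum_eq_single k (fun k' _ hk' => by simp [Matrix.blockDiagonal_apply_ne _ _ _ hk'])
          (by simp), Matrix.blockDiagonal_apply_eq]
      rintro (⟨k, s⟩ | l)
      · fin_cases s <;> simp only [Fin.zero_eta, Fin.mk_one, Fin.isValue, ← hv, hL, Fin.sum_univ_two,
          Matrix.mulVec_add, Matrix.mulVec_smul]
        · have e0 : X *ᵥ v (0, k) = v (1, k) := by rw [hv, hv, hw0]
          have e1 : X *ᵥ v (1, k) = z • v (0, k) := by rw [hv, hv, hw1]
          rw [e0, e1, hL, Fin.sum_univ_two]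
          by_cases hk : k = k₀ <;> simp [M, hk, smul_smul, add_comm, mul_comm]
        · have e0 : X *ᵥ v (0, k) = v (1, k) := by rw [hv, hv, hw0]
          have e1 : X *ᵥ v (1, k) = z • v (0, k) := by rw [hv, hv, hw1]
          rw [e0, e1, map_smul, hL, Fin.sum_univ_two]
          by_cases hk : k = k₀ <;> simp [M, hk, smul_smul, add_comm, mul_comm]
      · exact isEmptyElim l

/-- A `GL`-conjugate of an element with scalar square is an `SL`-conjugate. -/
theorem exists_sl_conj_of_square [Fintype F] {n : ℕ} [NeZero n] {x g : GL (Fin n) F} {z : F} (hz : z ≠ 0)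
    (hx : (x : Matrix (Fin n) (Fin n) F) * x = z • 1) :
    ∃ g' ∈ Cfsg.Geo.specialLinear (Fin n) F, g'⁻¹ * x * g' = g⁻¹ * x * g := by
  have hy : ((g⁻¹ * x * g : GL (Fin n) F) : Matrix (Fin n) (Fin n) F) *
      (g⁻¹ * x * g : GL (Fin n) F) = z • 1 := by
    rw [← Units.val_mul, show g⁻¹ * x * g * (g⁻¹ * x * g) = g⁻¹ * (x * x) * g by group, Units.val_mul,
      Units.val_mul, Units.val_mul, hx]
    simp
  obtain ⟨g', hg', h⟩ := exists_sl_conj_of_gl (x := x) (g := g)
    (y := ((g⁻¹ * x * g : GL (Fin n) F) : Matrix (Fin n) (Fin n) F))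
    (by rw [← Units.val_mul, ← Units.val_mul]; congr 1; group)
    (fun u hu => exists_centralizer_det _ z hz hy hu)
  exact ⟨g', hg', Units.ext h⟩

theorem ne_zero_of_square {n : ℕ} [NeZero n] {x : GL (Fin n) F} {z : F}
    (hx : (x : Matrix (Fin n) (Fin n) F) * x = z • 1) : z ≠ 0 := by
  rintro rfl
  rw [zero_smul, ← Units.val_mul] at hx
  exact (x * x).ne_zero hx

/-- A matrix carrying a basis to another intertwines the actions. -/
theorem exists_gl_of_bases {ι : Type} [Fintype ι] [DecidableEq ι] {κ : Type*}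
    (b b' : Module.Basis κ F (ι → F)) : ∃ g : GL ι F, ∀ k, (g : Matrix ι ι F) *ᵥ b' k = b k := by
  let L : (ι → F) ≃ₗ[F] (ι → F) := b'.equiv b (Equiv.refl _)
  refine ⟨Matrix.GeneralLinearGroup.mkOfDetNeZero (LinearMap.toMatrix' (L : (ι → F) →ₗ[F] (ι → F))) ?_, fun k => ?_⟩
  · rw [LinearMap.det_toMatrix']
    exact (LinearEquiv.isUnit_det' L).ne_zero
  · show LinearMap.toMatrix' (L : (ι → F) →ₗ[F] (ι → F)) *ᵥ b' k = b k
    rw [← Matrix.toLin'_apply, Matrix.toLin'_toMatrix']
    simp [L]

theorem conj_mulVec {ι : Type} [Fintype ι] [DecidableEq ι] (x g : GL ι F) {v w : ι → F}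
    (hg : (g : Matrix ι ι F) *ᵥ v = w) {v' : ι → F}
    (h : (x : Matrix ι ι F) *ᵥ w = (g : Matrix ι ι F) *ᵥ v') :
    ((g⁻¹ * x * g : GL ι F) : Matrix ι ι F) *ᵥ v = v' := by
  refine Matrix.mulVec_injective_of_isUnit (A := (g : Matrix ι ι F)) g.isUnit ?_
  show (g : Matrix ι ι F) *ᵥ _ = (g : Matrix ι ι F) *ᵥ v'
  rw [Matrix.mulVec_mulVec, ← Units.val_mul, show g * (g⁻¹ * x * g) = x * g by group, Units.val_mul,
    ← Matrix.mulVec_mulVec, hg, h]

end CfsgLib.Omega
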