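import Mathlib
import Cfsg.Agent.Lib.Omega.SquareScalar
import Cfsg.Agent.Lib.Omega.SymplecticInvolution

/-!
Eigenvalue multiplicities for diagonalisable matrices with scalar square, 2-adic criteria in finite fields,
and similitude criteria for alternating forms.
-/

set_option autoImplicit false

open scoped Matrix

namespace CfsgLib.Omega

variable {F : Type*} [Field F]

/-- `-1` is an `n`-th power in a finite field of odd order iff the 2-part of `n` is less than that of `q - 1`. -/
theorem exists_pow_eq_neg_one_iff [Fintype F] {q n : ℕ} (hq : Fintype.card F = q) (h2 : (2 : F) ≠ 0) (hn : n ≠ 0) :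
    (∃ s : F, s ^ n = -1) ↔ padicValNat 2 n < padicValNat 2 (q - 1) := by
  classical
  haveI : Fact (Nat.Prime 2) := ⟨Nat.prime_two⟩
  have hne : (-1 : F) ≠ 1 := fun h => h2 (by linear_combination (-1 : F) * h)
  have hq2 : 1 < q := hq ▸ Fintype.one_lt_card
  set v := padicValNat 2 n with hv
  constructor
  · rintro ⟨s, hs⟩
    have hs0 : s ≠ 0 := by rintro rfl; simp [zero_pow hn] at hs
    set o := orderOf (Units.mk0 s hs0) with ho
    have h2n : o ∣ 2 * n := orderOf_dvd_of_pow_eq_one (Units.ext (by
      rw [Units.val_pow_eq_pow_val, Units.val_mk0, mul_comm, pow_mul, hs]; simp))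
    have hn' : ¬ o ∣ n := fun h => hne (by
      have := congrArg Units.val (orderOf_dvd_iff_pow_eq_one.1 h)
      simpa [hs] using this)
    have hoq : o ∣ q - 1 := by
      rw [← hq, ← Fintype.card_units]; exact orderOf_dvd_card
    by_contra hle
    push Not at hle
    refine hn' ((Nat.dvd_iff_prime_pow_dvd_dvd _ _).2 fun p k hp hpk => ?_)
    rcases eq_or_ne p 2 with rfl | hp2
    · have h' : 2 ^ k ∣ q - 1 := hpk.trans hoq
      rw [padicValNat_dvd_iff_le (by omega)] at h'
      rw [padicValNat_dvd_iff_le hn]
      omega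
    · have : Nat.Coprime (p ^ k) 2 := Nat.Coprime.pow_left k ((Nat.coprime_primes hp Nat.prime_two).2 hp2)
      exact this.dvd_of_dvd_mul_left (hpk.trans h2n)
  · intro hlt
    have hdvd : 2 ^ (v + 1) ∣ Nat.card Fˣ := by
      rw [Nat.card_eq_fintype_card, Fintype.card_units, hq, padicValNat_dvd_iff_le (by omega)]
      omega
    obtain ⟨g, hg⟩ := IsCyclic.exists_ofOrder_eq_natCard (α := Fˣ)
    obtain ⟨k, hk⟩ := hdvd
    have hk0 : k ≠ 0 := by rintro rfl; simp at hk
    have hord : orderOf (g ^ k) = 2 ^ (v + 1) := by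
      rw [orderOf_pow_of_dvd hk0 (by rw [hg, hk]; exact Dvd.intro_left _ rfl), hg, hk,
        Nat.mul_div_cancel _ (Nat.pos_of_ne_zero hk0)]
    set w : F := ((g ^ k : Fˣ) : F) with hw
    obtain ⟨m, hm⟩ : 2 ^ v ∣ n := pow_padicValNat_dvd
    have hodd : Odd m := by
      rcases Nat.even_or_odd m with ⟨j, hj⟩ | h
      · have : 2 ^ (v + 1) ∣ n := ⟨j, by rw [hm, hj, pow_succ]; ring⟩
        rw [padicValNat_dvd_iff_le hn] at this
        omega
      · exact h
    have hhalf : w ^ 2 ^ v = -1 := by
      have hsq : (w ^ 2 ^ v) ^ 2 = 1 := by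
        rw [← pow_mul, ← pow_succ, ← hord, hw, ← Units.val_pow_eq_pow_val, pow_orderOf_eq_one, Units.val_one]
      refine (sq_eq_one_iff.1 hsq).resolve_left fun h => ?_
      have h1 : (g ^ k) ^ 2 ^ v = 1 := Units.ext (by rw [Units.val_pow_eq_pow_val, ← hw, h, Units.val_one])
      have h3 := Nat.le_of_dvd (by positivity) (orderOf_dvd_of_pow_eq_one h1)
      rw [hord] at h3
      exact absurd h3 (not_le.2 (Nat.pow_lt_pow_right one_lt_two (Nat.lt_succ_self v)))
    exact ⟨w, by rw [hm, pow_mul, hhalf, hodd.neg_one_pow]⟩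

/-- A matrix `X` with `X² = s²`, diagonalised. -/
theorem exists_eigen_square [Fintype F] {n : ℕ} (h2 : (2 : F) ≠ 0) (X : Matrix (Fin n) (Fin n) F) {s : F}
    (hs : s ≠ 0) (hX : X * X = (s * s) • 1) :
    ∃ (b : Module.Basis (Fin n) F (Fin n → F)) (d : Fin n → F), (∀ i, d i = s ∨ d i = -s) ∧
      (∀ i, X *ᵥ b i = d i • b i) ∧ ∏ i, d i = X.det := by
  classical
  have hsne : s ≠ -s := fun h => hs ((mul_eq_zero.1 (by linear_combination h : (2 : F) * s = 0)).resolve_left h2)
  have hp : Polynomial.aeval X (∏ e ∈ ({s, -s} : Finset F), (Polynomial.X - Polynomial.C e)) = 0 := by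
    rw [Finset.prod_insert (by simpa using hsne), Finset.prod_singleton]
    have : (Polynomial.X - Polynomial.C s) * (Polynomial.X - Polynomial.C (-s)) =
        Polynomial.X ^ 2 - Polynomial.C (s * s) := by rw [map_neg, map_mul]; ring
    rw [this]
    simp [pow_two, hX, Algebra.algebraMap_eq_smul_one, smul_smul]
  obtain ⟨b, d, hd, hb⟩ := exists_eigenbasis X _ hp
  refine ⟨b, d, fun i => by simpa using hd i, hb, ?_⟩
  have h : LinearMap.toMatrix b b (Matrix.toLin' X) = Matrix.diagonal d := by
    ext i j
    rw [LinearMap.toMatrix_apply, Matrix.toLin'_apply, hb]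
    by_cases hij : i = j
    · subst hij; simp
    · simp [hij]
  rw [← Matrix.det_diagonal, ← h, LinearMap.det_toMatrix, LinearMap.det_toLin']

/-- Splitting a set of even size into pairs. -/
theorem exists_pairs (α : Type) [Fintype α] (h : Even (Fintype.card α)) :
    ∃ m, Nonempty (Fin m × Fin 2 ≃ α) := by
  obtain ⟨m, hm⟩ := h
  exact ⟨m, ⟨(finProdFinEquiv.trans (finCongr (by rw [hm]; omega))).trans (Fintype.equivFin α).symm⟩⟩

/-- A space with a non-degenerate alternating form has even dimension. -/
theorem even_finrank_of_alternating {V : Type*} [AddCommGroup V] [Module F V] [FiniteDimensional F V]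
    (B : LinearMap.BilinForm F V) (hB : ∀ v, B v v = 0) (hnd : ∀ v, (∀ w, B v w = 0) → v = 0) :
    Even (Module.finrank F V) := by
  obtain ⟨α, _, _, b, -, -⟩ := exists_adapted_basis (f := LinearMap.id) (z := 1) hB hnd (fun _ _ => rfl)
    (fun w => by simp)
  refine ⟨Fintype.card α, ?_⟩
  rw [Module.finrank_eq_card_basis b, Fintype.card_prod, Fintype.card_fin]; ring

/-- Multiplicity of an eigenvalue in an eigenbasis equals the dimension of the eigenspace. -/
theorem finrank_eigenspace_eq_card {n : ℕ} [DecidableEq F] (X : Matrix (Fin n) (Fin n) F)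
    (b : Module.Basis (Fin n) F (Fin n → F)) (d : Fin n → F) (hb : ∀ i, X *ᵥ b i = d i • b i) (s : F) :
    Module.finrank F ↥(Module.End.eigenspace (Matrix.toLin' X) s) = (Finset.univ.filter fun i => d i = s).card := by
  have heq : Module.End.eigenspace (Matrix.toLin' X) s = Submodule.span F (b '' {i | d i = s}) := by
    apply le_antisymm
    · intro v hv
      rw [Module.End.mem_eigenspace_iff, Matrix.toLin'_apply] at hv
      rw [Module.Basis.mem_span_image]
      intro i hi
      simp only [Finset.mem_coe, Finsupp.mem_support_iff] at hi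
      show d i = s
      have h : b.repr (X *ᵥ v) i = d i * b.repr v i := by
        have : X *ᵥ v = ∑ j, b.repr v j • (d j • b j) := by
          have h' := congrArg (Matrix.toLin' X) (b.sum_repr v)
          rw [map_sum, Matrix.toLin'_apply] at h'
          rw [← h']
          exact Finset.sum_congr rfl fun j _ => by rw [map_smul, Matrix.toLin'_apply, hb]
        rw [this]
        simp [Finsupp.single_apply, mul_comm]
      rw [hv, map_smul] at h
      simp only [Finsupp.smul_apply, smul_eq_mul] at h
      exact (mul_right_cancel₀ hi h).symm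
    · rw [Submodule.span_le]
      rintro _ ⟨i, rfl, rfl⟩
      exact Module.End.mem_eigenspace_iff.2 (hb i)
  have hli : LinearIndependent F (fun i : {i // d i = s} => b i) :=
    b.linearIndependent.comp _ Subtype.val_injective
  have hr : Set.range (fun i : {i // d i = s} => b i) = b '' {i | d i = s} := by
    ext v; simp
  rw [heq, ← hr, finrank_span_eq_card hli, Fintype.card_subtype]

end CfsgLib.Omega
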