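import Mathlib
import Cfsg.Prelude.Def_GeometricClasses
import Cfsg.Agent.Lib.Omega.SquareCases
import Cfsg.Agent.Lib.ClassicalForms.Ortho.Standard
import Cfsg.Agent.Lib.ClassicalForms.Ortho.Generation
import Cfsg.Agent.Lib.Forms.Singular

/-!
Fixed non-singular points of isometries in characteristic two: the criterion by fixed vectors, involutions,
membership in Ω of inverted elements of odd order, and the number of non-singular points.
-/

set_option autoImplicit false

open scoped Matrix commutatorElement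
open QuadraticMap

namespace CfsgLib.Omega

universe u

variable {F : Type u} [Field F] {ι : Type} [Fintype ι] [DecidableEq ι]

theorem mem_isometryGroup_iff_forall {f : (ι → F) → F} {g : GL ι F} :
    g ∈ Cfsg.isometryGroup F f ↔ ∀ v, f ((g : Matrix ι ι F) *ᵥ v) = f v :=
  ⟨fun h v => h v v, fun h v _ => h v⟩

theorem mem_isometry_of_mem_omegaGL {f : (ι → F) → F} {g : GL ι F} (h : g ∈ Cfsg.Geo.omegaGL f) :
    ∀ v, f ((g : Matrix ι ι F) *ᵥ v) = f v := by
  obtain ⟨a, -, rfl⟩ := h
  exact mem_isometryGroup_iff_forall.1 a.2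

/-- In characteristic two the only square root of one is one. -/
theorem eq_one_of_sq [CharP F 2] {c : F} (h : c ^ 2 = 1) : c = 1 := by
  refine frobenius_inj F 2 ?_
  simpa [frobenius_def] using h

/-- An element fixes a non-singular point iff it fixes a non-singular vector. -/
theorem exists_fixed_point_iff [CharP F 2] {f : (ι → F) → F} {Q : QuadraticForm F (ι → F)} (hQ : ∀ v, Q v = f v)
    (g : GL ι F) (hg : ∀ v, f ((g : Matrix ι ι F) *ᵥ v) = f v) :
    (∃ W : Submodule F (ι → F), (Module.finrank F W = 1 ∧ ∃ v ∈ W, f v ≠ 0) ∧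
        W.map (Matrix.toLin' (g : Matrix ι ι F)) ≤ W) ↔
      ∃ v, (g : Matrix ι ι F) *ᵥ v = v ∧ f v ≠ 0 := by
  constructor
  · rintro ⟨W, ⟨hW, v, hv, hfv⟩, hmap⟩
    refine ⟨v, ?_, hfv⟩
    have hv0 : v ≠ 0 := fun h => hfv (by rw [← hQ, h, QuadraticMap.map_zero])
    have hne : (⟨v, hv⟩ : W) ≠ 0 := fun h => hv0 (congrArg Subtype.val h)
    obtain ⟨c, hc⟩ := (finrank_eq_one_iff_of_nonzero' (⟨v, hv⟩ : W) hne).1 hW
      ⟨(g : Matrix ι ι F) *ᵥ v, hmap ⟨v, hv, by simp⟩⟩
    have hc' : c • v = (g : Matrix ι ι F) *ᵥ v := congrArg Subtype.val hc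
    have h1 := hg v
    rw [← hc', ← hQ, ← hQ, QuadraticMap.map_smul, smul_eq_mul] at h1
    rw [hQ] at h1
    have : c = 1 := eq_one_of_sq (by rw [pow_two]; exact mul_right_cancel₀ hfv (by rw [one_mul]; exact h1))
    rw [← hc', this, one_smul]
  · rintro ⟨v, hv, hfv⟩
    have hv0 : v ≠ 0 := fun h => hfv (by rw [← hQ, h, QuadraticMap.map_zero])
    refine ⟨F ∙ v, ⟨finrank_span_singleton hv0, v, Submodule.mem_span_singleton_self v, hfv⟩, ?_⟩
    rw [Submodule.map_span, Set.image_singleton, Matrix.toLin'_apply, hv]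

/-- An element of an isometry group which is a scalar is one. -/
theorem scalar_eq_one [CharP F 2] {f : (ι → F) → F} {Q : QuadraticForm F (ι → F)} (hQ : ∀ v, Q v = f v)
    {v₀ : ι → F} (hv₀ : f v₀ ≠ 0) {g : GL ι F} (hg : ∀ v, f ((g : Matrix ι ι F) *ᵥ v) = f v) {z : F}
    (h : (g : Matrix ι ι F) = z • 1) : z = 1 := by
  have h1 := hg v₀
  rw [h, Matrix.smul_mulVec, Matrix.one_mulVec, ← hQ, ← hQ, QuadraticMap.map_smul, smul_eq_mul, hQ] at h1
  exact eq_one_of_sq (by rw [pow_two]; exact mul_right_cancel₀ hv₀ (by rw [one_mul]; exact h1))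

/-- An element of odd order inverted by an isometry lies in Ω. -/
theorem mem_omegaGL_of_inverted {f : (ι → F) → F} (x h : GL ι F) (hx : x ∈ Cfsg.isometryGroup F f)
    (hh : h ∈ Cfsg.isometryGroup F f) {r : ℕ} (hr : Odd r) (hxr : x ^ r = 1) (hinv : h * x * h⁻¹ = x⁻¹) :
    x ∈ Cfsg.Geo.omegaGL f := by
  let X : Cfsg.isometryGroup F f := ⟨x, hx⟩
  let H : Cfsg.isometryGroup F f := ⟨h, hh⟩
  have hcomm : x ^ 2 = x * h * x⁻¹ * h⁻¹ := by
    have h2 : h * x⁻¹ * h⁻¹ = x := by
      have := congrArg (·⁻¹) hinv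
      simpa [mul_assoc] using this
    rw [show x * h * x⁻¹ * h⁻¹ = x * (h * x⁻¹ * h⁻¹) by group, h2, pow_two]
  have hmem : x ^ 2 ∈ Cfsg.Geo.omegaGL f := by
    rw [hcomm]
    exact ⟨⁅X, H⁆, Subgroup.commutator_mem_commutator (Subgroup.mem_top X) (Subgroup.mem_top H), rfl⟩
  obtain ⟨k, hk⟩ := hr
  have hx2 : x = (x ^ 2) ^ (k + 1) := by
    rw [← pow_mul, show 2 * (k + 1) = r + 1 by omega, pow_succ, hxr, one_mul]
  rw [hx2]
  exact pow_mem hmem _

/-- An involutory isometry of a space of dimension `2d` fixing no non-singular vector is forced to have a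
totally singular fixed space of dimension `d`, and then `d` is even. -/
theorem even_and_exists_singular_of_no_fixed [CharP F 2] (Q : QuadraticForm F (ι → F))
    (hQ : ClassicalForms.Nondeg Q) {d : ℕ} (hd : Fintype.card ι = 2 * d) (X : Matrix ι ι F)
    (hX : ∀ v, Q (X *ᵥ v) = Q v) (hXX : X * X = 1) (hno : ∀ v, X *ᵥ v = v → Q v = 0) :
    Even d ∧ ∃ K : Submodule F (ι → F), Module.finrank F K = d ∧ ∀ v ∈ K, Q v = 0 := by
  classical
  have htwo : ∀ v : ι → F, v + v = 0 := fun v => funext fun i => CharTwo.add_self_eq_zero _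
  let N : (ι → F) →ₗ[F] (ι → F) := Matrix.toLin' X + LinearMap.id
  have hN : ∀ v, N v = X *ᵥ v + v := fun v => rfl
  set K := LinearMap.ker N with hKdef
  have hK : ∀ v, v ∈ K ↔ X *ᵥ v = v := fun v => by
    rw [LinearMap.mem_ker, hN]
    exact ⟨fun h => (eq_neg_of_add_eq_zero_left h).trans (eq_neg_of_add_eq_zero_left (htwo v)).symm,
      fun h => by rw [h]; exact htwo v⟩
  have hKs : ∀ v ∈ K, Q v = 0 := fun v hv => hno v ((hK v).1 hv)
  have hnd : (polarBilin Q).Nondegenerate := by
    refine ⟨hQ, fun y hy => hQ y fun z => ?_⟩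
    rw [polar_comm]; exact hy z
  have hrange : LinearMap.range N ≤ K := by
    rintro _ ⟨v, rfl⟩
    rw [hK, hN, Matrix.mulVec_add, Matrix.mulVec_mulVec, hXX, Matrix.one_mulVec, add_comm]
  have h1 := LinearMap.finrank_range_add_finrank_ker N
  rw [← hKdef, Module.finrank_fintype_fun_eq_card, hd] at h1
  have h2 := Submodule.finrank_mono hrange
  have h3 := Forms.two_mul_finrank_singular_le Q hnd K hKs
  rw [Module.finrank_fintype_fun_eq_card, hd] at h3
  have hKd : Module.finrank F K = d := by omega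
  refine ⟨?_, K, hKd, hKs⟩
  obtain ⟨C, hC⟩ := Submodule.exists_isCompl K
  let β : LinearMap.BilinForm F (ι → F) := (polarBilin Q).comp N
  have hβ : ∀ v w, β v w = polar Q (N v) w := fun v w => rfl
  have halt : ∀ v, β v v = 0 := by
    intro v
    have hNv : Q (N v) = 0 := hKs _ (hrange ⟨v, rfl⟩)
    have hXv : X *ᵥ v = N v + v := by rw [hN, add_assoc, htwo, add_zero]
    have := hX v
    rw [hXv, QuadraticMap.map_add Q, hNv, zero_add] at this
    rw [hβ]
    linear_combination this
  have heven := even_finrank_of_alternating (β.compl₁₂ C.subtype C.subtype) (fun v => halt _) (fun v hv => by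
    have hNv : N (v : ι → F) = 0 := hQ _ fun w => by
      have hw : w ∈ K ⊔ C := by rw [hC.sup_eq_top]; exact Submodule.mem_top
      obtain ⟨k, hk, c, hc, rfl⟩ := Submodule.mem_sup.1 hw
      have e1 : polar Q (N (v : ι → F)) k = 0 := by
        rw [polar, hKs _ (add_mem (hrange ⟨_, rfl⟩) hk), hKs _ (hrange ⟨_, rfl⟩), hKs _ hk]; simp
      have e2 : polar Q (N (v : ι → F)) c = 0 := hv ⟨c, hc⟩
      rw [polar_add_right, e1, e2, add_zero]
    have : (v : ι → F) ∈ K ⊓ C := ⟨hNv, v.2⟩
    rw [hC.inf_eq_bot] at this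
    exact Subtype.ext (by simpa using this))
  have hCd := Submodule.finrank_add_eq_of_isCompl hC
  rw [Module.finrank_fintype_fun_eq_card, hd, hKd] at hCd
  have : Module.finrank F C = d := by omega
  rwa [this] at heven

/-- The minus form of dimension `2m + 2` has no totally singular subspace of dimension `m + 1`. -/
theorem finrank_singular_qMinus_le [Finite F] {a b : F} (hab : ClassicalForms.Aniso a b) (m : ℕ)
    (K : Submodule F ((Fin m ⊕ Fin m) ⊕ Fin 2 → F)) (hK : ∀ v ∈ K, ClassicalForms.qMinus m F a b v = 0) :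
    Module.finrank F K ≤ m := by
  classical
  by_contra hlt
  push Not at hlt
  set Q := ClassicalForms.qMinus m F a b with hQdef
  have hnd : (polarBilin Q).Nondegenerate := by
    refine ⟨ClassicalForms.nondeg_qMinus hab m, fun y hy => ClassicalForms.nondeg_qMinus hab m y fun z => ?_⟩
    rw [polar_comm]; exact hy z
  let ex : (Fin m → F) →ₗ[F] ((Fin m ⊕ Fin m) ⊕ Fin 2 → F) :=
    { toFun := fun c => Sum.elim (Sum.elim c (fun _ => 0)) (fun _ => 0)
      map_add' := fun u v => by ext ((i | i) | i) <;> simp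
      map_smul' := fun c v => by ext ((i | i) | i) <;> simp }
  have hexinj : Function.Injective ex := fun u v h => funext fun i => congrFun h (.inl (.inl i))
  have hexQ : ∀ w ∈ LinearMap.range ex, Q w = 0 := by
    rintro _ ⟨c, rfl⟩
    rw [hQdef, ClassicalForms.qMinus_apply]
    simp [ex, Cfsg.quadFormMinus]
  have hfr : Module.finrank F (LinearMap.range ex) = m := by
    rw [LinearMap.finrank_range_of_inj hexinj, Module.finrank_fin_fun]
  obtain ⟨g, hg, hle⟩ := Forms.exists_isometry_singular_le Q hnd (LinearMap.range ex) K hexQ hK (by omega)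
  set K' := K.map (g.symm : ((Fin m ⊕ Fin m) ⊕ Fin 2 → F) →ₗ[F] ((Fin m ⊕ Fin m) ⊕ Fin 2 → F)) with hK'
  have hK's : ∀ v ∈ K', Q v = 0 := by
    rintro _ ⟨v, hv, rfl⟩
    have := hg (g.symm v)
    rw [g.apply_symm_apply] at this
    rw [← hK v hv]
    exact this.symm
  have hle' : LinearMap.range ex ≤ K' := by
    intro w hw
    exact ⟨g w, hle ⟨w, hw, rfl⟩, g.symm_apply_apply w⟩
  have hsub : K' ≤ LinearMap.range ex := by
    intro v hv
    have hy : ∀ i, v (.inl (.inr i)) = 0 := by
      intro i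
      have hei : ex (Pi.single i 1) ∈ K' := hle' ⟨_, rfl⟩
      have h1 := hK's _ (add_mem hv hei)
      rw [QuadraticMap.map_add Q, hK's v hv, hK's _ hei, zero_add, zero_add] at h1
      have h2 : polar Q v (ex (Pi.single i 1)) = v (.inl (.inr i)) := by
        rw [polar, hQdef, ClassicalForms.qMinus_apply, ClassicalForms.qMinus_apply, ClassicalForms.qMinus_apply]
        simp [ex, Cfsg.quadFormMinus, add_mul, Finset.sum_add_distrib, Pi.single_apply]
      rwa [h2] at h1
    have hQv := hK's v hv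
    rw [hQdef, ClassicalForms.qMinus_apply] at hQv
    simp only [Cfsg.quadFormMinus, hy, mul_zero, Finset.sum_const_zero, zero_add] at hQv
    obtain ⟨z0, z1⟩ := hab _ _ hQv
    refine ⟨fun i => v (.inl (.inl i)), funext ?_⟩
    rintro ((i | i) | i)
    · rfl
    · exact (hy i).symm
    · fin_cases i
      · exact z0.symm
      · exact z1.symm
  have := Submodule.finrank_mono hsub
  rw [hK', LinearEquiv.finrank_map_eq, hfr] at this
  omega

/-- The non-singular points and the non-singular vectors. -/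
theorem card_points_mul [Fintype F] {f : (ι → F) → F} {Q : QuadraticForm F (ι → F)} (hQ : ∀ v, Q v = f v) :
    Nat.card {W : Submodule F (ι → F) // Module.finrank F W = 1 ∧ ∃ v ∈ W, f v ≠ 0} * (Fintype.card F - 1) =
      Nat.card {v : ι → F // f v ≠ 0} := by
  classical
  set P := {W : Submodule F (ι → F) // Module.finrank F W = 1 ∧ ∃ v ∈ W, f v ≠ 0}
  haveI : Finite (Submodule F (ι → F)) := Finite.of_injective _ SetLike.coe_injective
  haveI : Fintype P := Fintype.ofFinite P
  have hne : ∀ v, f v ≠ 0 → v ≠ 0 := fun v h h' => h (by rw [← hQ, h', QuadraticMap.map_zero])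
  let π : {v : ι → F // f v ≠ 0} → P := fun v =>
    ⟨F ∙ v.1, finrank_span_singleton (hne _ v.2), v.1, Submodule.mem_span_singleton_self _, v.2⟩
  have hline : ∀ W : P, ∀ w ∈ W.1, w ≠ 0 → F ∙ w = W.1 ∧ f w ≠ 0 := by
    intro W w hw hw0
    have hspan : F ∙ w = W.1 := Submodule.eq_of_le_of_finrank_eq
      (Submodule.span_le.2 (Set.singleton_subset_iff.2 hw)) (by rw [finrank_span_singleton hw0, W.2.1])
    obtain ⟨v, hv, hfv⟩ := W.2.2
    rw [← hspan] at hv
    obtain ⟨c, rfl⟩ := Submodule.mem_span_singleton.1 hv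
    refine ⟨hspan, fun h => hfv ?_⟩
    rw [← hQ, QuadraticMap.map_smul, hQ, h, smul_zero]
  have hfib : ∀ W : P, Nat.card {v // π v = W} = Fintype.card F - 1 := by
    intro W
    have e : {v // π v = W} ≃ {w : W.1 // w ≠ 0} :=
      { toFun := fun v => ⟨⟨v.1.1, by
            have : F ∙ v.1.1 = W.1 := congrArg Subtype.val v.2
            exact this ▸ Submodule.mem_span_singleton_self _⟩, fun h => hne _ v.1.2 (congrArg Subtype.val h)⟩
        invFun := fun w => ⟨⟨w.1.1, (hline W _ w.1.2 fun h => w.2 (Subtype.ext h)).2⟩,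
          Subtype.ext (hline W _ w.1.2 fun h => w.2 (Subtype.ext h)).1⟩
        left_inv := fun v => rfl
        right_inv := fun w => rfl }
    rw [Nat.card_congr e, Nat.card_eq_fintype_card, Fintype.card_subtype_compl, Fintype.card_subtype_eq,
      Module.card_eq_pow_finrank (K := F), W.2.1, pow_one]
  rw [← Nat.card_congr (Equiv.sigmaFiberEquiv π), Nat.card_sigma, Finset.sum_congr rfl (fun W _ => hfib W),
    Finset.sum_const, Finset.card_univ, smul_eq_mul, Nat.card_eq_fintype_card]

/-- An element read off from an isometry of an isometric space. -/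
theorem exists_gl_of_equiv {f : (ι → F) → F} {V : Type*} [AddCommGroup V] [Module F V] (f' : V → F)
    (E : (ι → F) ≃ₗ[F] V) (hE : ∀ v, f' (E v) = f v) (A : V ≃ₗ[F] V) (hA : ∀ v, f' (A v) = f' v) :
    ∃ x : GL ι F, x ∈ Cfsg.isometryGroup F f ∧ ∀ v, E ((x : Matrix ι ι F) *ᵥ v) = A (E v) := by
  refine ⟨ClassicalForms.glEquiv.symm ((E.trans A).trans E.symm), ?_, ?_⟩ <;>
    have h : ∀ v, ((ClassicalForms.glEquiv.symm ((E.trans A).trans E.symm) : GL ι F) : Matrix ι ι F) *ᵥ v =
        E.symm (A (E v)) := fun v => by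
      rw [← ClassicalForms.glEquiv_apply, MulEquiv.apply_symm_apply]; rfl
  · rw [mem_isometryGroup_iff_forall]
    intro v
    rw [h, ← hE, E.apply_symm_apply, hA, hE]
  · intro v
    rw [h, E.apply_symm_apply]

end CfsgLib.Omega
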