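import Mathlib
import Cfsg.Agent.Lib.Omega.NonsingularPoint
import Cfsg.Agent.Lib.Classes.QuadSpace
import Cfsg.Agent.Lib.Classes.QuadDisc

/-!
Elements of odd prime order without fixed vectors in Ω of the plus and minus forms in characteristic two,
read off from field extensions.
-/

set_option autoImplicit false

open scoped Matrix
open QuadraticMap

namespace CfsgLib.Omega

universe u v

variable {F : Type u} [Field F] {ι : Type} [Fintype ι] [DecidableEq ι]

/-- An inverted fixed-point-free isometry of an isometric space gives an element of Ω. -/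
theorem exists_free_of_space {f : (ι → F) → F} {V : Type v} [AddCommGroup V] [Module F V] (f' : V → F)
    (E : (ι → F) ≃ₗ[F] V) (hE : ∀ v, f' (E v) = f v) (A H : V ≃ₗ[F] V) (hA : ∀ v, f' (A v) = f' v)
    (hH : ∀ v, f' (H v) = f' v) {r : ℕ} (hr : Odd r) (hAr : ∀ v, A^[r] v = v)
    (hinv : ∀ v, A (H (A v)) = H v) (hfree : ∀ v, A v = v → v = 0) :
    ∃ x : GL ι F, x ∈ Cfsg.Geo.omegaGL f ∧ x ^ r = 1 ∧ ∀ v, (x : Matrix ι ι F) *ᵥ v = v → v = 0 := by
  obtain ⟨x, hx, hxA⟩ := exists_gl_of_equiv f' E hE A hA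
  obtain ⟨h, hh, hhH⟩ := exists_gl_of_equiv f' E hE H hH
  have hpow : ∀ (i : ℕ) v, E (((x ^ i : GL ι F) : Matrix ι ι F) *ᵥ v) = A^[i] (E v) := by
    intro i
    induction i with
    | zero => intro v; simp
    | succ i ih =>
      intro v
      rw [pow_succ, Units.val_mul, ← Matrix.mulVec_mulVec, ih, hxA, Function.iterate_succ_apply]
  have hext : ∀ a b : GL ι F, (∀ v, E ((a : Matrix ι ι F) *ᵥ v) = E ((b : Matrix ι ι F) *ᵥ v)) → a = b :=
    fun a b hab => Units.ext (Matrix.toLin'.injective (LinearMap.ext fun v => E.injective (hab v)))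
  have hxr : x ^ r = 1 := hext _ _ fun v => by rw [hpow, hAr, Units.val_one, Matrix.one_mulVec]
  have hxhx : x * h * x = h := hext _ _ fun v => by
    rw [Units.val_mul, Units.val_mul, ← Matrix.mulVec_mulVec, ← Matrix.mulVec_mulVec, hxA, hhH, hxA, hinv, hhH]
  refine ⟨x, mem_omegaGL_of_inverted x h hx hh hr hxr ?_, hxr, fun v hv => ?_⟩
  · conv_lhs => arg 1; rw [show h * x = x⁻¹ * (x * h * x) by group, hxhx]
    group
  · refine E.injective ?_
    rw [map_zero]
    exact hfree _ (by rw [← hxA, hv])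

/-- Multiplication by a non-zero element. -/
noncomputable def mulEquivLeft {K : Type v} [Field K] [Algebra F K] (c : K) (hc : c ≠ 0) : K ≃ₗ[F] K :=
  { toFun := fun v => c * v
    invFun := fun v => c⁻¹ * v
    map_add' := fun v w => mul_add c v w
    map_smul' := fun t v => mul_smul_comm t c v
    left_inv := fun v => by show c⁻¹ * (c * v) = v; rw [← mul_assoc, inv_mul_cancel₀ hc, one_mul]
    right_inv := fun v => by show c * (c⁻¹ * v) = v; rw [← mul_assoc, mul_inv_cancel₀ hc, one_mul] }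

theorem mulEquivLeft_apply {K : Type v} [Field K] [Algebra F K] (c : K) (hc : c ≠ 0) (v : K) :
    mulEquivLeft (F := F) c hc v = c * v := rfl

/-- A non-trivial root of unity of prime order in an extension. -/
theorem exists_root_of_dvd {K : Type v} [Field K] [Fintype K] {r : ℕ} [Fact r.Prime]
    (h : r ∣ Fintype.card K - 1) : ∃ ζ : K, ζ ^ r = 1 ∧ ζ ≠ 1 ∧ ζ ≠ 0 := by
  classical
  obtain ⟨w, hw⟩ := exists_prime_orderOf_dvd_card' (G := Kˣ) r
    (by rw [Nat.card_eq_fintype_card, Fintype.card_units]; exact h)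
  refine ⟨(w : K), ?_, fun h1 => ?_, w.ne_zero⟩
  · rw [← Units.val_pow_eq_pow_val, ← hw, pow_orderOf_eq_one, Units.val_one]
  · rw [Units.val_eq_one] at h1
    rw [h1, orderOf_one] at hw
    exact (Fact.out : r.Prime).one_lt.ne hw

theorem iterate_mulEquivLeft {K : Type v} [Field K] [Algebra F K] (c : K) (hc : c ≠ 0) (i : ℕ) (v : K) :
    (mulEquivLeft (F := F) c hc)^[i] v = c ^ i * v := by
  induction i with
  | zero => simp
  | succ i ih => rw [Function.iterate_succ_apply', ih, mulEquivLeft_apply, pow_succ]; ring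

/-- A fixed-point-free element of order `r ∣ q^d - 1` in Ω of the plus form. -/
theorem exists_free_plus [Fintype F] (p : ℕ) [Fact p.Prime] [CharP F p] (d : ℕ) [NeZero d] {r : ℕ}
    [Fact r.Prime] (hr : Odd r) (hrd : r ∣ Fintype.card F ^ d - 1) :
    ∃ x : GL (Fin d ⊕ Fin d) F, x ∈ Cfsg.Geo.omegaGL (Cfsg.quadFormPlus d F) ∧ x ^ r = 1 ∧
      ∀ v, (x : Matrix (Fin d ⊕ Fin d) (Fin d ⊕ Fin d) F) *ᵥ v = v → v = 0 := by
  classical
  let L := FiniteField.Extension F p d
  letI : Fintype L := Fintype.ofFinite L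
  have hcard : Fintype.card L = Fintype.card F ^ d := by
    have := FiniteField.natCard_extension F p d
    rwa [Nat.card_eq_fintype_card, Nat.card_eq_fintype_card] at this
  obtain ⟨ζ, hζ, hζ1, hζ0⟩ := exists_root_of_dvd (K := L) (r := r) (by rw [hcard]; exact hrd)
  let b : Module.Basis (Fin d) F L := Module.finBasisOfFinrankEq F L (FiniteField.finrank_extension F p d)
  let b' := (Algebra.traceForm F L).dualBasis (traceForm_nondegenerate F L) b
  have hbb : ∀ i j, Algebra.traceForm F L (b i) (b' j) = if i = j then 1 else 0 := fun i j => by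
    rw [(Algebra.traceForm_isSymm F (S := L)).eq, LinearMap.BilinForm.apply_dualBasis_left]
  let E : (Fin d ⊕ Fin d → F) ≃ₗ[F] L × L :=
    (LinearEquiv.sumArrowLequivProdArrow (Fin d) (Fin d) F F).trans (b.equivFun.symm.prodCongr b'.equivFun.symm)
  have hE : ∀ v, Algebra.traceForm F L (E v).1 (E v).2 = Cfsg.quadFormPlus d F v := by
    intro v
    have h1 : (E v).1 = ∑ i, v (.inl i) • b i := by
      show b.equivFun.symm (fun i => v (.inl i)) = _
      rw [Module.Basis.equivFun_symm_apply]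
    have h2 : (E v).2 = ∑ i, v (.inr i) • b' i := by
      show b'.equivFun.symm (fun i => v (.inr i)) = _
      rw [Module.Basis.equivFun_symm_apply]
    rw [h1, h2]
    simp only [map_sum, map_smul, LinearMap.sum_apply, LinearMap.smul_apply, hbb, smul_eq_mul]
    simp [Cfsg.quadFormPlus, mul_comm]
  refine exists_free_of_space (fun s : L × L => Algebra.traceForm F L s.1 s.2) E hE
    ((mulEquivLeft ζ hζ0).prodCongr (mulEquivLeft ζ⁻¹ (inv_ne_zero hζ0))) (LinearEquiv.prodComm F L L) ?_ ?_ hr ?_ ?_ ?_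
  · intro s
    show Algebra.traceForm F L (ζ * s.1) (ζ⁻¹ * s.2) = Algebra.traceForm F L s.1 s.2
    rw [Algebra.traceForm_apply, Algebra.traceForm_apply]
    congr 1
    rw [mul_mul_mul_comm, mul_inv_cancel₀ hζ0, one_mul]
  · intro s
    exact (Algebra.traceForm_isSymm F (S := L)).eq _ _
  · intro s
    have hit : ∀ i, ((mulEquivLeft (F := F) ζ hζ0).prodCongr (mulEquivLeft ζ⁻¹ (inv_ne_zero hζ0)))^[i] s =
        (ζ ^ i * s.1, ζ⁻¹ ^ i * s.2) := by
      intro i
      induction i with
      | zero => simp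
      | succ i ih =>
        rw [Function.iterate_succ_apply', ih]
        refine Prod.ext ?_ ?_ <;>
          simp [mulEquivLeft_apply, pow_succ] <;> ring
    rw [hit, hζ, inv_pow, hζ, inv_one, one_mul, one_mul]
  · intro s
    refine Prod.ext ?_ ?_
    · show ζ * (ζ⁻¹ * s.2) = s.2
      rw [← mul_assoc, mul_inv_cancel₀ hζ0, one_mul]
    · show ζ⁻¹ * (ζ * s.1) = s.1
      rw [← mul_assoc, inv_mul_cancel₀ hζ0, one_mul]
  · intro s hs
    have h1 : ζ * s.1 = s.1 := congrArg Prod.fst hs
    have h2 : ζ⁻¹ * s.2 = s.2 := congrArg Prod.snd hs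
    refine Prod.ext ?_ ?_
    · exact (mul_eq_zero.1 (show (ζ - 1) * s.1 = 0 by rw [sub_mul, one_mul, h1, sub_self])).resolve_left
        (sub_ne_zero.2 hζ1)
    · exact (mul_eq_zero.1 (show (ζ⁻¹ - 1) * s.2 = 0 by rw [sub_mul, one_mul, h2, sub_self])).resolve_left
        (sub_ne_zero.2 fun h => hζ1 (inv_eq_one.1 h))

/-- A fixed-point-free element of order `r ∣ q^d + 1` in Ω of a minus form. -/
theorem exists_free_minus [Fintype F] [CharP F 2] (d : ℕ) [NeZero d] {a b : F}
    (hab : ∀ x y : F, x ^ 2 + a * x * y + b * y ^ 2 = 0 → x = 0 ∧ y = 0) {r : ℕ}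
    [Fact r.Prime] (hr : Odd r) (hrd : r ∣ Fintype.card F ^ d + 1) :
    ∃ x : GL ((Fin (d - 1) ⊕ Fin (d - 1)) ⊕ Fin 2) F, x ∈ Cfsg.Geo.omegaGL (Cfsg.quadFormMinus (d - 1) F a b) ∧
      x ^ r = 1 ∧ ∀ v, (x : Matrix ((Fin (d - 1) ⊕ Fin (d - 1)) ⊕ Fin 2) ((Fin (d - 1) ⊕ Fin (d - 1)) ⊕ Fin 2) F)
        *ᵥ v = v → v = 0 := by
  classical
  haveI : Fact (Nat.Prime 2) := ⟨Nat.prime_two⟩
  set q := Fintype.card F with hq
  haveI : NeZero (2 * d) := ⟨by have := NeZero.ne d; omega⟩
  let K := FiniteField.Extension F 2 (2 * d)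
  letI : Fintype K := Fintype.ofFinite K
  have hcard : Fintype.card K = q ^ (2 * d) := by
    have := FiniteField.natCard_extension F 2 (2 * d)
    rwa [Nat.card_eq_fintype_card, Nat.card_eq_fintype_card] at this
  obtain ⟨ζ, hζ, hζ1, hζ0⟩ := exists_root_of_dvd (K := K) (r := r) (by
    rw [hcard, show q ^ (2 * d) - 1 = (q ^ d - 1) * (q ^ d + 1) by
      rw [two_mul, pow_add, ← Nat.pow_two, ← one_pow 2, Nat.sq_sub_sq, one_pow]; ring]
    exact dvd_mul_of_dvd_right hrd _)
  let σ : K ≃ₐ[F] K := FiniteField.Extension.frob F 2 (2 * d) ^ d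
  have hσ : ∀ v, σ v = v ^ q ^ d := fun v => by
    rw [show σ v = v ^ (Nat.card F ^ d) from FiniteField.Extension.frob_iterate_apply F 2 (2 * d) d,
      Nat.card_eq_fintype_card]
  have hσσ : ∀ v, σ (σ v) = v := fun v => by
    rw [hσ, hσ, ← pow_mul, ← pow_add, show d + d = 2 * d by ring, ← hcard, FiniteField.pow_card]
  have hq2 : 1 < q ^ d := Nat.one_lt_pow (NeZero.ne d) Fintype.one_lt_card
  obtain ⟨u₀, hu₀⟩ : ∃ u, σ u ≠ u := by
    by_contra h
    push Not at h
    have hroots : (Finset.univ : Finset K).card ≤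
        (Polynomial.X ^ (q ^ d) - Polynomial.X : Polynomial K).natDegree := by
      refine Polynomial.card_le_degree_of_subset_roots fun k _ => ?_
      rw [Polynomial.mem_roots (FiniteField.X_pow_card_sub_X_ne_zero K hq2)]
      simp [← hσ, h k]
    rw [Finset.card_univ, hcard, FiniteField.X_pow_card_sub_X_natDegree_eq K hq2] at hroots
    have := Nat.pow_lt_pow_right (Fintype.one_lt_card (α := F)) (show d < 2 * d by have := NeZero.ne d; omega)
    rw [← hq] at this
    omega
  have hchar : CharP K 2 := charP_of_injective_algebraMap (algebraMap F K).injective 2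
  have ha₀ : u₀ + σ u₀ ≠ 0 := fun h => hu₀ (CharTwo.add_eq_zero.1 h).symm
  let bK : Module.Basis (Fin (2 * d)) F K := Module.finBasisOfFinrankEq F K (FiniteField.finrank_extension F 2 (2 * d))
  obtain ⟨i₀, hi₀⟩ : ∃ i, bK.repr (u₀ + σ u₀) i ≠ 0 := by
    by_contra h
    push Not at h
    exact ha₀ (bK.repr.injective (Finsupp.ext fun i => by rw [h i, map_zero]; rfl))
  let τ : K →ₗ[F] F := bK.coord i₀
  let B : LinearMap.BilinForm F K := LinearMap.mk₂ F (fun v w => τ (v * σ w))
    (fun v v' w => by simp [add_mul]) (fun c v w => by simp) (fun v w w' => by simp [mul_add])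
    (fun c v w => by simp)
  let Q' : QuadraticForm F K := LinearMap.BilinMap.toQuadraticMap B
  have hQ' : ∀ v, Q' v = τ (v * σ v) := fun v => rfl
  have hnd : (polarBilin Q').Nondegenerate := by
    have hl : ∀ v, (∀ w, polarBilin Q' v w = 0) → v = 0 := by
      intro v hv
      by_contra hv0
      have h1 := hv (σ (u₀ / v))
      rw [polarBilin_apply_apply, polar, hQ', hQ', hQ', map_add, hσσ, ← map_sub, ← map_sub] at h1
      refine hi₀ ?_
      rw [show u₀ + σ u₀ = (v + σ (u₀ / v)) * (σ v + u₀ / v) - v * σ v - σ (u₀ / v) * (u₀ / v) by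
        rw [show σ u₀ = σ v * σ (u₀ / v) by rw [← map_mul, mul_div_cancel₀ _ hv0]]
        linear_combination (-1 : K) * mul_div_cancel₀ u₀ hv0]
      exact h1
    refine ⟨hl, fun y hy => hl y fun z => ?_⟩
    rw [polarBilin_apply_apply, polar_comm]; exact hy z
  have hζσ : ζ * σ ζ = 1 := by
    rw [hσ, ← pow_succ']
    obtain ⟨c, hc⟩ := hrd
    rw [hc, pow_mul, hζ, one_pow]
  let A : K ≃ₗ[F] K := mulEquivLeft ζ hζ0
  have hA : ∀ v, Q' (A v) = Q' v := fun v => by
    rw [hQ', hQ', mulEquivLeft_apply, map_mul σ, show ζ * v * (σ ζ * σ v) = ζ * σ ζ * (v * σ v) by ring, hζσ, one_mul]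
  have hH : ∀ v, Q' (σ.toLinearEquiv v) = Q' v := fun v => by
    rw [hQ', hQ']
    show τ (σ v * σ (σ v)) = τ (v * σ v)
    rw [hσσ, mul_comm (σ v) v]
  have hfree : ∀ v, A v = v → v = 0 := fun v hv => by
    rw [mulEquivLeft_apply] at hv
    exact (mul_eq_zero.1 (show (ζ - 1) * v = 0 by rw [sub_mul, one_mul, hv, sub_self])).resolve_left
      (sub_ne_zero.2 hζ1)
  have hAr : ∀ v, A^[r] v = v := fun v => by rw [iterate_mulEquivLeft, hζ, one_mul]
  rcases Classes.exists_equiv_even (m := d) (Nat.one_le_iff_ne_zero.2 (NeZero.ne d))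
      (FiniteField.finrank_extension F 2 (2 * d)) Q' hnd with ⟨E, hE⟩ | ⟨E, ζ', hζ', hE⟩
  · -- the plus form has the wrong number of singular vectors
    exfalso
    let π : Equiv.Perm {v : K // Q' v = 0} := A.toEquiv.subtypeEquiv fun v => by
      show Q' v = 0 ↔ Q' (A v) = 0
      rw [hA]
    have hπ : ∀ (i : ℕ) v, ((π ^ i) v : K) = A^[i] v.1 := by
      intro i
      induction i with
      | zero => intro v; simp
      | succ i ih =>
        intro v
        rw [pow_succ', Equiv.Perm.mul_apply, Function.iterate_succ_apply', ← ih v]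
        rfl
    have hπr : π ^ r ^ 1 = 1 := Equiv.ext fun v => Subtype.ext (by rw [pow_one, hπ, hAr]; rfl)
    have hmod := Equiv.Perm.card_compl_support_modEq hπr
    have hone : π.supportᶜ.card = 1 := by
      rw [Finset.card_eq_one]
      refine ⟨⟨0, QuadraticMap.map_zero _⟩, Finset.eq_singleton_iff_unique_mem.2 ⟨?_, fun v hv => ?_⟩⟩
      · rw [Finset.mem_compl, Equiv.Perm.notMem_support]
        exact Subtype.ext (map_zero A)
      · rw [Finset.mem_compl, Equiv.Perm.notMem_support] at hv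
        exact Subtype.ext (hfree _ (congrArg Subtype.val hv))
    have hZ := ClassicalForms.card_zeros_qPlus (F := F) d
    rw [← ClassicalForms.card_zeros_congr (Q := Q') E (fun v => by rw [ClassicalForms.qPlus_apply, ← hE])] at hZ
    rw [hone, ← ZMod.natCast_eq_natCast_iff, ← Nat.card_eq_fintype_card] at hmod
    have hZ' := congrArg (fun t : ℤ => (t : ZMod r)) hZ
    push_cast at hZ'
    rw [← hmod] at hZ'
    have hqd : (q : ZMod r) ^ d = -1 := by
      rw [← ZMod.natCast_eq_zero_iff] at hrd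
      push_cast at hrd
      linear_combination hrd
    rw [Nat.card_eq_fintype_card, ← hq, pow_succ, hqd] at hZ'
    push_cast at hZ'
    have h2 : (2 : ZMod r) ≠ 0 := by
      intro h
      have hd2 : r ∣ 2 := (ZMod.natCast_eq_zero_iff 2 r).1 (by exact_mod_cast h)
      have := (Nat.prime_dvd_prime_iff_eq Fact.out Nat.prime_two).1 hd2
      obtain ⟨c, hc⟩ := hr
      omega
    have hq1 : (q : ZMod r) = 1 := by
      refine mul_left_cancel₀ h2 ?_
      linear_combination hZ'
    rw [hq1, one_pow] at hqd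
    exact h2 (by linear_combination hqd)
  · have ha : a ≠ 0 := fun ha => by
      obtain ⟨c, hc⟩ := FiniteField.isSquare_of_char_two (ringChar.eq F 2) b
      exact one_ne_zero (hab c 1 (by rw [ha, hc, zero_mul, zero_mul, add_zero, one_pow, mul_one, pow_two, CharTwo.add_self_eq_zero])).2
    have hζab : ∀ t : F, t ^ 2 + t + b / a ^ 2 ≠ 0 := fun t ht => by
      have := (hab t (1 / a) (by rw [← ht]; field_simp)).2
      simp [ha] at this
    obtain ⟨g, hg⟩ := Classes.minus_isometric (d - 1) hζ' hζab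
    let sc : ((Fin (d - 1) ⊕ Fin (d - 1)) ⊕ Fin 2) → Fˣ :=
      Sum.elim (fun _ => 1) ![1, Units.mk0 a⁻¹ (inv_ne_zero ha)]
    let S : ((Fin (d - 1) ⊕ Fin (d - 1)) ⊕ Fin 2 → F) ≃ₗ[F] ((Fin (d - 1) ⊕ Fin (d - 1)) ⊕ Fin 2 → F) :=
      LinearEquiv.piCongrRight fun i => LinearEquiv.smulOfUnit (sc i)
    have hS : ∀ z, Cfsg.quadFormMinus (d - 1) F a b (S z) = Cfsg.quadFormMinus (d - 1) F 1 (b / a ^ 2) z := fun z => by
      simp [Cfsg.quadFormMinus, S, sc, LinearEquiv.smulOfUnit, Units.smul_def]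
      field_simp
    refine exists_free_of_space (fun v => Q' v) ((E.trans g).trans S).symm (fun z => ?_) A σ.toLinearEquiv hA hH hr hAr
      (fun v => ?_) hfree
    · obtain ⟨v, rfl⟩ := ((E.trans g).trans S).surjective z
      rw [LinearEquiv.symm_apply_apply, hE]
      show _ = Cfsg.quadFormMinus (d - 1) F a b (S (g (E v)))
      rw [hS, hg]
    · show A (σ (A v)) = σ v
      rw [mulEquivLeft_apply, mulEquivLeft_apply, map_mul, ← mul_assoc, hζσ, one_mul]

end CfsgLib.Omega
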