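import Mathlib
import Cfsg.Prelude.Def_GeometricClasses
import Cfsg.Agent.Lib.Omega.SquareScalar

/-!
Quadratic field subalgebras of matrix algebras and their normalisers.
-/

set_option autoImplicit false

open scoped Matrix

namespace CfsgLib.Omega

variable {F : Type*} [Field F] {ι : Type} [Fintype ι] [DecidableEq ι]

/-- A non-zero element of a field subalgebra has trivial kernel. -/
theorem eq_zero_of_field_mulVec {r : ℕ} {K : Subalgebra F (Matrix ι ι F)} (hK : Cfsg.Geo.IsFieldSubalgebra r K)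
    {k : Matrix ι ι F} (hk : k ∈ K) (hk0 : k ≠ 0) {w : ι → F} (hw : k *ᵥ w = 0) : w = 0 := by
  obtain ⟨y, hy, hky⟩ := hK.inv k hk hk0
  rw [hK.comm k hk y hy] at hky
  rw [← Matrix.one_mulVec w, ← hky, ← Matrix.mulVec_mulVec, hw, Matrix.mulVec_zero]

theorem eq_zero_of_field_eigen {r : ℕ} {K : Subalgebra F (Matrix ι ι F)} (hK : Cfsg.Geo.IsFieldSubalgebra r K)
    {θ : Matrix ι ι F} (hθ : θ ∈ K) (hns : ∀ c : F, θ ≠ c • 1) {w : ι → F} {c : F} (hw : θ *ᵥ w = c • w) :
    w = 0 :=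
  eq_zero_of_field_mulVec hK (sub_mem hθ (K.smul_mem (one_mem K) c))
    (sub_ne_zero.2 (hns c)) (by rw [Matrix.sub_mulVec, Matrix.smul_mulVec, Matrix.one_mulVec, hw, sub_self])

/-- A quadratic field subalgebra is generated by a root of an irreducible quadratic, which may be taken
purely quadratic when two is invertible. -/
theorem exists_quadratic_generator [Nonempty ι] {K : Subalgebra F (Matrix ι ι F)}
    (hK : Cfsg.Geo.IsFieldSubalgebra 2 K) :
    ∃ (θ : Matrix ι ι F) (a b : F), θ ∈ K ∧ (∀ c : F, θ ≠ c • 1) ∧ θ * θ = a • θ + b • 1 ∧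
      (∀ k ∈ K, ∃ c d : F, k = c • 1 + d • θ) ∧ ((2 : F) ≠ 0 → a = 0) := by
  classical
  obtain ⟨θ₁, hθ₁, hns₁⟩ : ∃ θ ∈ K, ∀ c : F, θ ≠ c • (1 : Matrix ι ι F) := by
    by_contra h
    push Not at h
    have hle : Subalgebra.toSubmodule K ≤ Submodule.span F {(1 : Matrix ι ι F)} := fun k hk => by
      obtain ⟨c, hc⟩ := h k hk
      exact Submodule.mem_span_singleton.2 ⟨c, hc.symm⟩
    have := Submodule.finrank_mono hle
    rw [Subalgebra.finrank_toSubmodule, hK.finrank_eq, finrank_span_singleton one_ne_zero] at this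
    omega
  have span : ∀ θ : Matrix ι ι F, θ ∈ K → (∀ c : F, θ ≠ c • 1) → ∀ k ∈ K, ∃ c d : F, k = c • 1 + d • θ := by
    intro θ hθ hns k hk
    have hli : LinearIndependent F ![(1 : Matrix ι ι F), θ] :=
      (LinearIndependent.pair_iff' one_ne_zero).2 fun c h => hns c h.symm
    have hle : Submodule.span F (Set.range ![(1 : Matrix ι ι F), θ]) ≤ Subalgebra.toSubmodule K := by
      rw [Submodule.span_le]
      rintro _ ⟨i, rfl⟩
      fin_cases i
      · exact one_mem K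
      · exact hθ
    have heq := Submodule.eq_of_le_of_finrank_eq hle (by
      rw [finrank_span_eq_card hli, Subalgebra.finrank_toSubmodule, hK.finrank_eq, Fintype.card_fin])
    have hk' : k ∈ Submodule.span F (Set.range ![(1 : Matrix ι ι F), θ]) := heq ▸ hk
    obtain ⟨c, hc⟩ := (Submodule.mem_span_range_iff_exists_fun F).1 hk'
    exact ⟨c 0, c 1, by rw [← hc, Fin.sum_univ_two]; rfl⟩
  obtain ⟨b, a, hab⟩ := span θ₁ hθ₁ hns₁ _ (mul_mem hθ₁ hθ₁)
  by_cases h2 : (2 : F) = 0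
  · exact ⟨θ₁, a, b, hθ₁, hns₁, by rw [hab, add_comm], span θ₁ hθ₁ hns₁, fun h => absurd h2 h⟩
  · have hns : ∀ c : F, θ₁ - (a / 2) • (1 : Matrix ι ι F) ≠ c • 1 := fun c h =>
      hns₁ (c + a / 2) (by rw [add_smul, ← h, sub_add_cancel])
    have hmem : θ₁ - (a / 2) • (1 : Matrix ι ι F) ∈ K := sub_mem hθ₁ (K.smul_mem (one_mem K) _)
    refine ⟨_, 0, b + (a / 2) * (a / 2), hmem, hns, ?_, span _ hmem hns, fun _ => rfl⟩
    simp only [sub_mul, mul_sub, Matrix.smul_mul, Matrix.mul_smul, Matrix.one_mul, Matrix.mul_one, hab,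
      zero_smul, zero_mul, zero_add, add_smul, smul_smul, smul_sub]
    rw [show (a : F) • θ₁ = (a / 2) • θ₁ + (a / 2) • θ₁ by
      rw [← add_smul]; congr 1; field_simp; ring]
    abel

/-- An element carrying the generator into the algebra normalises it. -/
theorem mem_normalizer_of_generator {K : Subalgebra F (Matrix ι ι F)} {θ : Matrix ι ι F} (hθ : θ ∈ K)
    (hspan : ∀ k ∈ K, ∃ c d : F, k = c • 1 + d • θ) (g : GL ι F) {c d : F} (hd : d ≠ 0)
    (h : (g : Matrix ι ι F) * θ = (c • 1 + d • θ) * (g : Matrix ι ι F)) :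
    g ∈ Cfsg.Geo.subalgebraNormalizer K := by
  set A : Matrix ι ι F := (g : Matrix ι ι F) with hA
  set B : Matrix ι ι F := ((g⁻¹ : GL ι F) : Matrix ι ι F) with hB
  have hAB : A * B = 1 := by rw [hA, hB, ← Units.val_mul, mul_inv_cancel, Units.val_one]
  have hBA : B * A = 1 := by rw [hA, hB, ← Units.val_mul, inv_mul_cancel, Units.val_one]
  have h1 : A * θ * B = c • 1 + d • θ := by rw [h, Matrix.mul_assoc, hAB, Matrix.mul_one]
  have h2 : B * θ * A = d⁻¹ • θ - (d⁻¹ * c) • 1 := by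
    have h3 : θ = B * (c • 1 + d • θ) * A := by
      rw [Matrix.mul_assoc, ← h, ← Matrix.mul_assoc, hBA, Matrix.one_mul]
    rw [Matrix.mul_add, Matrix.add_mul, Matrix.mul_smul, Matrix.mul_smul, Matrix.mul_one,
      Matrix.smul_mul, Matrix.smul_mul, hBA] at h3
    conv_rhs => arg 1; rw [h3]
    simp [smul_add, smul_smul, inv_mul_cancel₀ hd]
  intro k
  show k ∈ K ↔ A * k * B ∈ K
  constructor
  · intro hk
    obtain ⟨c', d', rfl⟩ := hspan k hk
    have : A * (c' • 1 + d' • θ) * B = c' • 1 + d' • (c • 1 + d • θ) := by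
      simp only [Matrix.mul_add, Matrix.add_mul, Matrix.mul_smul, Matrix.smul_mul, Matrix.mul_one, hAB, h1]
    rw [this]
    exact add_mem (K.smul_mem (one_mem K) _)
      (K.smul_mem (add_mem (K.smul_mem (one_mem K) _) (K.smul_mem hθ _)) _)
  · intro hk
    obtain ⟨c', d', hk'⟩ := hspan _ hk
    have : k = c' • 1 + d' • (B * θ * A) := by
      have h4 : k = B * (A * k * B) * A := by
        simp only [← Matrix.mul_assoc, hBA, Matrix.one_mul]
        rw [Matrix.mul_assoc, hBA, Matrix.mul_one]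
      rw [h4, hk']
      simp only [Matrix.mul_add, Matrix.add_mul, Matrix.mul_smul, Matrix.smul_mul, Matrix.mul_one, hBA]
    rw [this, h2]
    exact add_mem (K.smul_mem (one_mem K) _)
      (K.smul_mem (sub_mem (K.smul_mem hθ _) (K.smul_mem (one_mem K) _)) _)

/-- A scaled one plus rank one matrix normalises no quadratic field in dimension at least three. -/
theorem not_mem_normalizer_rank_one {n : ℕ} (hn : 2 < n) {r : ℕ} {K : Subalgebra F (Matrix (Fin n) (Fin n) F)}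
    (hK : Cfsg.Geo.IsFieldSubalgebra r K) {θ : Matrix (Fin n) (Fin n) F} (hθ : θ ∈ K)
    (hns : ∀ c : F, θ ≠ c • 1) (y : GL (Fin n) F) {a : F} (ha : a ≠ 0) {u v : Fin n → F} (hu : u ≠ 0) (hv : v ≠ 0)
    (hy : (y : Matrix (Fin n) (Fin n) F) = a • (1 + Matrix.vecMulVec u v)) :
    y ∉ Cfsg.Geo.subalgebraNormalizer K := by
  intro hmem
  set Y : Matrix (Fin n) (Fin n) F := (y : Matrix (Fin n) (Fin n) F) with hY
  set k := Y * θ * ((y⁻¹ : GL (Fin n) F) : Matrix (Fin n) (Fin n) F) with hkdef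
  have hk : k ∈ K := (hmem θ).1 hθ
  have hky : k * Y = Y * θ := by
    rw [hkdef, hY, Matrix.mul_assoc, ← Units.val_mul, inv_mul_cancel, Units.val_one, Matrix.mul_one]
  have happ : ∀ w, Y *ᵥ w = a • (w + (v ⬝ᵥ w) • u) := fun w => by
    rw [hy, Matrix.smul_mulVec, Matrix.add_mulVec, Matrix.one_mulVec, Matrix.vecMulVec_mulVec]
    simp
  obtain ⟨w, hw, hw0⟩ : ∃ w, Matrix.toLin' (Matrix.of ![v, v ᵥ* θ]) w = 0 ∧ w ≠ 0 := by
    have hne : LinearMap.ker (Matrix.toLin' (Matrix.of ![v, v ᵥ* θ])) ≠ ⊥ :=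
      LinearMap.ker_ne_bot_of_finrank_lt (by simpa using hn)
    obtain ⟨w, hw, hw0⟩ := (Submodule.ne_bot_iff _).1 hne
    exact ⟨w, hw, hw0⟩
  rw [Matrix.toLin'_apply] at hw
  have hvw : v ⬝ᵥ w = 0 := congrFun hw 0
  have hvθw : v ⬝ᵥ (θ *ᵥ w) = 0 := by rw [Matrix.dotProduct_mulVec]; exact congrFun hw 1
  have hkθ : k = θ := by
    by_contra hne
    have hYw : Y *ᵥ w ≠ 0 := fun h => hw0 (Matrix.mulVec_injective_of_isUnit y.isUnit
      (show Y *ᵥ w = Y *ᵥ 0 by rw [h, Matrix.mulVec_zero]))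
    refine hYw (eq_zero_of_field_mulVec hK (sub_mem hk hθ) (sub_ne_zero.2 hne) ?_)
    rw [Matrix.sub_mulVec, Matrix.mulVec_mulVec, hky, ← Matrix.mulVec_mulVec, happ, happ, hvθw, hvw,
      zero_smul, Matrix.mulVec_smul, add_zero, add_zero, sub_self]
  rw [hkθ] at hky
  obtain ⟨i, hi⟩ := Function.ne_iff.1 hv
  have hvi : v ⬝ᵥ Pi.single i 1 ≠ 0 := by simpa using hi
  have h := congrArg (fun M => M *ᵥ Pi.single i (1 : F)) hky
  simp only [← Matrix.mulVec_mulVec, happ, Matrix.mulVec_smul, Matrix.mulVec_add] at h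
  have h' := add_left_cancel (smul_right_injective _ ha h)
  refine hu (eq_zero_of_field_eigen hK hθ hns
    (c := (v ⬝ᵥ (θ *ᵥ Pi.single i 1)) / (v ⬝ᵥ Pi.single i 1)) ?_)
  rw [div_eq_inv_mul, ← smul_smul, ← h', smul_smul, inv_mul_cancel₀ hvi, one_smul]

end CfsgLib.Omega
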