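import Mathlib
import Cfsg.Prelude.Def_GeometricClasses
import Cfsg.Agent.Lib.Omega.SkewNilpotent
import Cfsg.Agent.Lib.Classes.QuadSpace
import Cfsg.Agent.Lib.Classes.QuadDisc
import Cfsg.Agent.Lib.Forms.OrthRefl
import Cfsg.Agent.Lib.ClassicalForms.Ortho.Basic

/-!
Unipotent elements of Ω with a prescribed Jordan type in odd characteristic, and the partitions read off
from a fixed non-degenerate subspace.
-/

set_option autoImplicit false

open Module QuadraticMap
open scoped Matrix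

namespace CfsgLib.Omega

universe u v

variable {F : Type u} [Field F]

/-- An isometry of odd order lies in Ω. -/
theorem mem_omegaGL_of_odd_order {ι : Type} [Fintype ι] [DecidableEq ι] [Finite F] (h2 : (2 : F) ≠ 0)
    {Q : QuadraticForm F (ι → F)} (hQ : (polarBilin Q).Nondegenerate) (x : GL ι F)
    (hx : ∀ v, Q ((x : Matrix ι ι F) *ᵥ v) = Q v) {p : ℕ} (hp : Odd p) (hxp : x ^ p = 1) :
    x ∈ Cfsg.Geo.omegaGL (⇑Q) := by
  classical
  let X : Cfsg.isometryGroup F (⇑Q) := ⟨x, fun v _ => hx v⟩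
  have htop : Forms.reflClosure Q = ⊤ := Forms.reflClosure_eq_top hQ (Or.inl ⟨-1, neg_ne_zero.2 one_ne_zero,
    fun h => h2 (by linear_combination -h)⟩)
  have hsq : ∀ g : Cfsg.isometryGroup F (⇑Q), Abelianization.of g * Abelianization.of g = 1 := by
    intro g
    have hg : g ∈ Forms.reflClosure Q := by rw [htop]; trivial
    induction hg using Subgroup.closure_induction with
    | mem y hy =>
      obtain ⟨v, hv, rfl⟩ := hy
      rw [← map_mul, OrthGen.refl_mul_self, map_one]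
    | one => rw [map_one, one_mul]
    | mul a b _ _ ha hb => rw [map_mul, mul_mul_mul_comm, ha, hb, one_mul]
    | inv a _ ha => rw [map_inv, ← mul_inv_rev, ha, inv_one]
  have hX : X ^ p = 1 := Subtype.ext hxp
  have h1 : Abelianization.of X = 1 := by
    obtain ⟨k, rfl⟩ := hp
    have h := congrArg Abelianization.of hX
    rwa [map_pow, map_one, pow_succ, pow_mul, pow_two, hsq, one_pow, one_mul] at h
  refine ⟨X, ?_, rfl⟩
  exact (QuotientGroup.eq_one_iff X).1 h1

section Classify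

variable [Fintype F]

/-- Isometric forms have Gram determinants in one square class. -/
theorem det_gram_of_isometry {V : Type v} [AddCommGroup V] [Module F V] {κ : Type*} [Fintype κ] [DecidableEq κ]
    (b : Module.Basis κ F V) {Q Q' : QuadraticForm F V} (L : V ≃ₗ[F] V) (h : ∀ v, Q v = Q' (L v)) :
    ∃ d : F, d ≠ 0 ∧ (LinearMap.BilinForm.toMatrix b (polarBilin Q)).det =
      d ^ 2 * (LinearMap.BilinForm.toMatrix b (polarBilin Q')).det := by
  have hB : polarBilin Q = LinearMap.BilinForm.comp (polarBilin Q') L.toLinearMap L.toLinearMap := by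
    refine LinearMap.ext fun u => LinearMap.ext fun v => ?_
    show polar Q u v = polar Q' (L u) (L v)
    simp only [polar, h, map_add]
  refine ⟨(LinearMap.toMatrix b b L.toLinearMap).det, ?_, ?_⟩
  · rw [LinearMap.det_toMatrix]
    exact (LinearEquiv.isUnit_det' L).ne_zero
  · rw [hB, LinearMap.BilinForm.toMatrix_comp b b, Matrix.det_mul, Matrix.det_mul, Matrix.det_transpose]
    ring

/-- Two forms of one dimension with Gram determinants in different square classes: every form of that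
dimension is isometric to one of them. -/
theorem isometric_or_isometric (h2 : (2 : F) ≠ 0) {ι : Type} [Fintype ι] (Q₀ : QuadraticForm F (ι → F))
    (hQ₀ : (polarBilin Q₀).Nondegenerate) {V : Type v} [AddCommGroup V] [Module F V] [FiniteDimensional F V]
    (hV : finrank F V = Fintype.card ι) (Q₁ Q₂ : QuadraticForm F V) (h₁ : (polarBilin Q₁).Nondegenerate)
    (h₂ : (polarBilin Q₂).Nondegenerate) (hne : ∀ L : V ≃ₗ[F] V, ¬ ∀ v, Q₁ v = Q₂ (L v)) :
    (∃ E : V ≃ₗ[F] (ι → F), ∀ v, Q₁ v = Q₀ (E v)) ∨ ∃ E : V ≃ₗ[F] (ι → F), ∀ v, Q₂ v = Q₀ (E v) := by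
  classical
  have hι : finrank F (ι → F) = Fintype.card ι := finrank_fintype_fun_eq_card F
  rcases Nat.even_or_odd' (Fintype.card ι) with ⟨m, hm | hm⟩
  · rcases Nat.eq_zero_or_pos m with hm0 | hm0
    · haveI : Subsingleton V := Module.finrank_zero_iff.1 (by omega : finrank F V = 0)
      exact absurd (fun v => by rw [Subsingleton.elim v 0, QuadraticMap.map_zero, LinearEquiv.refl_apply, QuadraticMap.map_zero])
        (hne (LinearEquiv.refl F V))
    rcases Classes.exists_equiv_even hm0 (hι.trans hm) Q₀ hQ₀ with ⟨E₀, hE₀⟩ | ⟨E₀, ζ₀, hζ₀, hE₀⟩ <;>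
      rcases Classes.exists_equiv_even hm0 (hV.trans hm) Q₁ h₁ with ⟨E₁, hE₁⟩ | ⟨E₁, ζ₁, hζ₁, hE₁⟩
    · exact .inl ⟨E₁.trans E₀.symm, fun v => by simp [hE₀, hE₁]⟩
    · rcases Classes.exists_equiv_even hm0 (hV.trans hm) Q₂ h₂ with ⟨E₂, hE₂⟩ | ⟨E₂, ζ₂, hζ₂, hE₂⟩
      · exact .inr ⟨E₂.trans E₀.symm, fun v => by simp [hE₀, hE₂]⟩
      · obtain ⟨g, hg⟩ := Classes.minus_isometric (m - 1) hζ₁ hζ₂
        exact absurd (fun v => by simp [hE₁, hE₂, hg]) (hne (E₁.trans (g.trans E₂.symm)))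
    · rcases Classes.exists_equiv_even hm0 (hV.trans hm) Q₂ h₂ with ⟨E₂, hE₂⟩ | ⟨E₂, ζ₂, hζ₂, hE₂⟩
      · exact absurd (fun v => by simp [hE₁, hE₂]) (hne (E₁.trans E₂.symm))
      · obtain ⟨g, hg⟩ := Classes.minus_isometric (m - 1) hζ₂ hζ₀
        exact .inr ⟨E₂.trans (g.trans E₀.symm), fun v => by simp [hE₀, hE₂, hg]⟩
    · obtain ⟨g, hg⟩ := Classes.minus_isometric (m - 1) hζ₁ hζ₀
      exact .inl ⟨E₁.trans (g.trans E₀.symm), fun v => by simp [hE₀, hE₁, hg]⟩
  · obtain ⟨E₀, c₀, -, hc₀, hE₀⟩ := Classes.exists_equiv_odd (hι.trans hm) Q₀ hQ₀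
    obtain ⟨E₁, c₁, -, hc₁, hE₁⟩ := Classes.exists_equiv_odd (hV.trans hm) Q₁ h₁
    obtain ⟨E₂, c₂, -, hc₂, hE₂⟩ := Classes.exists_equiv_odd (hV.trans hm) Q₂ h₂
    have key : ∀ c c' : F, c ≠ 0 → c' ≠ 0 → IsSquare (c * c') →
        ∃ g : (Unit ⊕ (Fin m ⊕ Fin m) → F) ≃ₗ[F] (Unit ⊕ (Fin m ⊕ Fin m) → F), ∀ z,
          c * z (.inl ()) ^ 2 + ∑ i : Fin m, z (.inr (.inl i)) * z (.inr (.inr i)) =
            c' * g z (.inl ()) ^ 2 + ∑ i : Fin m, g z (.inr (.inl i)) * g z (.inr (.inr i)) := by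
      rintro c c' hc hc' ⟨s, hs⟩
      have hs0 : s ≠ 0 := fun h => mul_ne_zero hc hc' (by rw [hs, h, mul_zero])
      let w : Unit ⊕ (Fin m ⊕ Fin m) → Fˣ := Sum.elim (fun _ => Units.mk0 (s / c') (div_ne_zero hs0 hc')) 1
      refine ⟨LinearEquiv.piCongrRight fun i => LinearEquiv.smulOfUnit (w i), fun z => ?_⟩
      simp [w, LinearEquiv.smulOfUnit, Units.smul_def]
      field_simp
      linear_combination z (Sum.inl ()) ^ 2 * hs
    by_cases h01 : IsSquare (c₁ * c₀)
    · obtain ⟨g, hg⟩ := key c₁ c₀ hc₁ hc₀ h01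
      refine .inl ⟨E₁.trans (g.trans E₀.symm), fun v => ?_⟩
      simp only [LinearEquiv.trans_apply, hE₀, LinearEquiv.apply_symm_apply, hE₁, hg]
    by_cases h02 : IsSquare (c₂ * c₀)
    · obtain ⟨g, hg⟩ := key c₂ c₀ hc₂ hc₀ h02
      refine .inr ⟨E₂.trans (g.trans E₀.symm), fun v => ?_⟩
      simp only [LinearEquiv.trans_apply, hE₀, LinearEquiv.apply_symm_apply, hE₂, hg]
    obtain ⟨g, hg⟩ := key c₁ c₂ hc₁ hc₂ (by
      rw [Classes.isSquare_mul_iff h2 hc₁ hc₂]
      rw [Classes.isSquare_mul_iff h2 hc₁ hc₀] at h01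
      rw [Classes.isSquare_mul_iff h2 hc₂ hc₀] at h02
      tauto)
    exact absurd (fun v => by simp only [LinearEquiv.trans_apply, hE₁, hE₂, LinearEquiv.apply_symm_apply, hg])
      (hne (E₁.trans (g.trans E₂.symm)))

/-- A skew nilpotent map for every form, of every type with some odd part whose even parts have even
multiplicities. -/
theorem exists_skew_of_type (h2 : (2 : F) ≠ 0) {ι : Type} [Fintype ι] (Q₀ : QuadraticForm F (ι → F))
    (hQ₀ : (polarBilin Q₀).Nondegenerate) (μ : Multiset ℕ) (hμ : ∀ e, Even e → Even (μ.count e))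
    (hsum : μ.sum = Fintype.card ι) (hodd : ∃ e ∈ μ, Odd e) :
    ∃ Y : Module.End F (ι → F), (∀ u v, polar Q₀ (Y u) v = -polar Q₀ u (Y v)) ∧
      ∀ i, rankSeq Y ⊤ i = (μ.map (fun b => b - i)).sum := by
  classical
  obtain ⟨e, he, heo⟩ := hodd
  obtain ⟨ν, rfl⟩ := Multiset.exists_cons_of_mem he
  have hν : ∀ e', Even e' → Even (ν.count e') := fun e' he' => by
    have := hμ e' he'
    rwa [Multiset.count_cons_of_ne (fun h => by subst h; exact Nat.not_odd_iff_even.2 he' heo)] at this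
  obtain ⟨B', Y', hs', h'⟩ := exists_symm_model (F := F) ν hν
  obtain ⟨H, Y, hs, -, h⟩ := exists_block (F := F) e
  obtain ⟨c, hc⟩ := FiniteField.exists_nonsquare (F := F) (fun h => h2 (by
    haveI : CharP F 2 := ringChar.of_eq h
    exact CharTwo.two_eq_zero))
  have hc0 : c ≠ 0 := fun h => hc ⟨0, by rw [h, mul_zero]⟩
  have hp := h.prod h'
  rw [Multiset.singleton_add] at hp
  set B := H.compl₁₂ (LinearMap.fst F (Fin e → F) (Fin ν.sum → F)) (LinearMap.fst F _ _) +
      B'.compl₁₂ (LinearMap.snd F (Fin e → F) (Fin ν.sum → F)) (LinearMap.snd F _ _) with hB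
  let S : Module.End F ((Fin e → F) × (Fin ν.sum → F)) := (c • LinearMap.id).prodMap LinearMap.id
  set Bc : LinearMap.BilinForm F ((Fin e → F) × (Fin ν.sum → F)) := LinearMap.BilinForm.compLeft B S with hBc
  have hBs : ∀ u v, B u v = B v u := fun u v => by
    simp only [hB, LinearMap.add_apply, LinearMap.compl₁₂_apply, LinearMap.fst_apply, LinearMap.snd_apply]
    rw [hs heo, hs']
  have hBcs : ∀ u v, Bc u v = Bc v u := fun u v => by
    simp only [hBc, hB, LinearMap.BilinForm.compLeft_apply, S, LinearMap.prodMap_apply, LinearMap.add_apply,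
      LinearMap.compl₁₂_apply, LinearMap.fst_apply, LinearMap.snd_apply, LinearMap.smul_apply, LinearMap.id_apply,
      map_smul, smul_eq_mul]
    rw [hs heo, hs']
  have hBck : ∀ u v, Bc (Y.prodMap Y' u) v = -Bc u (Y.prodMap Y' v) := fun u v => by
    simp only [hBc, LinearMap.BilinForm.compLeft_apply]
    rw [← hp.skew]
    congr 2
    exact Prod.ext (map_smul Y c u.1).symm rfl
  have hpol : ∀ (C : LinearMap.BilinForm F ((Fin e → F) × (Fin ν.sum → F))), (∀ u v, C u v = C v u) →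
      ∀ u v, polar (LinearMap.BilinMap.toQuadraticMap C) u v = 2 * C u v := fun C hC u v => by
    rw [LinearMap.BilinMap.polar_toQuadraticMap, hC v u, two_mul]
  have hnd : ∀ (C : LinearMap.BilinForm F ((Fin e → F) × (Fin ν.sum → F))), (∀ u v, C u v = C v u) →
      (∀ u, (∀ v, C u v = 0) → u = 0) → (polarBilin (LinearMap.BilinMap.toQuadraticMap C)).Nondegenerate :=
    fun C hC hl => ⟨fun u hu => hl u fun v => (mul_eq_zero.1 ((hpol C hC u v).symm.trans (hu v))).resolve_left h2,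
      fun u hu => hl u fun v => (hC u v).trans
        ((mul_eq_zero.1 ((hpol C hC v u).symm.trans (hu v))).resolve_left h2)⟩
  have hcl : ∀ u, (∀ v, Bc u v = 0) → u = 0 := fun u hu => by
    have h0 := hp.left (S u) hu
    have h01 : (c • u.1, u.2) = (0 : (Fin e → F) × (Fin ν.sum → F)) := h0
    rw [Prod.mk_eq_zero, smul_eq_zero] at h01
    exact Prod.ext (h01.1.resolve_left hc0) h01.2
  have hdim : finrank F ((Fin e → F) × (Fin ν.sum → F)) = Fintype.card ι := by
    rw [Module.finrank_prod, Module.finrank_fin_fun, Module.finrank_fin_fun, ← hsum, Multiset.sum_cons]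
  have hne : ∀ L : ((Fin e → F) × (Fin ν.sum → F)) ≃ₗ[F] ((Fin e → F) × (Fin ν.sum → F)),
      ¬ ∀ v, LinearMap.BilinMap.toQuadraticMap B v = LinearMap.BilinMap.toQuadraticMap Bc (L v) := by
    intro L hL
    let b := Module.finBasis F ((Fin e → F) × (Fin ν.sum → F))
    obtain ⟨d, hd, hdet⟩ := det_gram_of_isometry b L hL
    have hBpol : polarBilin (LinearMap.BilinMap.toQuadraticMap Bc) =
        LinearMap.BilinForm.compLeft (polarBilin (LinearMap.BilinMap.toQuadraticMap B)) S := by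
      refine LinearMap.ext fun u => LinearMap.ext fun v => ?_
      show polar _ u v = polar _ (S u) v
      rw [hpol _ hBcs, hpol _ hBs]
      rfl
    rw [hBpol, LinearMap.BilinForm.toMatrix_compLeft, Matrix.det_mul, Matrix.det_transpose,
      LinearMap.det_toMatrix, LinearMap.det_prodMap, LinearMap.det_smul, LinearMap.det_id, LinearMap.det_id,
      Module.finrank_fin_fun, mul_one, mul_one, ← mul_assoc] at hdet
    have hB0 : (LinearMap.BilinForm.toMatrix b (polarBilin (LinearMap.BilinMap.toQuadraticMap B))).det ≠ 0 :=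
      (LinearMap.BilinForm.nondegenerate_iff_det_ne_zero b).1 (hnd B hBs hp.left)
    have h1 : d ^ 2 * c ^ e = 1 := mul_right_cancel₀ hB0 (by rw [← hdet, one_mul])
    obtain ⟨k, rfl⟩ := heo
    refine hc ⟨1 / (d * c ^ k), ?_⟩
    field_simp
    linear_combination h1
  rcases isometric_or_isometric h2 Q₀ hQ₀ hdim _ _ (hnd B hBs hp.left) (hnd Bc hBcs hcl) hne with ⟨E, hE⟩ | ⟨E, hE⟩
  all_goals refine ⟨E.conj (Y.prodMap Y'), fun u v => ?_, fun i => by rw [rankSeq_conj, hp.rank]⟩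
  all_goals
    obtain ⟨u, rfl⟩ := E.surjective u
    obtain ⟨v, rfl⟩ := E.surjective v
    have hpolE : ∀ a b, polar Q₀ (E a) (E b) = polar _ a b := fun a b => by
      simp only [polar, ← map_add, ← hE]
      rfl
    simp only [LinearEquiv.conj_apply_apply, LinearEquiv.symm_apply_apply, hpolE]
  · rw [hpol _ hBs, hpol _ hBs, hp.skew, mul_neg]
  · rw [hpol _ hBcs, hpol _ hBcs, hBck, mul_neg]

/-- Elements of Ω of order `p` with a prescribed Jordan type with an odd part. -/
theorem exists_unipotent_of_type {p : ℕ} [Fact p.Prime] [CharP F p] (hp2 : p ≠ 2) {ι : Type} [Fintype ι]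
    [DecidableEq ι] (Q₀ : QuadraticForm F (ι → F)) (hQ₀ : (polarBilin Q₀).Nondegenerate) (μ : Multiset ℕ)
    (hμp : ∀ e ∈ μ, e ≤ p) (hμ : ∀ e, Even e → Even (μ.count e))
    (hsum : μ.sum = Fintype.card ι) (hodd : ∃ e ∈ μ, Odd e) :
    ∃ x : GL ι F, x ∈ Cfsg.Geo.omegaGL (⇑Q₀) ∧ x ^ p = 1 ∧
      ((Matrix.toLin' (x : Matrix ι ι F) : Module.End F (ι → F)) - 1) ^ p = 0 ∧
      ∀ i, rankSeq ((Matrix.toLin' (x : Matrix ι ι F) : Module.End F (ι → F)) - 1) ⊤ i =
        (μ.map (fun b => b - i)).sum := by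
  classical
  have hpr : p.Prime := Fact.out
  have h2 : (2 : F) ≠ 0 := fun h => hp2 ((Nat.prime_dvd_prime_iff_eq hpr Nat.prime_two).1
    ((CharP.cast_eq_zero_iff F p 2).1 (by exact_mod_cast h)))
  obtain ⟨Y, hY, hrank⟩ := exists_skew_of_type h2 Q₀ hQ₀ μ hμ hsum hodd
  have hYp : Y ^ p = 0 := by
    have h0 : rankSeq Y ⊤ p = 0 := by
      rw [hrank]
      refine Multiset.sum_eq_zero fun b hb => ?_
      obtain ⟨e, he, rfl⟩ := Multiset.mem_map.1 hb
      exact Nat.sub_eq_zero_of_le (hμp e he)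
    rw [rankSeq_top, Submodule.finrank_eq_zero, LinearMap.range_eq_bot] at h0
    exact h0
  obtain ⟨x, hx, hxp, hxr⟩ := exists_isometry_of_skew h2 (polarBilin Q₀) Y hY hYp
  set M : Matrix ι ι F := LinearMap.toMatrix' x with hM
  have hne : Nonempty ι := Fintype.card_pos_iff.1 (by
    obtain ⟨e, he, heo⟩ := hodd
    obtain ⟨ν, rfl⟩ := Multiset.exists_cons_of_mem he
    rw [← hsum, Multiset.sum_cons]
    have := heo.pos
    omega)
  have hMp : M ^ p = 1 := by
    have h0 : (M - 1) ^ p = 0 := by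
      refine Matrix.toLinAlgEquiv'.injective ?_
      rw [map_pow, map_zero, map_sub, map_one]
      show ((Matrix.toLin' M : Module.End F (ι → F)) - 1) ^ p = 0
      rw [hM, Matrix.toLin'_toMatrix', hxp]
    rw [sub_pow_char_of_commute _ (Commute.one_right M), one_pow, sub_eq_zero] at h0
    exact h0
  have hu : IsUnit M := ⟨⟨M, M ^ (p - 1), by rw [← pow_succ', Nat.sub_add_cancel hpr.one_le, hMp],
    by rw [← pow_succ, Nat.sub_add_cancel hpr.one_le, hMp]⟩, rfl⟩
  have hiso : ∀ v, Q₀ (M *ᵥ v) = Q₀ v := fun v => by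
    have h := hx v v
    simp only [polarBilin_apply_apply, polar_self, nsmul_eq_mul, Nat.cast_ofNat] at h
    rw [hM, LinearMap.toMatrix'_mulVec]
    exact mul_left_cancel₀ h2 h
  refine ⟨hu.unit, mem_omegaGL_of_odd_order h2 hQ₀ _ (by simpa using hiso) (hpr.odd_of_ne_two hp2)
    (Units.ext (by simpa using hMp)), Units.ext (by simpa using hMp), ?_, fun i => ?_⟩
  · rw [IsUnit.unit_spec, hM, Matrix.toLin'_toMatrix', hxp]
  · rw [IsUnit.unit_spec, hM, Matrix.toLin'_toMatrix', hxr, hrank]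

end Classify

section Partition

variable [Fintype F] {p : ℕ} [Fact p.Prime] [CharP F p] {ι : Type} [Fintype ι] [DecidableEq ι]

/-- The Jordan type on an invariant non-degenerate subspace of an element with type `μ`. -/
theorem exists_subtype_of_fixed (hp2 : p ≠ 2) (Q : QuadraticForm F (ι → F)) (hQ : (polarBilin Q).Nondegenerate)
    (m : ℕ) (P : Submodule F (ι → F) → Prop)
    (H : ∀ x : GL ι F, x ∈ Cfsg.Geo.omegaGL (⇑Q) → x ^ p = 1 → (∀ z : F, (x : Matrix ι ι F) ≠ z • 1) →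
      ∃ W : Submodule F (ι → F), finrank F W = m ∧ (∀ u ∈ W, u ≠ 0 → ∃ v ∈ W, polar Q v u ≠ 0) ∧ P W ∧
        W.map (Matrix.toLin' (x : Matrix ι ι F)) ≤ W)
    (μ : Multiset ℕ) (hμp : ∀ e ∈ μ, e ≤ p) (hμ : ∀ e, Even e → Even (μ.count e))
    (hsum : μ.sum = Fintype.card ι) (hodd : ∃ e ∈ μ, Odd e) (hbig : ∃ e ∈ μ, 2 ≤ e) :
    ∃ (x : GL ι F) (W : Submodule F (ι → F)), (∀ v, Q ((x : Matrix ι ι F) *ᵥ v) = Q v) ∧
      ((Matrix.toLin' (x : Matrix ι ι F) : Module.End F (ι → F)) - 1) ^ p = 0 ∧ finrank F W = m ∧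
      P W ∧ (∀ v ∈ W, (x : Matrix ι ι F) *ᵥ v ∈ W) ∧
      jordanParts ((Matrix.toLin' (x : Matrix ι ι F) : Module.End F (ι → F)) - 1) W p ≤ μ ∧
      (jordanParts ((Matrix.toLin' (x : Matrix ι ι F) : Module.End F (ι → F)) - 1) W p).sum = m ∧
      ∀ e, Even e → Even ((jordanParts ((Matrix.toLin' (x : Matrix ι ι F) : Module.End F (ι → F)) - 1) W p).count e) := by
  classical
  have hpr : p.Prime := Fact.out
  have h2 : (2 : F) ≠ 0 := fun h => hp2 ((Nat.prime_dvd_prime_iff_eq hpr Nat.prime_two).1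
    ((CharP.cast_eq_zero_iff F p 2).1 (by exact_mod_cast h)))
  obtain ⟨x, hxΩ, hxp, hNp, hrank⟩ := exists_unipotent_of_type hp2 Q hQ μ hμp hμ hsum hodd
  have hiso : ∀ v, Q ((x : Matrix ι ι F) *ᵥ v) = Q v := by
    obtain ⟨X, -, hX⟩ := hxΩ
    subst hX
    exact fun v => X.2 v v
  set g : Module.End F (ι → F) := Matrix.toLin' (x : Matrix ι ι F) with hg
  have hns : ∀ z : F, (x : Matrix ι ι F) ≠ z • 1 := by
    intro z hz
    have hgz : g = z • 1 := by
      rw [hg, hz, map_smul, Matrix.toLin'_one]; rfl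
    have hne : Nontrivial (ι → F) := by
      refine Module.nontrivial_of_finrank_pos (R := F) ?_
      obtain ⟨e, he, heo⟩ := hodd
      obtain ⟨ν, rfl⟩ := Multiset.exists_cons_of_mem he
      rw [finrank_fintype_fun_eq_card, ← hsum, Multiset.sum_cons]
      have := heo.pos
      omega
    obtain ⟨w, hw⟩ := exists_ne (0 : ι → F)
    have h0 : g - 1 = 0 := by
      have h1 : (g - 1) ^ p = ((z - 1) • 1 : Module.End F (ι → F)) ^ p := by
        congr 1
        rw [hgz]
        module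
      rw [hNp, smul_pow, one_pow] at h1
      have h3 := LinearMap.congr_fun h1 w
      rw [LinearMap.zero_apply, LinearMap.smul_apply, Module.End.one_apply, eq_comm, smul_eq_zero] at h3
      rw [hgz, sub_eq_zero, show z = 1 from sub_eq_zero.1 (eq_zero_of_pow_eq_zero (h3.resolve_right hw)), one_smul]
    have h1 := hrank 1
    rw [h0, rankSeq_top, pow_one, LinearMap.range_zero, finrank_bot] at h1
    obtain ⟨e, he, he2⟩ := hbig
    have := Multiset.single_le_sum (s := μ.map (fun b => b - 1)) (fun _ _ => Nat.zero_le _) (e - 1)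
      (Multiset.mem_map_of_mem (fun b => b - 1) he)
    omega
  obtain ⟨W, hWm, hWnd, hWP, hWmap⟩ := H x hxΩ hxp hns
  have hWinv : ∀ v ∈ W, g v ∈ W := fun v hv => hWmap ⟨v, hv, rfl⟩
  set B : LinearMap.BilinForm F (ι → F) := polarBilin Q with hBdef
  have hsym : ∀ u v, B u v = B v u := fun u v => polar_comm _ u v
  have hgB : ∀ u v, B (g u) (g v) = B u v := fun u v => by
    show polar Q (g u) (g v) = polar Q u v
    simp only [polar, hg, Matrix.toLin'_apply, ← Matrix.mulVec_add, hiso]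
  have hWl : ∀ u ∈ W, (∀ v ∈ W, B u v = 0) → u = 0 := fun u hu h => by
    by_contra h0
    obtain ⟨v, hv, hvu⟩ := hWnd u hu h0
    exact hvu ((hsym v u).trans (h v hv))
  have hrefl : B.IsRefl := fun u v h => (hsym v u).trans h
  have hres : (B.restrict W).Nondegenerate :=
    ⟨fun u hu => Subtype.ext (hWl u u.2 fun v hv => hu ⟨v, hv⟩),
      fun u hu => Subtype.ext (hWl u u.2 fun v hv => (hsym u v).trans (hu ⟨v, hv⟩))⟩
  have hcompl := LinearMap.BilinForm.isCompl_orthogonal_of_restrict_nondegenerate hrefl hres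
  have hWN : W.map (g - 1) ≤ W := by
    rintro _ ⟨v, hv, rfl⟩
    exact sub_mem (hWinv v hv) hv
  have hsurj : ∀ w ∈ W, ∃ v ∈ W, g v = w := by
    have hinj : Function.Injective (g.restrict hWinv) := fun a b hab => Subtype.ext (by
      have h3 : g (a : ι → F) = g b := congrArg Subtype.val hab
      rw [hg, Matrix.toLin'_apply, Matrix.toLin'_apply] at h3
      exact Matrix.mulVec_injective_of_isUnit x.isUnit h3)
    intro w hw
    obtain ⟨v, hv⟩ := LinearMap.surjective_of_injective hinj ⟨w, hw⟩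
    exact ⟨v, v.2, congrArg Subtype.val hv⟩
  have hON : (B.orthogonal W).map (g - 1) ≤ B.orthogonal W := by
    rintro _ ⟨v, hv, rfl⟩
    refine sub_mem ?_ hv
    intro w hw
    obtain ⟨w', hw', rfl⟩ := hsurj w hw
    exact (hgB w' v).trans (hv w' hw')
  have hxp' : g ^ p = 1 := by
    rw [hg, ← Matrix.toLin'_pow, ← Units.val_pow_eq_pow_val, hxp, Units.val_one, Matrix.toLin'_one]; rfl
  refine ⟨x, W, hiso, hNp, hWm, hWP, fun v hv => ?_, jordanParts_le hcompl hWN hON hrank p, ?_, fun e he =>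
    even_count_jordanParts h2 hpr.one_le hsym hgB hxp' hNp hWinv hWl he⟩
  · exact hWinv v hv
  · rw [sum_jordanParts hWN hNp, hWm]

/-- The condition on partitions for an element of every type to fix a non-degenerate `m`-space. -/
theorem exists_subpartition (hp2 : p ≠ 2) (Q : QuadraticForm F (ι → F)) (hQ : (polarBilin Q).Nondegenerate)
    (m : ℕ) (hm : Even m) (hmn : m ≤ Fintype.card ι) (P : Submodule F (ι → F) → Prop)
    (H : ∀ x : GL ι F, x ∈ Cfsg.Geo.omegaGL (⇑Q) → x ^ p = 1 → (∀ z : F, (x : Matrix ι ι F) ≠ z • 1) →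
      ∃ W : Submodule F (ι → F), finrank F W = m ∧ (∀ u ∈ W, u ≠ 0 → ∃ v ∈ W, polar Q v u ≠ 0) ∧ P W ∧
        W.map (Matrix.toLin' (x : Matrix ι ι F)) ≤ W)
    (μ : Multiset ℕ) (hμb : ∀ e ∈ μ, 0 < e ∧ e ≤ p) (hμ : ∀ e, Even e → Even (μ.count e))
    (hsum : μ.sum = Fintype.card ι) :
    ∃ ν : Multiset ℕ, ν ≤ μ ∧ ν.sum = m ∧ ∀ e : ℕ, Even e → Even (ν.count e) := by
  classical
  have hpodd : Odd p := (Fact.out : p.Prime).odd_of_ne_two hp2
  by_cases hbig : ∃ e ∈ μ, 2 ≤ e
  swap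
  · push Not at hbig
    have hall : ∀ b ∈ μ, b = 1 := fun b hb => by have := hbig b hb; have := (hμb b hb).1; omega
    have hrep : μ = Multiset.replicate (Multiset.card μ) 1 := Multiset.eq_replicate_card.2 hall
    have hcard : Multiset.card μ = Fintype.card ι := by
      rw [hrep] at hsum; simpa using hsum
    refine ⟨Multiset.replicate m 1, ?_, by simp, fun e he => ?_⟩
    · rw [hrep, hcard]
      exact Multiset.le_replicate_iff.2 ⟨m, hmn, rfl⟩
    · rw [Multiset.count_replicate]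
      split_ifs with h
      · exact hm
      · exact ⟨0, rfl⟩
  have main : ∀ μ' : Multiset ℕ, (∀ e ∈ μ', e ≤ p) → (∀ e, Even e → Even (μ'.count e)) →
      μ'.sum = Fintype.card ι → (∃ e ∈ μ', Odd e) → (∃ e ∈ μ', 2 ≤ e) →
      ∃ ν : Multiset ℕ, ν ≤ μ' ∧ ν.sum = m ∧ ∀ e : ℕ, Even e → Even (ν.count e) := by
    intro μ' h1 h2 h3 h4 h5
    obtain ⟨x, W, -, -, -, -, -, hle, hs, hev⟩ := exists_subtype_of_fixed hp2 Q hQ m P H μ' h1 h2 h3 h4 h5
    exact ⟨_, hle, hs, hev⟩
  by_cases hodd : ∃ e ∈ μ, Odd e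
  · exact main μ (fun e he => (hμb e he).2) hμ hsum hodd hbig
  push Not at hodd
  obtain ⟨e, he, -⟩ := hbig
  have hee : Even e := Nat.not_odd_iff_even.1 (hodd e he)
  obtain ⟨μ₁, rfl⟩ := Multiset.exists_cons_of_mem he
  have hmem : e ∈ μ₁ := by
    by_contra h
    have := hμ e hee
    rw [Multiset.count_cons_self, Multiset.count_eq_zero.2 h] at this
    exact absurd this (by decide)
  obtain ⟨R, rfl⟩ := Multiset.exists_cons_of_mem hmem
  have hR : ∀ b ∈ R, Even b := fun b hb =>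
    Nat.not_odd_iff_even.1 (hodd b (Multiset.mem_cons_of_mem (Multiset.mem_cons_of_mem hb)))
  obtain ⟨he0, hep⟩ := hμb e (Multiset.mem_cons_self _ _)
  obtain ⟨j, hj⟩ := hee
  have hlt : e + 1 ≤ p := by
    obtain ⟨k, hk⟩ := hpodd
    omega
  have hRc : ∀ b, Even b → Even (R.count b) := fun b hb => by
    have := hμ b hb
    by_cases h : b = e
    · subst h
      rw [Multiset.count_cons_self, Multiset.count_cons_self] at this
      simpa [parity_simps] using this
    · rwa [Multiset.count_cons_of_ne h, Multiset.count_cons_of_ne h] at this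
  have m1 : ∀ b ∈ (e + 1) ::ₘ (e - 1) ::ₘ R, b ≤ p := fun b hb => by
    simp only [Multiset.mem_cons] at hb
    rcases hb with rfl | rfl | hb
    · exact hlt
    · omega
    · exact (hμb b (Multiset.mem_cons_of_mem (Multiset.mem_cons_of_mem hb))).2
  have m2 : ∀ b, Even b → Even (((e + 1) ::ₘ (e - 1) ::ₘ R).count b) := fun b hb => by
    obtain ⟨i, hi⟩ := hb
    rw [Multiset.count_cons_of_ne (by omega), Multiset.count_cons_of_ne (by omega)]
    exact hRc b ⟨i, hi⟩
  have m3 : ((e + 1) ::ₘ (e - 1) ::ₘ R).sum = Fintype.card ι := by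
    rw [Multiset.sum_cons, Multiset.sum_cons] at hsum ⊢
    omega
  obtain ⟨ν, hle, hs, hev⟩ := main ((e + 1) ::ₘ (e - 1) ::ₘ R) m1 m2 m3
    ⟨e + 1, Multiset.mem_cons_self _ _, ⟨j, by omega⟩⟩ ⟨e + 1, Multiset.mem_cons_self _ _, by omega⟩
  set O := ν.filter (fun b => ¬ Even b) with hO
  set E := ν.filter (fun b => Even b) with hE
  have hν : ν = E + O := (Multiset.filter_add_not _ ν).symm
  have ho1 : ¬ Even (e + 1) := Nat.not_even_iff_odd.2 ⟨j, by omega⟩
  have ho2 : ¬ Even (e - 1) := Nat.not_even_iff_odd.2 ⟨j - 1, by omega⟩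
  have hOle : O ≤ (e + 1) ::ₘ {e - 1} := by
    refine le_trans (Multiset.filter_le_filter _ hle) (le_of_eq ?_)
    rw [Multiset.filter_cons_of_pos (p := fun b => ¬ Even b) _ ho1,
      Multiset.filter_cons_of_pos (p := fun b => ¬ Even b) _ ho2,
      Multiset.filter_eq_nil.2 (fun b hb h => h (hR b hb))]
    rfl
  have hEle : E ≤ R := by
    refine le_trans (Multiset.filter_le_filter _ hle) (le_of_eq ?_)
    rw [Multiset.filter_cons_of_neg (p := fun b => Even b) _ ho1,
      Multiset.filter_cons_of_neg (p := fun b => Even b) _ ho2,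
      Multiset.filter_eq_self.2 hR]
  have hEc : ∀ b, Even b → Even (E.count b) := fun b hb => by
    rw [hE, Multiset.count_filter, if_pos hb]; exact hev b hb
  obtain ⟨i, hi⟩ : Even E.sum := by
    have : 2 ∣ E.sum := Multiset.dvd_sum fun b hb => even_iff_two_dvd.1 (Multiset.mem_filter.1 hb).2
    exact even_iff_two_dvd.2 this
  obtain ⟨m', hm'⟩ := hm
  rw [hν, Multiset.sum_add] at hs
  rw [← Multiset.mem_powerset] at hOle
  simp [Multiset.powerset_cons] at hOle
  rcases hOle with (h | h) | h | h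
  all_goals first | rw [h] at hs | rw [← h] at hs
  all_goals simp at hs
  · exact ⟨E, hEle.trans (le_trans (Multiset.le_cons_self _ _) (Multiset.le_cons_self _ _)), by omega, hEc⟩
  · exfalso; omega
  · exfalso; omega
  · refine ⟨e ::ₘ e ::ₘ E, Multiset.cons_le_cons _ (Multiset.cons_le_cons _ hEle), ?_, fun b hb => ?_⟩
    · rw [Multiset.sum_cons, Multiset.sum_cons]; omega
    · simp only [Multiset.count_cons]
      have := hEc b hb
      split_ifs <;> simpa [parity_simps] using this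

end Partition

end CfsgLib.Omega
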