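import Cfsg.Agent.Lib.Omega.IsometryParity

/-!
An isometry of odd prime order `r`, prime to the characteristic, of a symplectic space over a field with `q` elements
is an orthogonal sum of invariant non-degenerate pieces of dimension `2 e₀` and a smaller fixed space, where `e₀` is
half the order `c₀` of `q` modulo `r` when that order is even and `c₀` otherwise.
-/

set_option autoImplicit false

open Module Polynomial

namespace CfsgLib.Omega.SympPieces

open CfsgLib.Omega.PrimeOrder

universe u v

variable {F : Type u} [Field F] {V : Type v} [AddCommGroup V] [Module F V]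

/-- The restriction of a form is non-degenerate. -/
def NondegOn (B : LinearMap.BilinForm F V) (W : Submodule F V) : Prop :=
  ∀ w ∈ W, (∀ y ∈ W, B w y = 0) → w = 0

/-- A subspace is totally isotropic. -/
def IsoOn (B : LinearMap.BilinForm F V) (W : Submodule F V) : Prop := ∀ u ∈ W, ∀ w ∈ W, B u w = 0

theorem even_finrank_of_nondegOn [FiniteDimensional F V] {B : LinearMap.BilinForm F V} (hB : ∀ v, B v v = 0)
    {W : Submodule F V} (hW : NondegOn B W) : Even (finrank F W) := by
  obtain ⟨α, _, _, b, -, -, -, hli, hspan⟩ := exists_symplectic_family B hB W hW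
  rw [← hspan, finrank_span_eq_card hli, Fintype.card_prod, Fintype.card_fin]
  exact ⟨Fintype.card α, by ring⟩

theorem pow_mem {Y : Module.End F V} {W : Submodule F V} (hW : ∀ w ∈ W, Y w ∈ W) (f : F[X]) {w : V} (hw : w ∈ W) :
    aeval Y f w ∈ W := by
  induction f using Polynomial.induction_on' with
  | add f g hf hg => rw [map_add, LinearMap.add_apply]; exact add_mem hf hg
  | monomial i a =>
    rw [aeval_monomial, Algebra.algebraMap_eq_smul_one, smul_one_mul, LinearMap.smul_apply]
    refine W.smul_mem _ ?_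
    induction i with
    | zero => simpa using hw
    | succ i ih => rw [pow_succ', Module.End.mul_apply]; exact hW _ ih

theorem aeval_restrict_apply {Y : Module.End F V} {W : Submodule F V} (hW : ∀ w ∈ W, Y w ∈ W) (f : F[X]) (w : W) :
    ((aeval (Y.restrict hW : Module.End F W) f w : W) : V) = aeval Y f w := by
  induction f using Polynomial.induction_on' with
  | add f g hf hg => simp [hf, hg]
  | monomial i a =>
    rw [aeval_monomial, aeval_monomial, Algebra.algebraMap_eq_smul_one, Algebra.algebraMap_eq_smul_one, smul_one_mul,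
      smul_one_mul, LinearMap.smul_apply, LinearMap.smul_apply, Submodule.coe_smul]
    congr 1
    induction i generalizing w with
    | zero => rfl
    | succ i ih => rw [pow_succ', pow_succ', Module.End.mul_apply, Module.End.mul_apply, ← ih]; rfl

variable [Fintype F] {r : ℕ} [Fact r.Prime]

section

variable [Finite V] {B : LinearMap.BilinForm F V} {Y : Module.End F V}

/-- A fixed-point-free invariant subspace of minimal dimension is non-degenerate or totally isotropic. -/
theorem nondegOn_or_isoOn (hrF : (Fintype.card F : ZMod r) ≠ 0) (hB : ∀ v, B v v = 0)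
    (hf : ∀ u w, B (Y u) (Y w) = B u w) (hy : ∀ v, Y^[r] v = v) {W : Submodule F V} (hW : ∀ w ∈ W, Y w ∈ W)
    (hfree : ∀ w ∈ W, Y w = w → w = 0) (hdim : finrank F W ≤ orderOf (Fintype.card F : ZMod r)) :
    NondegOn B W ∨ IsoOn B W := by
  by_cases h : NondegOn B W
  · exact Or.inl h
  right
  let W₀ : Submodule F V :=
    { carrier := {w | w ∈ W ∧ ∀ y ∈ W, B w y = 0}
      add_mem' := fun {a b} ha hb => ⟨add_mem ha.1 hb.1, fun y hy => by simp [ha.2 y hy, hb.2 y hy]⟩
      zero_mem' := ⟨zero_mem _, fun y _ => by simp⟩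
      smul_mem' := fun c a ha => ⟨W.smul_mem c ha.1, fun y hy => by simp [ha.2 y hy]⟩ }
  have hle : W₀ ≤ W := fun w hw => hw.1
  have hinv : ∀ w ∈ W₀, Y w ∈ W₀ := by
    rintro w ⟨hw, hw'⟩
    refine ⟨hW w hw, fun y hy' => ?_⟩
    have hit : ∀ i : ℕ, Y^[i] y ∈ W := by
      intro i
      induction i with
      | zero => exact hy'
      | succ i ih => rw [Function.iterate_succ_apply']; exact hW _ ih
    rw [← hy y, show r = (r - 1) + 1 by have := (Fact.out : r.Prime).pos; omega, Function.iterate_succ_apply', hf]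
    exact hw' _ (hit _)
  have hne : W₀ ≠ ⊥ := fun h0 => h fun w hw hall => (Submodule.eq_bot_iff _).1 h0 w ⟨hw, hall⟩
  have hd := orderOf_dvd_finrank_of_free hrF Y W₀ hinv (fun v _ => hy v) fun w hw => hfree w hw.1
  have hpos : 0 < finrank F W₀ := by
    rw [Module.finrank_pos_iff, Submodule.nontrivial_iff_ne_bot]; exact hne
  have heq : W₀ = W := Submodule.eq_of_le_of_finrank_le hle (hdim.trans (Nat.le_of_dvd hpos hd))
  intro u hu w hw
  rw [← heq] at hu
  exact hu.2 w hw

/-- A moved vector gives an invariant non-degenerate piece. -/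
theorem exists_sp_piece (hrF : (Fintype.card F : ZMod r) ≠ 0) (hr2 : r ≠ 2) (hB : ∀ v, B v v = 0)
    (hnd : ∀ v, (∀ w, B v w = 0) → v = 0) (hf : ∀ u w, B (Y u) (Y w) = B u w) (hy : ∀ v, Y^[r] v = v)
    (hmove : ∃ v, Y v ≠ v) {e₀ : ℕ}
    (he₀ : e₀ = if Even (orderOf (Fintype.card F : ZMod r)) then orderOf (Fintype.card F : ZMod r) / 2
      else orderOf (Fintype.card F : ZMod r)) :
    ∃ W : Submodule F V, finrank F W = 2 * e₀ ∧ (∀ w ∈ W, Y w ∈ W) ∧ NondegOn B W := by
  classical
  set c₀ := orderOf (Fintype.card F : ZMod r) with hc₀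
  have hr0 : 0 < r := (Fact.out : r.Prime).pos
  have hYr : Y ^ r = 1 := pow_eq_one_of_iterate hy
  have hone : ∀ {W : Submodule F V}, finrank F W = c₀ → NondegOn B W → finrank F W = 2 * e₀ := by
    intro W hW hWn
    have he := even_finrank_of_nondegOn hB hWn
    rw [hW] at he ⊢
    rw [he₀, if_pos he, Nat.mul_div_cancel' he.two_dvd]
  obtain ⟨W, -, -, hWinv, -, hWd, hWfree⟩ := exists_piece hrF Y hy hmove
  rcases nondegOn_or_isoOn hrF hB hf hy hWinv hWfree hWd.le with hWn | hWi
  · exact ⟨W, hone hWd hWn, hWinv, hWn⟩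
  -- a paired subspace
  let P : V →ₗ[F] (W →ₗ[F] F) := (LinearMap.lcomp F F W.subtype) ∘ₗ B.flip
  have hP : ∀ v (w : W), P v w = B w v := fun v w => rfl
  have hWker : W ≤ LinearMap.ker P := fun w hw => LinearMap.mem_ker.2 (LinearMap.ext fun u => hWi u u.2 w hw)
  have hKinv : ∀ v ∈ LinearMap.ker P, Y v ∈ LinearMap.ker P := by
    intro v hv
    refine LinearMap.mem_ker.2 (LinearMap.ext fun u => ?_)
    have hit : ∀ i : ℕ, Y^[i] (u : V) ∈ W := by
      intro i
      induction i with
      | zero => exact u.2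
      | succ i ih => rw [Function.iterate_succ_apply']; exact hWinv _ ih
    rw [hP, ← hy (u : V), show r = (r - 1) + 1 by omega, Function.iterate_succ_apply', hf]
    exact LinearMap.congr_fun (LinearMap.mem_ker.1 hv) ⟨_, hit _⟩
  have hPsurj : Function.Surjective P := by
    have hflip : Function.Surjective B.flip := by
      refine (LinearMap.injective_iff_surjective_of_finrank_eq_finrank
        (Subspace.dual_finrank_eq (K := F) (V := V)).symm).1 ?_
      rw [injective_iff_map_eq_zero]
      intro v hv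
      refine hnd v fun w => ?_
      rw [alt_skew hB, show B w v = B.flip v w from rfl, hv, LinearMap.zero_apply, neg_zero]
    exact (LinearMap.dualMap_surjective_of_injective W.injective_subtype).comp hflip
  obtain ⟨p, hp⟩ := CharP.exists F
  haveI := Fact.mk (CharP.char_is_prime F p)
  have hrF' : (r : F) ≠ 0 := fun h => hrF (by
    obtain ⟨m, -, hm⟩ := FiniteField.card F p
    rw [CharP.cast_eq_zero_iff F p, Nat.prime_dvd_prime_iff_eq (Fact.out : p.Prime) Fact.out] at h
    rw [ZMod.natCast_eq_zero_iff, hm, h]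
    exact dvd_pow_self r m.pos.ne')
  have hss : Y.IsSemisimple := Module.End.isSemisimple_of_squarefree_aeval_eq_zero
    (p := (X ^ r - 1 : F[X])) ((separable_X_pow_sub_C (1 : F) hrF' one_ne_zero).squarefree |> fun h => by
      simpa using h)
    (by rw [map_sub, map_pow, aeval_X, map_one, hYr, sub_self])
  obtain ⟨R, hR, hKR⟩ := Module.End.isSemisimple_iff.1 hss (LinearMap.ker P)
    ((Module.End.mem_invtSubmodule Y).2 fun w hw => hKinv w hw)
  have hRinv : ∀ w ∈ R, Y w ∈ R := fun w hw => (Module.End.mem_invtSubmodule Y).1 hR hw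
  have hRd : finrank F R = c₀ := by
    have h1 := Submodule.finrank_add_eq_of_isCompl hKR
    have h2 := LinearMap.finrank_range_add_finrank_ker P
    rw [LinearMap.range_eq_top.2 hPsurj, finrank_top, Subspace.dual_finrank_eq] at h2
    omega
  have hRinj : ∀ v ∈ R, (∀ w ∈ W, B w v = 0) → v = 0 := by
    intro v hv hall
    exact (Submodule.disjoint_def.1 hKR.disjoint) v (LinearMap.mem_ker.2 (LinearMap.ext fun u => hall u u.2)) hv
  have hWpair : ∀ w ∈ W, (∀ v ∈ R, B w v = 0) → w = 0 := by
    intro w hw hall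
    refine hnd w fun v => ?_
    obtain ⟨k, hk, l, hl, rfl⟩ := Submodule.mem_sup.1 (hKR.sup_eq_top ▸ Submodule.mem_top (x := v))
    have hk0 : B w k = 0 := LinearMap.congr_fun (LinearMap.mem_ker.1 hk) ⟨w, hw⟩
    rw [map_add, hk0, hall l hl, add_zero]
  have hRfree : ∀ v ∈ R, Y v = v → v = 0 := by
    intro v hv hfix
    refine hRinj v hv fun w hw => ?_
    have hinj : Function.Injective (LinearMap.restrict (Y - 1) (p := W) (q := W) fun u hu => sub_mem (hWinv u hu) hu) := by
      rw [injective_iff_map_eq_zero]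
      intro u hu
      exact Subtype.ext (hWfree u u.2 (sub_eq_zero.1 (congrArg Subtype.val hu)))
    obtain ⟨z, hz⟩ := (LinearMap.injective_iff_surjective.1 hinj) ⟨w, hw⟩
    rw [show w = Y z - z from (congrArg Subtype.val hz).symm, map_sub, LinearMap.sub_apply]
    conv_lhs => arg 1; rw [← hfix]
    rw [hf, sub_self]
  rcases nondegOn_or_isoOn hrF hB hf hy hRinv hRfree hRd.le with hRn | hRi
  · exact ⟨R, hone hRd hRn, hRinv, hRn⟩
  set S := W ⊔ R with hS
  have hdisj : Disjoint W R := hKR.disjoint.mono_left hWker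
  have hSinv : ∀ v ∈ S, Y v ∈ S := by
    intro v hv
    obtain ⟨w, hw, u, hu, rfl⟩ := Submodule.mem_sup.1 hv
    rw [map_add]
    exact Submodule.add_mem_sup (hWinv w hw) (hRinv u hu)
  have hSn : NondegOn B S := by
    intro v hv hall
    obtain ⟨w, hw, u, hu, rfl⟩ := Submodule.mem_sup.1 hv
    have hu0 : u = 0 := hRinj u hu fun w' hw' => by
      have h := hall w' (Submodule.mem_sup_left hw')
      rw [map_add, LinearMap.add_apply, hWi w hw w' hw', zero_add] at h
      rw [alt_skew hB, h, neg_zero]
    subst hu0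
    rw [add_zero] at hall ⊢
    exact hWpair w hw fun v' hv' => hall v' (Submodule.mem_sup_right hv')
  have hSd : finrank F S = 2 * c₀ := by
    have := Submodule.finrank_sup_add_finrank_inf_eq W R
    rw [hdisj.eq_bot, finrank_bot, hWd, hRd, ← hS] at this
    omega
  by_cases hev : Even c₀
  swap
  · exact ⟨S, by rw [hSd, he₀, if_neg hev], hSinv, hSn⟩
  -- `c₀` even: some cyclic subspace of `S` is non-degenerate
  have he : 2 * e₀ = c₀ := by rw [he₀, if_pos hev, Nat.mul_div_cancel' hev.two_dvd]
  have hc0 : 0 < c₀ := orderOf_pos_iff.2 (isOfFinOrder_iff_pow_eq_one.2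
    ⟨r - 1, Nat.sub_pos_of_lt (Fact.out : r.Prime).one_lt, ZMod.pow_card_sub_one_eq_one hrF⟩)
  set g := LinearMap.charpoly (Y.restrict hWinv) with hg
  have hgm : g.Monic := LinearMap.charpoly_monic _
  have hgd : g.natDegree = c₀ := by rw [hg, LinearMap.charpoly_natDegree, hWd]
  have hgW : ∀ w ∈ W, aeval Y g w = 0 := fun w hw => by
    have := aeval_restrict_apply hWinv g ⟨w, hw⟩
    rw [hg, LinearMap.aeval_self_charpoly] at this
    exact this.symm
  have hadj : ∀ (f : F[X]) (u v : V), B (aeval Y f u) v = B u (aeval (Y ^ (r - 1)) f v) := by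
    intro f u v
    induction f using Polynomial.induction_on' with
    | add f g hf hg => simp [hf, hg]
    | monomial i a =>
      simp only [aeval_monomial, Algebra.algebraMap_eq_smul_one, smul_one_mul, LinearMap.smul_apply, map_smul,
        LinearMap.smul_apply, smul_eq_mul]
      congr 1
      induction i generalizing u v with
      | zero => rfl
      | succ i ih =>
        rw [pow_succ Y, pow_succ' (Y ^ (r - 1)), Module.End.mul_apply, Module.End.mul_apply, ih]
        generalize ((Y ^ (r - 1)) ^ i) v = z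
        conv_lhs => rw [← hy z, show r = (r - 1) + 1 by omega, Function.iterate_succ_apply', hf]
        rw [Module.End.pow_apply]
  have hgR' : ∀ v ∈ R, aeval (Y ^ (r - 1)) g v = 0 := by
    intro v hv
    refine hRinj _ (pow_mem (fun w hw => ?_) g hv) fun w hw => ?_
    · have hit : ∀ i : ℕ, (Y ^ i) w ∈ R := by
        intro i
        induction i with
        | zero => exact hw
        | succ i ih => rw [pow_succ', Module.End.mul_apply]; exact hRinv _ ih
      exact hit _
    · rw [← hadj, hgW w hw, map_zero, LinearMap.zero_apply]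
  set q := Fintype.card F with hq
  obtain ⟨h, hh⟩ := hev
  have hqh : (q : ZMod r) ^ h = -1 := by
    have hsq : ((q : ZMod r) ^ h) ^ 2 = 1 := by
      rw [← pow_mul, show h * 2 = c₀ by omega, hc₀, pow_orderOf_eq_one]
    rcases sq_eq_one_iff.1 hsq with h1 | h1
    · exfalso
      have := Nat.le_of_dvd (by omega) (orderOf_dvd_of_pow_eq_one h1)
      omega
    · exact h1
  have hYpow : Y ^ (q ^ h) = Y ^ (r - 1) := by
    rw [← Nat.mod_add_div (q ^ h) r, ← Nat.mod_add_div (r - 1) r, pow_add, pow_add, pow_mul, pow_mul, hYr, one_pow,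
      one_pow, mul_one, mul_one]
    congr 1
    refine (ZMod.natCast_eq_natCast_iff' _ _ r).1 ?_
    rw [Nat.cast_pow, hqh, Nat.cast_sub hr0, ZMod.natCast_self, zero_sub, Nat.cast_one]
  have hgpow : (aeval Y g) ^ (q ^ h) = aeval (Y ^ (r - 1)) g := by
    have hexp : ∀ j : ℕ, g ^ (q ^ j) = expand F (q ^ j) g := by
      intro j
      induction j with
      | zero => simp
      | succ j ih => rw [pow_succ, pow_mul, ih, ← FiniteField.expand_card, expand_expand, mul_comm]
    rw [← map_pow, hexp, expand_aeval, hYpow]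
  have hgR : ∀ v ∈ R, aeval Y g v = 0 := by
    let K : Submodule F V := R ⊓ LinearMap.ker (aeval Y g)
    have hKinv' : ∀ v ∈ K, Y v ∈ K := by
      rintro v ⟨h1, h2⟩
      refine ⟨hRinv v h1, LinearMap.mem_ker.2 ?_⟩
      have hc : aeval Y g * Y = Y * aeval Y g :=
        ((Commute.all (X : F[X]) g).map (aeval Y)).symm.eq.trans (by rw [aeval_X]) |> fun h => by
          simpa [aeval_X] using h
      rw [show aeval Y g (Y v) = (aeval Y g * Y) v from rfl, hc, Module.End.mul_apply, LinearMap.mem_ker.1 h2,
        map_zero]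
    have hne : K ≠ ⊥ := by
      obtain ⟨v, hv, hv0⟩ := Submodule.exists_mem_ne_zero_of_ne_bot (p := R) (fun h0 => by
        rw [h0, finrank_bot] at hRd; omega)
      have hex : ∃ j, (aeval Y g ^ j) v = 0 := ⟨_, by rw [hgpow]; exact hgR' v hv⟩
      have hj0 : Nat.find hex ≠ 0 := fun h0 => hv0 (by
        have := Nat.find_spec hex
        rwa [h0, pow_zero] at this)
      intro hK
      refine Nat.find_min hex (show Nat.find hex - 1 < Nat.find hex by omega) ((Submodule.eq_bot_iff _).1 hK _ ⟨?_, ?_⟩)
      · rw [SetLike.mem_coe, ← map_pow]; exact pow_mem hRinv _ hv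
      · rw [SetLike.mem_coe, LinearMap.mem_ker, ← Module.End.mul_apply, ← pow_succ',
          show Nat.find hex - 1 + 1 = Nat.find hex by omega]
        exact Nat.find_spec hex
    have hd := orderOf_dvd_finrank_of_free hrF Y K hKinv' (fun v _ => hy v) fun w hw => hRfree w hw.1
    have hKR' : K = R := Submodule.eq_of_le_of_finrank_le inf_le_left (by
      rw [hRd]
      exact Nat.le_of_dvd (by rw [Module.finrank_pos_iff, Submodule.nontrivial_iff_ne_bot]; exact hne) hd)
    intro v hv
    rw [← hKR'] at hv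
    exact LinearMap.mem_ker.1 hv.2
  have hgS : ∀ v ∈ S, aeval Y g v = 0 := by
    intro v hv
    obtain ⟨w, hw, u, hu, rfl⟩ := Submodule.mem_sup.1 hv
    rw [map_add, hgW w hw, hgR u hu, add_zero]
  have hSfree : ∀ v ∈ S, Y v = v → v = 0 := by
    intro v hv hfix
    obtain ⟨w, hw, u, hu, rfl⟩ := Submodule.mem_sup.1 hv
    rw [map_add] at hfix
    have hm : Y w - w = u - Y u := by rw [sub_eq_sub_iff_add_eq_add, hfix, add_comm]
    have h0 := (Submodule.disjoint_def.1 hdisj) _ (sub_mem (hWinv w hw) hw) (hm ▸ sub_mem hu (hRinv u hu))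
    rw [hWfree w hw (sub_eq_zero.1 h0), hRfree u hu (sub_eq_zero.1 (hm ▸ h0 : u - Y u = 0)).symm, add_zero]
  -- cyclic subspaces
  by_contra hcon
  push Not at hcon
  have hcyc : ∀ v ∈ S, B v (Y v) = 0 := by
    intro v hv
    by_cases hv0 : v = 0
    · simp [hv0]
    set C := Submodule.span F (Set.range fun i : Fin c₀ => (Y ^ (i : ℕ)) v) with hC
    have hmem : ∀ i < c₀, (Y ^ i) v ∈ C := fun i hi => Submodule.subset_span ⟨⟨i, hi⟩, rfl⟩
    have hCS : C ≤ S := Submodule.span_le.2 (by
      rintro _ ⟨i, rfl⟩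
      show (Y ^ (i : ℕ)) v ∈ S
      rw [← aeval_X (R := F) Y, ← map_pow]
      exact pow_mem hSinv _ hv)
    have htop : (Y ^ c₀) v ∈ C := by
      have h0 := hgS v hv
      rw [aeval_eq_sum_range, hgd, Finset.sum_range_succ, LinearMap.add_apply, LinearMap.sum_apply] at h0
      rw [show g.coeff c₀ = 1 from hgd ▸ hgm.coeff_natDegree, one_smul] at h0
      rw [eq_neg_of_add_eq_zero_right h0]
      exact neg_mem (Submodule.sum_mem _ fun i hi => by
        rw [LinearMap.smul_apply]
        exact C.smul_mem _ (hmem i (Finset.mem_range.1 hi)))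
    have hCinv : ∀ w ∈ C, Y w ∈ C := by
      intro w hw
      refine (Submodule.span_le (p := C.comap Y)).2 ?_ hw
      rintro _ ⟨i, rfl⟩
      show Y ((Y ^ (i : ℕ)) v) ∈ C
      rw [← Module.End.mul_apply, ← pow_succ']
      by_cases hi : (i : ℕ) + 1 < c₀
      · exact hmem _ hi
      · rw [show (i : ℕ) + 1 = c₀ by omega]; exact htop
    have hCfree : ∀ w ∈ C, Y w = w → w = 0 := fun w hw => hSfree w (hCS hw)
    have hCle : finrank F C ≤ c₀ := (finrank_range_le_card _).trans (Fintype.card_fin c₀).le
    have hvC : v ∈ C := by simpa using hmem 0 hc0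
    have hCd : finrank F C = c₀ := le_antisymm hCle (Nat.le_of_dvd
      (by rw [Module.finrank_pos_iff, Submodule.nontrivial_iff_ne_bot]; exact fun h => hv0 (by simpa [h] using hvC))
      (orderOf_dvd_finrank_of_free hrF Y C hCinv (fun w _ => hy w) hCfree))
    rcases nondegOn_or_isoOn hrF hB hf hy hCinv hCfree hCle with hn | hi
    · exact absurd hn (hcon C (hCd.trans he.symm) hCinv)
    · exact hi v hvC (Y v) (hCinv v hvC)
  obtain ⟨v, hv, hv0⟩ := Submodule.exists_mem_ne_zero_of_ne_bot (p := S) (fun h0 => by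
    rw [h0, finrank_bot] at hSd; omega)
  refine hv0 (hSfree v hv ?_)
  have hsq : Y (Y v) = v := by
    rw [← sub_eq_zero]
    refine hSn _ (sub_mem (hSinv _ (hSinv v hv)) hv) fun u hu => ?_
    have hit : ∀ i : ℕ, Y^[i] u ∈ S := by
      intro i
      induction i with
      | zero => exact hu
      | succ i ih => rw [Function.iterate_succ_apply']; exact hSinv _ ih
    obtain ⟨z, hz, rfl⟩ : ∃ z ∈ S, Y z = u := ⟨_, hit (r - 1), by
      rw [← Function.iterate_succ_apply' Y, Nat.succ_eq_add_one, Nat.sub_add_cancel hr0, hy]⟩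
    have h1 := hcyc (z + v) (add_mem hz hv)
    simp only [map_add, LinearMap.add_apply, hcyc z hz, hcyc v hv, zero_add, add_zero] at h1
    rw [map_sub, LinearMap.sub_apply, sub_eq_zero, hf, alt_skew hB]
    linear_combination -h1
  have hit : ∀ i, Y^[2 * i] v = v := by
    intro i
    induction i with
    | zero => rfl
    | succ i ih => rw [show 2 * (i + 1) = (2 * i + 1) + 1 by ring, Function.iterate_succ_apply',
        Function.iterate_succ_apply', ih, hsq]
  obtain ⟨k, hk⟩ := (Fact.out : r.Prime).odd_of_ne_two hr2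
  have := hy v
  rw [hk] at this
  exact (congrArg Y (hit k)).symm.trans ((Function.iterate_succ_apply' Y (2 * k) v).symm.trans this)

end

/-- The pieces. -/
theorem exists_sp_pieces (hrF : (Fintype.card F : ZMod r) ≠ 0) (hr2 : r ≠ 2) {e₀ : ℕ}
    (he₀ : e₀ = if Even (orderOf (Fintype.card F : ZMod r)) then orderOf (Fintype.card F : ZMod r) / 2
      else orderOf (Fintype.card F : ZMod r)) :
    ∀ (d : ℕ) (V : Type v) [AddCommGroup V] [Module F V] [Finite V], finrank F V = d →
      ∀ (B : LinearMap.BilinForm F V) (Y : Module.End F V), (∀ v, B v v = 0) → (∀ v, (∀ w, B v w = 0) → v = 0) →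
      (∀ u w, B (Y u) (Y w) = B u w) → (∀ v, Y^[r] v = v) →
      ∃ (M h : ℕ) (b : ((Fin M × Fin e₀) ⊕ Fin h) × Fin 2 → V), d = 2 * (M * e₀ + h) ∧ h < e₀ ∧
        (∀ i j s, B (b (i, s)) (b (j, s)) = 0) ∧ (∀ i j, B (b (i, 0)) (b (j, 1)) = if i = j then 1 else 0) ∧
        (∀ i u s, Y (b (.inl (i, u), s)) ∈ Submodule.span F (Set.range fun x : Fin e₀ × Fin 2 => b (.inl (i, x.1), x.2))) ∧
        ∀ j s, Y (b (.inr j, s)) = b (.inr j, s) := by
  classical
  have he0 : 0 < e₀ := by
    have hc0 : 0 < orderOf (Fintype.card F : ZMod r) := orderOf_pos_iff.2 (isOfFinOrder_iff_pow_eq_one.2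
      ⟨r - 1, Nat.sub_pos_of_lt (Fact.out : r.Prime).one_lt, ZMod.pow_card_sub_one_eq_one hrF⟩)
    rw [he₀]
    split_ifs with h
    · obtain ⟨k, hk⟩ := h; omega
    · exact hc0
  intro d
  induction d using Nat.strong_induction_on with
  | _ d ih =>
    intro V _ _ _ hd B Y hB hnd hf hy
    by_cases hfix : ∀ v, Y v = v
    · obtain ⟨α, _, _, b, hb0, hb1, -, hli, hspan⟩ :=
        exists_symplectic_family B hB ⊤ fun w _ hall => hnd w fun y => hall y trivial
      have hdα : d = 2 * Fintype.card α := by
        rw [← hd, ← finrank_top F V, ← hspan, finrank_span_eq_card hli, Fintype.card_prod, Fintype.card_fin]; ring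
      let E : ((Fin (Fintype.card α / e₀) × Fin e₀) ⊕ Fin (Fintype.card α % e₀)) ≃ α :=
        Fintype.equivOfCardEq (by simp [Nat.div_add_mod'])
      refine ⟨_, _, fun x => b (E x.1, x.2), by rw [hdα, Nat.div_add_mod'], Nat.mod_lt _ he0, fun i j s => hb0 _ _ s,
        fun i j => by rw [hb1]; simp, fun i u s => ?_, fun j s => hfix _⟩
      rw [hfix]
      exact Submodule.subset_span ⟨(u, s), rfl⟩
    push Not at hfix
    obtain ⟨W, hWd, hWinv, hWn⟩ := exists_sp_piece hrF hr2 hB hnd hf hy hfix he₀
    obtain ⟨α, _, _, p, hp0, hp1, hpW, hpli, hpspan⟩ := exists_symplectic_family B hB W hWn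
    have hα : Fintype.card α = e₀ := by
      rw [← hpspan, finrank_span_eq_card hpli, Fintype.card_prod, Fintype.card_fin] at hWd
      omega
    let E : Fin e₀ ≃ α := (Fintype.equivFinOfCardEq hα).symm
    -- the orthogonal complement
    let P : V →ₗ[F] (W →ₗ[F] F) := (LinearMap.lcomp F F W.subtype) ∘ₗ B.flip
    set Q := LinearMap.ker P with hQ
    have hQmem : ∀ v, v ∈ Q ↔ ∀ w ∈ W, B w v = 0 := fun v =>
      LinearMap.mem_ker.trans ⟨fun h w hw => LinearMap.congr_fun h ⟨w, hw⟩, fun h => LinearMap.ext fun u => h u u.2⟩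
    have hPsurj : Function.Surjective (P ∘ₗ W.subtype) := by
      refine (LinearMap.injective_iff_surjective_of_finrank_eq_finrank
        (Subspace.dual_finrank_eq (K := F) (V := W)).symm).1 ?_
      rw [injective_iff_map_eq_zero]
      intro w hw
      refine Subtype.ext (hWn w w.2 fun y hy' => ?_)
      have : B y w = 0 := LinearMap.congr_fun hw ⟨y, hy'⟩
      rw [alt_skew hB, this, neg_zero]
    have hdimQ : finrank F Q + 2 * e₀ = d := by
      have h2 := LinearMap.finrank_range_add_finrank_ker P
      rw [LinearMap.range_eq_top.2 (show Function.Surjective P from fun z => ⟨_, (hPsurj z).choose_spec⟩), finrank_top, Subspace.dual_finrank_eq,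
        hWd, hd] at h2
      rw [hQ]; omega
    have hQinv : ∀ v ∈ Q, Y v ∈ Q := by
      intro v hv
      rw [hQmem] at hv ⊢
      intro w hw
      have hit : ∀ i : ℕ, Y^[i] w ∈ W := by
        intro i
        induction i with
        | zero => exact hw
        | succ i ih => rw [Function.iterate_succ_apply']; exact hWinv _ ih
      rw [← hy w, show r = (r - 1) + 1 by have := (Fact.out : r.Prime).pos; omega, Function.iterate_succ_apply', hf]
      exact hv _ (hit _)
    have hQn : ∀ v : Q, (∀ u : Q, B (v : V) (u : V) = 0) → v = 0 := by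
      intro v hall
      refine Subtype.ext (hnd (v : V) fun u => ?_)
      obtain ⟨w, hw⟩ := hPsurj (P u)
      have hmem : u - w ∈ Q := by
        rw [hQ, LinearMap.mem_ker, map_sub, sub_eq_zero]; exact hw.symm
      have h1 : B (v : V) (w : V) = 0 := by
        rw [alt_skew hB, (hQmem v).1 v.2 w w.2, neg_zero]
      have h2 := hall ⟨u - w, hmem⟩
      rw [map_sub, h1, sub_zero] at h2
      exact h2
    have hyQ : ∀ v : Q, (Y.restrict hQinv)^[r] v = v := by
      have hit : ∀ (i : ℕ) (v : Q), (((Y.restrict hQinv)^[i] v : Q) : V) = Y^[i] v := by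
        intro i
        induction i with
        | zero => intro v; rfl
        | succ i ih =>
          intro v
          rw [Function.iterate_succ_apply', Function.iterate_succ_apply', ← ih v]
          rfl
      exact fun v => Subtype.ext (by rw [hit, hy])
    obtain ⟨M, h, b, hMh, hh, hb0, hb1, hbl, hbr⟩ := ih (finrank F Q) (by omega) Q rfl (B.restrict Q)
      (Y.restrict hQinv) (fun v => hB v) hQn (fun u w => hf u w) hyQ
    have horth : ∀ (x : α × Fin 2) (y : ((Fin M × Fin e₀) ⊕ Fin h) × Fin 2),
        B (p x) (b y : V) = 0 ∧ B (b y : V) (p x) = 0 := fun x y =>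
      ⟨(hQmem _).1 (b y).2 _ (hpW x), by rw [alt_skew hB, (hQmem _).1 (b y).2 _ (hpW x), neg_zero]⟩
    let c : ((Fin (M + 1) × Fin e₀) ⊕ Fin h) × Fin 2 → V := fun x => match x.1 with
      | .inl (i, u) => Fin.cases (p (E u, x.2)) (fun i' => (b (.inl (i', u), x.2) : V)) i
      | .inr j => (b (.inr j, x.2) : V)
    have hc0' : ∀ u s, c (.inl (0, u), s) = p (E u, s) := fun u s => rfl
    have hcs : ∀ i u s, c (.inl (Fin.succ i, u), s) = b (.inl (i, u), s) := fun i u s => rfl
    have hcr : ∀ j s, c (.inr j, s) = b (.inr j, s) := fun j s => rfl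
    refine ⟨M + 1, h, c, by rw [add_mul, one_mul]; omega, hh, ?_, ?_, ?_, fun j s => ?_⟩
    · intro i j s
      rcases i with ⟨i, u⟩ | i <;> rcases j with ⟨j, w⟩ | j
      · cases i using Fin.cases <;> cases j using Fin.cases <;> simp only [hc0', hcs]
        · exact hp0 _ _ _
        · exact (horth _ _).1
        · exact (horth _ _).2
        · exact hb0 _ _ s
      · cases i using Fin.cases <;> simp only [hc0', hcs, hcr]
        · exact (horth _ _).1
        · exact hb0 _ _ s
      · cases j using Fin.cases <;> simp only [hc0', hcs, hcr]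
        · exact (horth _ _).2
        · exact hb0 _ _ s
      · exact hb0 _ _ s
    · intro i j
      rcases i with ⟨i, u⟩ | i <;> rcases j with ⟨j, w⟩ | j
      · cases i using Fin.cases <;> cases j using Fin.cases <;> simp only [hc0', hcs]
        · rw [hp1]; simp
        · rw [(horth _ _).1, if_neg (by simp [Fin.ext_iff])]
        · rw [(horth _ _).2, if_neg (by simp [Fin.ext_iff])]
        · refine (hb1 (.inl (_, u)) (.inl (_, w))).trans ?_
          simp
      · cases i using Fin.cases <;> simp only [hc0', hcs, hcr]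
        · rw [(horth _ _).1]; simp
        · refine (hb1 (.inl (_, u)) (.inr j)).trans ?_
          simp
      · cases j using Fin.cases <;> simp only [hc0', hcs, hcr]
        · rw [(horth _ _).2]; simp
        · refine (hb1 (.inr i) (.inl (_, w))).trans ?_
          simp
      · simp only [hcr]
        refine (hb1 (.inr i) (.inr j)).trans ?_
        simp
    · intro i u s
      cases i using Fin.cases with
      | zero =>
        rw [hc0']
        have : Submodule.span F (Set.range fun x : Fin e₀ × Fin 2 => c (.inl (0, x.1), x.2)) = W := by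
          rw [← hpspan]
          congr 1
          exact Set.ext fun v => ⟨fun ⟨x, hx⟩ => ⟨(E x.1, x.2), hx⟩, fun ⟨x, hx⟩ => ⟨(E.symm x.1, x.2), by simpa [hc0'] using hx⟩⟩
        rw [this]
        exact hWinv _ (hpW _)
      | succ i =>
        rw [hcs]
        have h1 := Submodule.mem_map_of_mem (f := Q.subtype) (hbl i u s)
        rw [Submodule.map_span, ← Set.range_comp] at h1
        exact h1
    · rw [hcr]
      exact congrArg Subtype.val (hbr j s)

end CfsgLib.Omega.SympPieces
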