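import Mathlib
import Cfsg.Agent.Lib.Omega.SympForm
import Cfsg.Agent.Lib.Forms.SympBridge
import Cfsg.Agent.Lib.Forms.Counting
import Cfsg.Agent.Lib.ClassicalLinear.SympCard
import Cfsg.Agent.Lib.ClassicalLinear.Card

/-!
Pairs of complementary totally isotropic subspaces of the standard symplectic space and their number.
-/

set_option autoImplicit false

open scoped Matrix

namespace CfsgLib.Omega

universe u

variable {F : Type u} [Field F] {d : ℕ}

/-- The type of ordered pairs of complementary totally isotropic subspaces. -/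
abbrev PolarPair (d : ℕ) (F : Type*) [Field F] :=
  {P : Submodule F (Fin d ⊕ Fin d → F) × Submodule F (Fin d ⊕ Fin d → F) // IsCompl P.1 P.2 ∧
    (∀ u ∈ P.1, ∀ v ∈ P.1, Cfsg.sympForm d F u v = 0) ∧ (∀ u ∈ P.2, ∀ v ∈ P.2, Cfsg.sympForm d F u v = 0)}

theorem sympBilin_nondeg' : (sympBilin d F).Nondegenerate := Forms.sympBilin_nondeg d F

theorem finrank_of_isotropic (U : Submodule F (Fin d ⊕ Fin d → F))
    (hU : ∀ u ∈ U, ∀ v ∈ U, Cfsg.sympForm d F u v = 0) : Module.finrank F U ≤ d := by
  have hle : U ≤ (sympBilin d F).orthogonal U := fun v hv w hw => by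
    show sympBilin d F w v = 0
    rw [sympBilin_apply]; exact hU w hw v hv
  have h := Submodule.finrank_mono hle
  rw [LinearMap.BilinForm.finrank_orthogonal sympBilin_nondeg',
    Module.finrank_fintype_fun_eq_card, Fintype.card_sum, Fintype.card_fin] at h
  have h2 := Submodule.finrank_le U
  rw [Module.finrank_fintype_fun_eq_card, Fintype.card_sum, Fintype.card_fin] at h2
  omega

theorem finrank_polar {P : PolarPair d F} :
    Module.finrank F P.1.1 = d ∧ Module.finrank F P.1.2 = d := by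
  have h1 := finrank_of_isotropic _ P.2.2.1
  have h2 := finrank_of_isotropic _ P.2.2.2
  have h3 := Submodule.finrank_add_eq_of_isCompl P.2.1
  rw [Module.finrank_fintype_fun_eq_card, Fintype.card_sum, Fintype.card_fin] at h3
  omega

/-- The span of the first half of the standard basis. -/
def stdU (d : ℕ) (F : Type*) [Field F] : Submodule F (Fin d ⊕ Fin d → F) :=
  LinearMap.ker (LinearMap.funLeft F F (Sum.inr : Fin d → Fin d ⊕ Fin d))

/-- The span of the second half of the standard basis. -/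
def stdW (d : ℕ) (F : Type*) [Field F] : Submodule F (Fin d ⊕ Fin d → F) :=
  LinearMap.ker (LinearMap.funLeft F F (Sum.inl : Fin d → Fin d ⊕ Fin d))

theorem mem_stdU {v : Fin d ⊕ Fin d → F} : v ∈ stdU d F ↔ ∀ i, v (.inr i) = 0 :=
  LinearMap.mem_ker.trans funext_iff

theorem mem_stdW {v : Fin d ⊕ Fin d → F} : v ∈ stdW d F ↔ ∀ i, v (.inl i) = 0 :=
  LinearMap.mem_ker.trans funext_iff

/-- The standard pair. -/
def stdPair (d : ℕ) (F : Type*) [Field F] : PolarPair d F :=
  ⟨(stdU d F, stdW d F), by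
    refine ⟨⟨?_, ?_⟩, fun u hu v hv => ?_, fun u hu v hv => ?_⟩
    · rw [Submodule.disjoint_def]
      intro v hv hv'
      funext x
      rcases x with i | i
      · exact mem_stdW.1 hv' i
      · exact mem_stdU.1 hv i
    · rw [codisjoint_iff, eq_top_iff]
      intro v _
      refine Submodule.mem_sup.2 ⟨Sum.elim (fun i => v (.inl i)) 0, mem_stdU.2 fun i => rfl,
        Sum.elim 0 (fun i => v (.inr i)), mem_stdW.2 fun i => rfl, ?_⟩
      ext (i | i) <;> simp
    · rw [sympForm_eq_sum]
      exact Finset.sum_eq_zero fun i _ => by rw [mem_stdU.1 hu, mem_stdU.1 hv]; ring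
    · rw [sympForm_eq_sum]
      exact Finset.sum_eq_zero fun i _ => by rw [mem_stdW.1 hu, mem_stdW.1 hv]; ring⟩

/-- The symplectic group is transitive on pairs. -/
theorem exists_sp_map_polar (P : PolarPair d F) :
    ∃ g : Matrix.symplecticGroup (Fin d) F,
      (stdU d F).map (Matrix.toLin' (g : Matrix (Fin d ⊕ Fin d) (Fin d ⊕ Fin d) F)) = P.1.1 ∧
      (stdW d F).map (Matrix.toLin' (g : Matrix (Fin d ⊕ Fin d) (Fin d ⊕ Fin d) F)) = P.1.2 := by
  classical
  obtain ⟨hU, hW⟩ := finrank_polar (P := P)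
  obtain ⟨hc, hUs, hWs⟩ := P.2
  let u : Module.Basis (Fin d) F P.1.1 := Module.finBasisOfFinrankEq F _ hU
  let φ : P.1.2 →ₗ[F] (Fin d → F) :=
    LinearMap.pi fun i => (sympBilin d F (u i : Fin d ⊕ Fin d → F)).comp P.1.2.subtype
  have hφ : Function.Injective φ := by
    rw [injective_iff_map_eq_zero]
    intro w hw
    have h1 : ∀ x ∈ P.1.1, sympBilin d F x w = 0 := by
      intro x hx
      have : (⟨x, hx⟩ : P.1.1) = ∑ i, u.repr ⟨x, hx⟩ i • u i := (u.sum_repr _).symm
      have h' := congrArg (fun z : P.1.1 => (z : Fin d ⊕ Fin d → F)) this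
      simp only [Submodule.coe_sum, Submodule.coe_smul] at h'
      rw [h', map_sum, LinearMap.sum_apply]
      refine Finset.sum_eq_zero fun i _ => ?_
      rw [map_smul, LinearMap.smul_apply, show sympBilin d F (u i : Fin d ⊕ Fin d → F) w = 0 from congrFun hw i,
        smul_zero]
    refine Subtype.ext (sympBilin_nondeg'.2 _ fun x => ?_)
    obtain ⟨a, ha, b, hb, rfl⟩ := Submodule.mem_sup.1 (hc.sup_eq_top ▸ Submodule.mem_top (x := x))
    rw [map_add, LinearMap.add_apply, h1 a ha, sympBilin_apply, hWs b hb _ w.2, add_zero]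
  let Φ : P.1.2 ≃ₗ[F] (Fin d → F) := LinearEquiv.ofBijective φ ⟨hφ,
    (LinearMap.injective_iff_surjective_of_finrank_eq_finrank (by rw [hW, Module.finrank_fin_fun])).1 hφ⟩
  let w : Fin d → P.1.2 := fun j => Φ.symm (-Pi.single j 1)
  have huw : ∀ i j, Cfsg.sympForm d F (u i : Fin d ⊕ Fin d → F) (w j) = -(if i = j then 1 else 0) := fun i j => by
    rw [← sympBilin_apply]
    show φ (w j) i = _
    rw [show φ (w j) = Φ (Φ.symm (-Pi.single j 1)) from rfl, Φ.apply_symm_apply]
    simp [Pi.single_apply]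
  let L : (Fin d ⊕ Fin d → F) →ₗ[F] (Fin d ⊕ Fin d → F) :=
    (Pi.basisFun F (Fin d ⊕ Fin d)).constr F (Sum.elim (fun i => (u i : Fin d ⊕ Fin d → F)) (fun j => w j))
  have hLl : ∀ i, L (Pi.single (.inl i) 1) = u i := fun i => by
    rw [← Pi.basisFun_apply, Module.Basis.constr_basis]; rfl
  have hLr : ∀ j, L (Pi.single (.inr j) 1) = w j := fun j => by
    rw [← Pi.basisFun_apply, Module.Basis.constr_basis]; rfl
  have hL : ∀ x y, sympBilin d F (L x) (L y) = sympBilin d F x y := by
    have h : (sympBilin d F).compl₁₂ L L = sympBilin d F := by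
      refine LinearMap.BilinForm.ext_basis (Pi.basisFun F _) fun i j => ?_
      simp only [LinearMap.compl₁₂_apply, Pi.basisFun_apply, sympBilin_apply]
      rcases i with i | i <;> rcases j with j | j
      · rw [hLl, hLl, hUs _ (u i).2 _ (u j).2]; simp [sympForm_eq_sum, Pi.single_apply]
      · rw [hLl, hLr, huw]; simp [sympForm_eq_sum, Pi.single_apply, eq_comm]
      · rw [hLr, hLl, ← sympBilin_apply, alt_skew' _ _, sympBilin_apply, huw]
        simp [sympForm_eq_sum, Pi.single_apply]
      · rw [hLr, hLr, hWs _ (w i).2 _ (w j).2]; simp [sympForm_eq_sum, Pi.single_apply]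
    exact fun x y => LinearMap.congr_fun₂ h x y
  let g : Matrix.symplecticGroup (Fin d) F :=
    ⟨LinearMap.toMatrix' L, Forms.mem_symplecticGroup_iff_form.mpr fun x y => by
      rw [← Matrix.toLin'_apply, ← Matrix.toLin'_apply, Matrix.toLin'_toMatrix', ← sympBilin_apply,
        ← sympBilin_apply, hL]⟩
  have hg : Matrix.toLin' (g : Matrix (Fin d ⊕ Fin d) (Fin d ⊕ Fin d) F) = L := Matrix.toLin'_toMatrix' L
  have hinj : Function.Injective L := by
    rw [injective_iff_map_eq_zero]
    intro x hx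
    exact sympBilin_nondegenerate x fun y => by rw [← hL, hx, map_zero, LinearMap.zero_apply]
  obtain ⟨hU₀, hW₀⟩ := finrank_polar (P := stdPair d F)
  refine ⟨g, ?_, ?_⟩ <;> rw [hg]
  · refine Submodule.eq_of_le_of_finrank_eq ?_ ?_
    · rintro _ ⟨v, hv, rfl⟩
      rw [show v = ∑ i, v (.inl i) • Pi.single (Sum.inl i) (1 : F) by
        funext x; rcases x with x | x <;> simp [Pi.single_apply, mem_stdU.1 hv], map_sum]
      exact Submodule.sum_mem _ fun i _ => by rw [map_smul, hLl]; exact Submodule.smul_mem _ _ (u i).2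
    · rw [← LinearEquiv.finrank_eq (Submodule.equivMapOfInjective L hinj _), hU]; exact hU₀
  · refine Submodule.eq_of_le_of_finrank_eq ?_ ?_
    · rintro _ ⟨v, hv, rfl⟩
      rw [show v = ∑ i, v (.inr i) • Pi.single (Sum.inr i) (1 : F) by
        funext x; rcases x with x | x <;> simp [Pi.single_apply, mem_stdW.1 hv], map_sum]
      exact Submodule.sum_mem _ fun i _ => by rw [map_smul, hLr]; exact Submodule.smul_mem _ _ (w i).2
    · rw [← LinearEquiv.finrank_eq (Submodule.equivMapOfInjective L hinj _), hW]; exact hW₀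
where
  alt_skew' (x y : Fin d ⊕ Fin d → F) : sympBilin d F x y = -sympBilin d F y x := by
    have := sympBilin_self (x + y)
    simp only [map_add, LinearMap.add_apply, sympBilin_self, zero_add, add_zero] at this
    linear_combination this

/-- The number of pairs divides `q ^ (d²) ∏ (q ^ i + 1)`. -/
theorem card_polarPair_dvd [Fintype F] :
    Nat.card (PolarPair d F) ∣
      Fintype.card F ^ (d ^ 2) * ∏ i ∈ Finset.range d, (Fintype.card F ^ (i + 1) + 1) := by
  classical
  let act : Matrix.symplecticGroup (Fin d) F → Submodule F (Fin d ⊕ Fin d → F) → Submodule F (Fin d ⊕ Fin d → F) :=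
    fun g S => S.map (Matrix.toLin' (g : Matrix (Fin d ⊕ Fin d) (Fin d ⊕ Fin d) F))
  have hmul : ∀ g h S, act (g * h) S = act g (act h S) := fun g h S => by
    simp only [act, ← Submodule.map_comp, ← Matrix.toLin'_mul]
    rfl
  have hone : ∀ S, act 1 S = S := fun S => by
    simp [act, show ((1 : Matrix.symplecticGroup (Fin d) F) : Matrix (Fin d ⊕ Fin d) (Fin d ⊕ Fin d) F) = 1 from rfl]
  let K : Subgroup (Matrix.symplecticGroup (Fin d) F) :=
    { carrier := {g | act g (stdU d F) = stdU d F ∧ act g (stdW d F) = stdW d F}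
      mul_mem' := fun {a b} ha hb => ⟨by rw [hmul, hb.1, ha.1], by rw [hmul, hb.2, ha.2]⟩
      one_mem' := ⟨hone _, hone _⟩
      inv_mem' := fun {a} ha => ⟨by conv_lhs => rw [← ha.1, ← hmul, inv_mul_cancel, hone],
        by conv_lhs => rw [← ha.2, ← hmul, inv_mul_cancel, hone]⟩ }
  let Φ : Matrix.symplecticGroup (Fin d) F → Submodule F (Fin d ⊕ Fin d → F) × Submodule F (Fin d ⊕ Fin d → F) :=
    fun g => (act g (stdU d F), act g (stdW d F))
  have hfib := Forms.card_eq_card_range_mul Φ K (fun g g' => by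
    constructor
    · intro h
      have h1 : act g (stdU d F) = act g' (stdU d F) := congrArg Prod.fst h
      have h2 : act g (stdW d F) = act g' (stdW d F) := congrArg Prod.snd h
      exact ⟨by rw [hmul, ← h1, ← hmul, inv_mul_cancel, hone], by rw [hmul, ← h2, ← hmul, inv_mul_cancel, hone]⟩
    · intro h
      have e1 := congrArg (act g) h.1
      have e2 := congrArg (act g) h.2
      rw [← hmul, mul_inv_cancel_left] at e1 e2
      exact Prod.ext e1.symm e2.symm)
  have hrange : Nat.card (Set.range Φ) = Nat.card (PolarPair d F) := by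
    refine Nat.card_congr (Equiv.subtypeEquivRight fun P => ⟨?_, fun h => ?_⟩)
    · rintro ⟨g, rfl⟩
      set L := Matrix.toLin' (g : Matrix (Fin d ⊕ Fin d) (Fin d ⊕ Fin d) F) with hL
      have hLb : Function.Bijective L := by
        have h1 : ∀ h : Matrix.symplecticGroup (Fin d) F, ∀ v, ((h⁻¹ * h : Matrix.symplecticGroup (Fin d) F) :
            Matrix (Fin d ⊕ Fin d) (Fin d ⊕ Fin d) F) *ᵥ v = v := fun h v => by
          rw [inv_mul_cancel]; exact Matrix.one_mulVec v
        have hi : Function.Injective L := fun a b hab => by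
          rw [← h1 g a, ← h1 g b]
          show (((g⁻¹ : Matrix.symplecticGroup (Fin d) F) : Matrix (Fin d ⊕ Fin d) (Fin d ⊕ Fin d) F) *
            (g : Matrix (Fin d ⊕ Fin d) (Fin d ⊕ Fin d) F)) *ᵥ a = (((g⁻¹ : Matrix.symplecticGroup (Fin d) F) :
              Matrix (Fin d ⊕ Fin d) (Fin d ⊕ Fin d) F) * (g : Matrix (Fin d ⊕ Fin d) (Fin d ⊕ Fin d) F)) *ᵥ b
          rw [← Matrix.mulVec_mulVec, ← Matrix.mulVec_mulVec]
          exact congrArg _ hab
        exact ⟨hi, LinearMap.injective_iff_surjective.1 hi⟩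
      obtain ⟨hc, hu, hw⟩ := (stdPair d F).2
      refine ⟨(Submodule.orderIsoMapComap (LinearEquiv.ofBijective L hLb)).isCompl hc, ?_, ?_⟩
      · rintro _ ⟨a, ha, rfl⟩ _ ⟨b, hb, rfl⟩
        simp only [Matrix.toLin'_apply]
        rw [sympForm_mulVec_of_mem g.2]; exact hu a ha b hb
      · rintro _ ⟨a, ha, rfl⟩ _ ⟨b, hb, rfl⟩
        simp only [Matrix.toLin'_apply]
        rw [sympForm_mulVec_of_mem g.2]; exact hw a ha b hb
    · obtain ⟨g, h1, h2⟩ := exists_sp_map_polar ⟨P, h⟩
      exact ⟨g, Prod.ext h1 h2⟩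
  -- the Levi factor
  let D : GL (Fin d) F → Matrix (Fin d ⊕ Fin d) (Fin d ⊕ Fin d) F := fun A =>
    Matrix.fromBlocks (A : Matrix (Fin d) (Fin d) F) 0 0 ((A⁻¹ : GL (Fin d) F) : Matrix (Fin d) (Fin d) F)ᵀ
  have hD : ∀ A, D A ∈ Matrix.symplecticGroup (Fin d) F := fun A => by
    rw [SymplecticGroup.mem_iff]
    simp [D, Matrix.J, Matrix.fromBlocks_transpose, Matrix.fromBlocks_multiply, ← Matrix.transpose_mul]
  let ψ : GL (Fin d) F →* Matrix.symplecticGroup (Fin d) F :=
    { toFun := fun A => ⟨D A, hD A⟩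
      map_one' := Subtype.ext (by simp [D, Matrix.fromBlocks_one])
      map_mul' := fun A B => Subtype.ext (by
        show D (A * B) = D A * D B
        simp only [D, Matrix.fromBlocks_multiply, Matrix.mul_zero, Matrix.zero_mul, add_zero, zero_add, mul_inv_rev,
          Units.val_mul, Matrix.transpose_mul]) }
  have hψ : Function.Injective ψ := fun A B h => by
    have h' : D A = D B := congrArg Subtype.val h
    exact Units.ext (Matrix.fromBlocks_inj.1 h').1
  have hsub : ∀ A v, (v ∈ stdU d F → D A *ᵥ v ∈ stdU d F) ∧ (v ∈ stdW d F → D A *ᵥ v ∈ stdW d F) := by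
    intro A v
    refine ⟨fun hv => mem_stdU.2 fun i => ?_, fun hv => mem_stdW.2 fun i => ?_⟩
    · simp [D, Matrix.mulVec, dotProduct, Fintype.sum_sum_type, mem_stdU.1 hv]
    · simp [D, Matrix.mulVec, dotProduct, Fintype.sum_sum_type, mem_stdW.1 hv]
  have hK : ψ.range ≤ K := by
    rintro _ ⟨A, rfl⟩
    have hle : ∀ S, (∀ B v, v ∈ S → D B *ᵥ v ∈ S) → act (ψ A) S = S := by
      intro S hS
      refine le_antisymm ?_ fun v hv => ?_
      · rintro _ ⟨v, hv, rfl⟩
        exact hS A v hv
      · refine ⟨D A⁻¹ *ᵥ v, hS A⁻¹ v hv, ?_⟩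
        rw [Matrix.toLin'_apply, Matrix.mulVec_mulVec]
        show (((ψ A * ψ A⁻¹ : Matrix.symplecticGroup (Fin d) F)) : Matrix (Fin d ⊕ Fin d) (Fin d ⊕ Fin d) F) *ᵥ v = v
        rw [← map_mul, mul_inv_cancel, map_one]
        exact Matrix.one_mulVec v
    exact ⟨hle _ fun B v => (hsub B v).1, hle _ fun B v => (hsub B v).2⟩
  have hGL : Nat.card (GL (Fin d) F) ∣ Nat.card K := by
    rw [Nat.card_congr (MonoidHom.ofInjective hψ).toEquiv]
    exact Subgroup.card_dvd_of_le hK
  obtain ⟨t, ht⟩ := hGL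
  rw [hrange, ht, ClassicalLinear.card_sp, Matrix.card_GL_field] at hfib
  set q := Fintype.card F with hq
  have hq1 : 1 < q := Fintype.one_lt_card
  have h1 : ∏ i : Fin d, (q ^ d - q ^ (i : ℕ)) =
      (∏ i ∈ Finset.range d, q ^ i) * ∏ i ∈ Finset.range d, (q ^ (i + 1) - 1) := by
    rw [Fin.prod_univ_eq_prod_range (fun i => q ^ d - q ^ i),
      ← Finset.prod_range_reflect (fun i => q ^ (i + 1) - 1), ← Finset.prod_mul_distrib]
    refine Finset.prod_congr rfl fun i hi => ?_
    rw [Finset.mem_range] at hi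
    rw [Nat.mul_sub, mul_one, ← pow_add]
    congr 2
    omega
  have h2 : ∏ i ∈ Finset.range d, (q ^ (2 * (i + 1)) - 1) =
      (∏ i ∈ Finset.range d, (q ^ (i + 1) - 1)) * ∏ i ∈ Finset.range d, (q ^ (i + 1) + 1) := by
    rw [← Finset.prod_mul_distrib]
    refine Finset.prod_congr rfl fun i _ => ?_
    rw [two_mul, pow_add, ← Nat.pow_two, ← one_pow 2, Nat.sq_sub_sq, one_pow]; ring
  have hpos : 0 < ∏ i ∈ Finset.range d, (q ^ (i + 1) - 1) := Finset.prod_pos fun i _ => by
    have := Nat.one_lt_pow (show i + 1 ≠ 0 by omega) hq1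
    omega
  refine ⟨(∏ i ∈ Finset.range d, q ^ i) * t, Nat.eq_of_mul_eq_mul_left hpos ?_⟩
  rw [h1, h2] at hfib
  linear_combination hfib

/-- Ordered pairs come in twos. -/
theorem two_dvd_card_polarPair [Fintype F] (hd : d ≠ 0) : 2 ∣ Nat.card (PolarPair d F) := by
  classical
  haveI : Finite (Submodule F (Fin d ⊕ Fin d → F)) := Finite.of_injective _ SetLike.coe_injective
  haveI : Fintype (PolarPair d F) := Fintype.ofFinite _
  haveI : Fact (Nat.Prime 2) := ⟨Nat.prime_two⟩
  let s : Equiv.Perm (PolarPair d F) :=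
    { toFun := fun P => ⟨(P.1.2, P.1.1), P.2.1.symm, P.2.2.2, P.2.2.1⟩
      invFun := fun P => ⟨(P.1.2, P.1.1), P.2.1.symm, P.2.2.2, P.2.2.1⟩
      left_inv := fun P => rfl
      right_inv := fun P => rfl }
  have hmod := Equiv.Perm.card_compl_support_modEq (p := 2) (n := 1) (σ := s) (Equiv.ext fun P => rfl)
  have hfree : s.supportᶜ = ∅ := by
    rw [Finset.compl_eq_empty_iff, Finset.eq_univ_iff_forall]
    intro P
    rw [Equiv.Perm.mem_support]
    intro h
    have heq : P.1.2 = P.1.1 := congrArg (fun Q : PolarPair d F => Q.1.1) h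
    have h1 : Disjoint P.1.1 P.1.2 := P.2.1.disjoint
    rw [heq, disjoint_self] at h1
    have h2 := (finrank_polar (P := P)).1
    rw [h1, finrank_bot] at h2
    exact hd h2.symm
  rw [hfree, Finset.card_empty] at hmod
  rw [Nat.card_eq_fintype_card]
  exact Nat.modEq_zero_iff_dvd.1 hmod.symm

end CfsgLib.Omega
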