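import Cfsg.Agent.Lib.Omega.IsometryParity
import Cfsg.Agent.Lib.Omega.SkewNilpotent
import Cfsg.Agent.Lib.Omega.SympForm
import Cfsg.Agent.Lib.Forms.Symplectic

/-!
Jordan types of unipotent isometries of alternating forms in odd characteristic: the parity condition and the
existence of an isometry of every admissible type.
-/

set_option autoImplicit false

open Module LinearMap

namespace CfsgLib.Omega.SympJordan

universe u v w

variable {F : Type u} [Field F] {V : Type v} [AddCommGroup V] [Module F V] [FiniteDimensional F V]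

/-- A self-adjoint map of a non-degenerate alternating form has even rank. -/
theorem even_finrank_range_of_selfAdjoint (h2 : (2 : F) ≠ 0) (B : LinearMap.BilinForm F V)
    (hB : ∀ v, B v v = 0) (hnd : ∀ u, (∀ v, B u v = 0) → u = 0) (T : Module.End F V)
    (hT : ∀ u v, B (T u) v = B u (T v)) : Even (finrank F (LinearMap.range T)) := by
  obtain ⟨C, hC⟩ := Submodule.exists_isCompl (LinearMap.ker T)
  have hrC : finrank F C = finrank F (LinearMap.range T) := by
    have h1 := Submodule.finrank_add_eq_of_isCompl hC
    have h3 := LinearMap.finrank_range_add_finrank_ker T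
    omega
  rw [← hrC]
  let β : LinearMap.BilinForm F C := (B.comp T LinearMap.id).restrict C
  have hβ : ∀ u v, β u v = B (T u) v := fun u v => rfl
  have halt : ∀ u, β u u = 0 := fun u => by
    have h := hT u u
    rw [alt_skew hB (u : V) (T u)] at h
    rw [hβ]
    exact (mul_eq_zero.1 (show (2 : F) * B (T u) u = 0 by linear_combination h)).resolve_left h2
  obtain ⟨α, _, _, b, -, -, -, hli, hspan⟩ := exists_symplectic_family β halt ⊤ (by
    intro u _ hu
    have hTu : T u = 0 := by
      refine hnd _ fun v => ?_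
      obtain ⟨k, hk, c, hc, rfl⟩ := Submodule.mem_sup.1
        (show v ∈ LinearMap.ker T ⊔ C by rw [hC.sup_eq_top]; trivial)
      rw [map_add, hT u k, LinearMap.mem_ker.1 hk, map_zero, zero_add]
      exact hu ⟨c, hc⟩ trivial
    exact Subtype.ext (Submodule.mem_bot F |>.1 (hC.inf_eq_bot ▸ ⟨hTu, u.2⟩ : (u : V) ∈ (⊥ : Submodule F V))))
  rw [← finrank_top F C, ← hspan, finrank_span_eq_card hli, Fintype.card_prod, Fintype.card_fin]
  exact ⟨Fintype.card α, by ring⟩

section Isometry

variable {p : ℕ} {B : LinearMap.BilinForm F V} {x : Module.End F V}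

/-- The rank of an even power of `x - 1` is even on a non-degenerate invariant subspace. -/
theorem even_rankSeq_alt (h2 : (2 : F) ≠ 0) (hp : 1 ≤ p) (hB : ∀ v, B v v = 0)
    (hx : ∀ u v, B (x u) (x v) = B u v) (hxp : x ^ p = 1) (hNp : (x - 1) ^ p = 0) {D : Submodule F V}
    (hD : ∀ v ∈ D, x v ∈ D) (hDnd : ∀ u ∈ D, (∀ v ∈ D, B u v = 0) → u = 0) {k : ℕ} (hk : Even k) :
    Even (rankSeq (x - 1) D k) := by
  have hadj : ∀ u v, B (x u) v = B u ((x ^ (p - 1)) v) := fun u v => by
    conv_lhs => rw [show v = x ((x ^ (p - 1)) v) by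
      rw [← Module.End.mul_apply, ← pow_succ', Nat.sub_add_cancel hp, hxp]; rfl]
    rw [hx]
  let Y : Module.End F V := x - x ^ (p - 1)
  have hY : ∀ u v, B (Y u) v = -B u (Y v) := fun u v => by
    have h1 : B ((x ^ (p - 1)) u) v = B u (x v) := by
      rw [alt_skew hB, ← hadj, ← alt_skew hB]
    simp only [Y, LinearMap.sub_apply, map_sub]
    rw [hadj, h1]
    ring
  let U : Module.End F V := x ^ (p - 1) * (x + 1)
  have hYU : Y = U * (x - 1) := by
    have e1 : x ^ (p - 1) * x = 1 := by rw [← pow_succ, Nat.sub_add_cancel hp, hxp]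
    calc x - x ^ (p - 1) = x ^ (p - 1) * x * x - x ^ (p - 1) := by rw [e1, one_mul]
      _ = x ^ (p - 1) * (x + 1) * (x - 1) := by noncomm_ring
  have hUinj : ∀ u, U u = 0 → u = 0 := fun u hu => by
    have h1 : x u + u = 0 := by
      have h3 : ((x ^ (p - 1)) (x u + u)) = 0 := hu
      have := congrArg x h3
      rw [map_zero, ← Module.End.mul_apply, ← pow_succ', Nat.sub_add_cancel hp, hxp] at this
      exact this
    have h3 : ∀ i : ℕ, ((x - 1) ^ i) u = (-2 : F) ^ i • u := by
      intro i
      induction i with
      | zero => simp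
      | succ i ih =>
        rw [pow_succ', Module.End.mul_apply, ih, map_smul, LinearMap.sub_apply, Module.End.one_apply,
          eq_neg_of_add_eq_zero_left h1, pow_succ']
        module
    have h4 := h3 p
    rw [hNp, LinearMap.zero_apply, eq_comm, smul_eq_zero] at h4
    exact h4.resolve_left (pow_ne_zero _ (neg_ne_zero.2 h2))
  have hcx : Commute U (x - 1) :=
    ((Commute.pow_self x _).mul_left ((Commute.refl x).add_left (Commute.one_left x))).sub_right
      (Commute.one_right _)
  have hDpow : ∀ i, ∀ v ∈ D, (x ^ i) v ∈ D := by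
    intro i
    induction i with
    | zero => intro v hv; exact hv
    | succ i ih => intro v hv; rw [pow_succ', Module.End.mul_apply]; exact hD _ (ih v hv)
  have hDYk : ∀ i, ∀ v ∈ D, (Y ^ i) v ∈ D := by
    intro i
    induction i with
    | zero => intro v hv; exact hv
    | succ i ih =>
      intro v hv
      rw [pow_succ', Module.End.mul_apply]
      exact sub_mem (hD _ (ih v hv)) (hDpow _ _ (ih v hv))
  have hYk : ∀ i u v, B ((Y ^ i) u) v = (-1) ^ i * B u ((Y ^ i) v) := by
    intro i
    induction i with
    | zero => intro u v; simp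
    | succ i ih =>
      intro u v
      rw [pow_succ', Module.End.mul_apply, hY, ih, ← Module.End.mul_apply, ← pow_succ, ← pow_succ', pow_succ']
      ring
  let T : Module.End F D := (Y ^ k).restrict (hDYk k)
  have hT : Even (finrank F (LinearMap.range T)) := by
    refine even_finrank_range_of_selfAdjoint h2 (B.restrict D) (fun v => hB v)
      (fun u hu => Subtype.ext (hDnd u u.2 fun v hv => hu ⟨v, hv⟩)) T fun u v => ?_
    show B ((Y ^ k) u) v = B u ((Y ^ k) v)
    rw [hYk, hk.neg_one_pow, one_mul]
  have hUk : LinearMap.ker (U ^ k : Module.End F V) = ⊥ := by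
    refine LinearMap.ker_eq_bot.2 ?_
    rw [Module.End.coe_pow]
    exact Function.Injective.iterate (LinearMap.ker_eq_bot.1 ((Submodule.eq_bot_iff _).2
      fun u hu => hUinj u (LinearMap.mem_ker.1 hu))) k
  have hrT : finrank F (LinearMap.range T) = rankSeq (x - 1) D k := by
    have h1 : (LinearMap.range T).map D.subtype =
        (D.map ((x - 1) ^ k : Module.End F V)).map (U ^ k : Module.End F V) := by
      rw [← Submodule.map_comp, ← Module.End.mul_eq_comp, ← hcx.mul_pow, ← hYU, ← LinearMap.range_comp]
      ext v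
      constructor
      · rintro ⟨u, rfl⟩; exact ⟨u, u.2, rfl⟩
      · rintro ⟨u, hu, rfl⟩; exact ⟨⟨u, hu⟩, rfl⟩
    rw [← Submodule.finrank_map_subtype_eq, h1, rankSeq,
      LinearEquiv.finrank_eq (Submodule.equivMapOfInjective _ (LinearMap.ker_eq_bot.1 hUk) _).symm]
  rwa [← hrT]

/-- The odd parts of a symplectic unipotent element have even multiplicities. -/
theorem even_count_jordanParts_alt (h2 : (2 : F) ≠ 0) (hp : 1 ≤ p) (hB : ∀ v, B v v = 0)
    (hx : ∀ u v, B (x u) (x v) = B u v) (hxp : x ^ p = 1) (hNp : (x - 1) ^ p = 0) {D : Submodule F V}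
    (hD : ∀ v ∈ D, x v ∈ D) (hDnd : ∀ u ∈ D, (∀ v ∈ D, B u v = 0) → u = 0) {e : ℕ} (he : Odd e) :
    Even ((jordanParts (x - 1) D p).count e) := by
  rcases e with _ | j
  · exact absurd he (by decide)
  rw [count_jordanParts]
  have hj : Even j := by simpa [parity_simps] using he
  split_ifs
  · have hle : D.map (x - 1) ≤ D := by
      rintro _ ⟨v, hv, rfl⟩
      exact sub_mem (hD v hv) hv
    have h1 := rankSeq_convex hle j
    rw [Nat.even_sub h1, Nat.even_add]
    exact iff_of_true (iff_of_true (even_rankSeq_alt h2 hp hB hx hxp hNp hD hDnd hj)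
      (even_rankSeq_alt h2 hp hB hx hxp hNp hD hDnd (by simpa [parity_simps] using hj))) (even_two_mul _)
  · exact ⟨0, rfl⟩

end Isometry

/-! ### Models -/

/-- Two copies of a model paired with a sign. -/
theorem exists_double_alt {V : Type v} [AddCommGroup V] [Module F V] [FiniteDimensional F V]
    {μ : Multiset ℕ} {H : LinearMap.BilinForm F V} {Y : Module.End F V} (h : IsSkewModel μ H Y) :
    ∃ H₂ : LinearMap.BilinForm F (V × V), (∀ u, H₂ u u = 0) ∧ IsSkewModel (μ + μ) H₂ (Y.prodMap Y) := by
  refine ⟨H.compl₁₂ (LinearMap.fst F V V) (LinearMap.snd F V V) -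
    H.flip.compl₁₂ (LinearMap.snd F V V) (LinearMap.fst F V V), fun u => ?_,
    ⟨fun u hu => Prod.ext (h.left _ fun v => ?_) (h.right _ fun v => ?_),
    fun u hu => Prod.ext (h.left _ fun v => ?_) (h.right _ fun v => ?_), fun u v => ?_, (h.prod h).rank⟩⟩
  · simp only [LinearMap.sub_apply, LinearMap.compl₁₂_apply, LinearMap.fst_apply, LinearMap.snd_apply,
      LinearMap.BilinForm.flip_apply]
    ring
  · simpa using hu (0, v)
  · simpa using hu (v, 0)
  · simpa using hu (0, v)
  · simpa using hu (v, 0)
  · simp only [LinearMap.sub_apply, LinearMap.compl₁₂_apply, LinearMap.fst_apply, LinearMap.snd_apply,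
      LinearMap.prodMap_apply, LinearMap.BilinForm.flip_apply]
    rw [h.skew u.1 v.2, h.skew v.1 u.2]
    ring

/-- An alternating model for every type whose odd parts have even multiplicities. -/
theorem exists_alt_model (h2 : (2 : F) ≠ 0) (μ : Multiset ℕ) (hμ : ∀ e, Odd e → Even (μ.count e)) :
    ∃ (B : LinearMap.BilinForm F (Fin μ.sum → F)) (Y : Module.End F (Fin μ.sum → F)),
      (∀ u, B u u = 0) ∧ IsSkewModel μ B Y := by
  classical
  -- transport of a model to coordinates
  have transport : ∀ {W : Type u} [AddCommGroup W] [Module F W] [FiniteDimensional F W] (ν : Multiset ℕ)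
      (B : LinearMap.BilinForm F W) (Y : Module.End F W), (∀ u, B u u = 0) → IsSkewModel ν B Y →
      ∃ (B : LinearMap.BilinForm F (Fin ν.sum → F)) (Y : Module.End F (Fin ν.sum → F)),
        (∀ u, B u u = 0) ∧ IsSkewModel ν B Y := by
    intro W _ _ _ ν B Y hs h
    have hdim : finrank F W = ν.sum := by
      have := h.rank 0
      rw [rankSeq_zero, finrank_top] at this
      simpa using this
    let E : W ≃ₗ[F] (Fin ν.sum → F) := LinearEquiv.ofFinrankEq _ _ (by rw [hdim, Module.finrank_fin_fun])
    refine ⟨B.compl₁₂ E.symm.toLinearMap E.symm.toLinearMap, E.conj Y, fun u => hs _,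
      fun u hu => E.symm.injective ?_, fun u hu => E.symm.injective ?_, fun u v => ?_, fun i => ?_⟩
    · rw [map_zero]; exact h.left _ fun v => by simpa using hu (E v)
    · rw [map_zero]; exact h.right _ fun v => by simpa using hu (E v)
    · simp [LinearEquiv.conj_apply, h.skew]
    · rw [rankSeq_conj, h.rank]
  induction hn : Multiset.card μ using Nat.strong_induction_on generalizing μ with
  | _ n ih =>
    by_cases hev : ∃ e ∈ μ, Even e
    · obtain ⟨e, he, hee⟩ := hev
      obtain ⟨ν, rfl⟩ := Multiset.exists_cons_of_mem he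
      have hν : ∀ e', Odd e' → Even (ν.count e') := fun e' he' => by
        have := hμ e' he'
        rwa [Multiset.count_cons_of_ne (fun h => by subst h; exact Nat.not_odd_iff_even.2 hee he')] at this
      obtain ⟨B', Y', hs', h'⟩ := ih (Multiset.card ν) (by rw [← hn, Multiset.card_cons]; omega) ν hν rfl
      obtain ⟨H, Y, -, hs, h⟩ := exists_block (F := F) e
      have halt : ∀ u, H u u = 0 := fun u => by
        have := hs hee u u
        exact (mul_eq_zero.1 (show (2 : F) * H u u = 0 by linear_combination this)).resolve_left h2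
      have hp := h.prod h'
      rw [Multiset.singleton_add] at hp
      exact transport _ _ _ (fun u => by
        simp only [LinearMap.add_apply, LinearMap.compl₁₂_apply, LinearMap.fst_apply, LinearMap.snd_apply]
        rw [halt, hs', add_zero]) hp
    · push Not at hev
      rcases μ.empty_or_exists_mem with rfl | ⟨e, he⟩
      · exact transport (W := (Fin 0 → F)) 0 0 0 (fun _ => rfl)
          ⟨fun u _ => Subsingleton.elim _ _, fun u _ => Subsingleton.elim _ _, fun _ _ => by simp,
            fun i => by rw [rankSeq_top]; simp [Module.finrank_zero_of_subsingleton]⟩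
      · have heo : Odd e := Nat.not_even_iff_odd.1 (hev e he)
        obtain ⟨ν₁, rfl⟩ := Multiset.exists_cons_of_mem he
        have hmem : e ∈ ν₁ := by
          by_contra h
          have := hμ e heo
          rw [Multiset.count_cons_self, Multiset.count_eq_zero.2 h] at this
          exact absurd this (by decide)
        obtain ⟨ν, rfl⟩ := Multiset.exists_cons_of_mem hmem
        have hν : ∀ e', Odd e' → Even (ν.count e') := fun e' he' => by
          have := hμ e' he'
          by_cases h : e' = e
          · subst h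
            rw [Multiset.count_cons_self, Multiset.count_cons_self] at this
            simpa [parity_simps] using this
          · rwa [Multiset.count_cons_of_ne h, Multiset.count_cons_of_ne h] at this
        obtain ⟨B', Y', hs', h'⟩ := ih (Multiset.card ν)
          (by rw [← hn, Multiset.card_cons, Multiset.card_cons]; omega) ν hν rfl
        obtain ⟨H, Y, -, -, h⟩ := exists_block (F := F) e
        obtain ⟨H₂, hs, h₂⟩ := exists_double_alt h
        have hp := h₂.prod h'
        rw [show ({e} + {e} + ν : Multiset ℕ) = e ::ₘ e ::ₘ ν by simp [Multiset.singleton_add]] at hp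
        exact transport _ _ _ (fun u => by
          simp only [LinearMap.add_apply, LinearMap.compl₁₂_apply, LinearMap.fst_apply, LinearMap.snd_apply]
          rw [hs, hs', add_zero]) hp

/-- A symplectic unipotent element of every admissible type. -/
theorem exists_symp_unipotent (h2 : (2 : F) ≠ 0) {p d : ℕ} (μ : Multiset ℕ) (hp : ∀ b ∈ μ, b ≤ p)
    (hμ : ∀ e, Odd e → Even (μ.count e)) (hsum : μ.sum = 2 * d) :
    ∃ x : Module.End F (Fin d ⊕ Fin d → F),
      (∀ u v, sympBilin d F (x u) (x v) = sympBilin d F u v) ∧ (x - 1) ^ p = 0 ∧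
      ∀ i, rankSeq (x - 1) ⊤ i = (μ.map (fun b => b - i)).sum := by
  obtain ⟨B, Y, hB, h⟩ := exists_alt_model h2 μ hμ
  obtain ⟨E, hE⟩ := Forms.alt_isometric B ⟨fun u hu => h.left u hu, fun u hu => h.right u hu⟩ hB (sympBilin d F)
    ⟨sympBilin_nondegenerate, fun u hu => sympBilin_nondegenerate u fun v => by
      rw [alt_skew sympBilin_self, hu v, neg_zero]⟩ sympBilin_self
    (by rw [Module.finrank_fin_fun, Module.finrank_fintype_fun_eq_card, Fintype.card_sum, Fintype.card_fin, hsum,
      two_mul])
  have hsk : ∀ u v, sympBilin d F ((E.conj Y : Module.End F _) u) v =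
      -sympBilin d F u ((E.conj Y : Module.End F _) v) := fun u v => by
    obtain ⟨u, rfl⟩ := E.surjective u
    obtain ⟨v, rfl⟩ := E.surjective v
    simp [LinearEquiv.conj_apply, hE, h.skew]
  have hrk : ∀ i, rankSeq (E.conj Y : Module.End F _) ⊤ i = (μ.map (fun b => b - i)).sum := fun i => by
    rw [rankSeq_conj, h.rank]
  have hYp : (E.conj Y : Module.End F _) ^ p = 0 := by
    have h0 := hrk p
    have hz : (μ.map (fun b => b - p)).sum = 0 := Multiset.sum_eq_zero (fun b hb => by
      obtain ⟨a, ha, rfl⟩ := Multiset.mem_map.1 hb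
      exact Nat.sub_eq_zero_of_le (hp a ha))
    rw [rankSeq_top] at h0
    replace h0 := h0.trans hz
    exact LinearMap.range_eq_bot.1 (Submodule.finrank_eq_zero.1 h0)
  obtain ⟨x, hx, hxp, hr⟩ := exists_isometry_of_skew h2 (sympBilin d F) _ hsk hYp
  exact ⟨x, hx, hxp, fun i => (hr i).trans (hrk i)⟩

end CfsgLib.Omega.SympJordan
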