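import Mathlib
import Cfsg.Prelude.Def_GeometricClasses

/-!
Block-preserving conjugates of involutory permutations, and decompositions spanned by parts of a basis.
-/

set_option autoImplicit false

open scoped Matrix

namespace CfsgLib.Omega

/-- The cycle type of an involution is a multiset of twos. -/
theorem cycleType_of_mul_self_eq_one {α : Type*} [Fintype α] [DecidableEq α] {π : Equiv.Perm α}
    (h : π * π = 1) : π.cycleType = Multiset.replicate (π.support.card / 2) 2 := by
  have h2 : ∀ k ∈ π.cycleType, k = 2 := by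
    intro k hk
    have hd : k ∣ orderOf π := Equiv.Perm.dvd_of_mem_cycleType hk
    have ho : orderOf π ∣ 2 := orderOf_dvd_of_pow_eq_one (by rw [pow_two, h])
    have := Equiv.Perm.two_le_of_mem_cycleType hk
    have := Nat.le_of_dvd two_pos (hd.trans ho)
    omega
  have h3 := Multiset.eq_replicate_card.2 h2
  have h4 : π.support.card = 2 * Multiset.card π.cycleType := by
    rw [← Equiv.Perm.sum_cycleType, h3]; simp [mul_comm]
  rw [h4, Nat.mul_div_cancel_left _ two_pos]
  exact h3

/-- An involution of `α` with `2 * j` moved points. -/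
theorem exists_involution {α : Type*} [Fintype α] [DecidableEq α] (j : ℕ) (hj : 2 * j ≤ Fintype.card α) :
    ∃ π : Equiv.Perm α, π * π = 1 ∧ π.support.card = 2 * j := by
  obtain ⟨π, hπ⟩ := (Equiv.Perm.exists_with_cycleType_iff (α := α) (m := Multiset.replicate j 2)).2
    ⟨by simpa [mul_comm] using hj, fun a ha => by rw [Multiset.eq_of_mem_replicate ha]⟩
  refine ⟨π, ?_, ?_⟩
  · have : orderOf π ∣ 2 := by
      rw [← Equiv.Perm.lcm_cycleType, hπ]
      exact Multiset.lcm_dvd.2 fun a ha => by rw [Multiset.eq_of_mem_replicate ha]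
    rw [← pow_two]; exact orderOf_dvd_iff_pow_eq_one.1 this
  · rw [← Equiv.Perm.sum_cycleType, hπ]; simp [mul_comm]

theorem support_permCongr_card {α β : Type*} [Fintype α] [DecidableEq α] [Fintype β] [DecidableEq β]
    (e : α ≃ β) (π : Equiv.Perm α) : (e.permCongr π).support.card = π.support.card := by
  have : (e.permCongr π).support = π.support.map e.toEmbedding := by
    ext x; simp [Equiv.Perm.mem_support, Equiv.permCongr_apply, Equiv.eq_symm_apply]
  rw [this, Finset.card_map]

theorem support_sumCongr_card {α β : Type*} [Fintype α] [DecidableEq α] [Fintype β] [DecidableEq β]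
    (f : Equiv.Perm α) (g : Equiv.Perm β) :
    (Equiv.Perm.support (Equiv.sumCongr f g : Equiv.Perm (α ⊕ β))).card = f.support.card + g.support.card := by
  have : (Equiv.Perm.support (Equiv.sumCongr f g : Equiv.Perm (α ⊕ β))) = f.support.disjSum g.support := by
    ext (x | x) <;> simp
  rw [this, Finset.card_disjSum]

/-- `BlockInv T a j`: some involution of `T × Fin a` moves `2 j` points and permutes the fibres. -/
def BlockInv (T : Type) [Fintype T] [DecidableEq T] (a j : ℕ) : Prop :=
  ∃ (π : Equiv.Perm (T × Fin a)) (σ : Equiv.Perm T),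
    π * π = 1 ∧ π.support.card = 2 * j ∧ ∀ x, (π x).1 = σ x.1

theorem blockInv_sum {S T : Type} [Fintype S] [DecidableEq S] [Fintype T] [DecidableEq T] {a i j : ℕ}
    (hS : BlockInv S a i) (hT : BlockInv T a j) : BlockInv (S ⊕ T) a (i + j) := by
  obtain ⟨π, σ, h1, h2, h3⟩ := hS
  obtain ⟨π', σ', h1', h2', h3'⟩ := hT
  refine ⟨(Equiv.sumProdDistrib S T (Fin a)).symm.permCongr (Equiv.sumCongr π π'),
    Equiv.sumCongr σ σ', ?_, ?_, ?_⟩
  · rw [Equiv.Perm.ext_iff] at h1 h1' ⊢
    rintro ⟨x | x, k⟩
    · simpa [Equiv.permCongr_apply] using congrArg (fun y => (Equiv.sumProdDistrib S T (Fin a)).symm (Sum.inl y)) (h1 (x, k))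
    · simpa [Equiv.permCongr_apply] using congrArg (fun y => (Equiv.sumProdDistrib S T (Fin a)).symm (Sum.inr y)) (h1' (x, k))
  · rw [support_permCongr_card]
    exact (support_sumCongr_card π π').trans (by rw [h2, h2']; ring)
  · rintro ⟨x | x, k⟩
    · simpa [Equiv.permCongr_apply] using congrArg (Sum.inl : S → S ⊕ T) (h3 (x, k))
    · simpa [Equiv.permCongr_apply] using congrArg (Sum.inr : T → S ⊕ T) (h3' (x, k))

theorem blockInv_congr {S T : Type} [Fintype S] [DecidableEq S] [Fintype T] [DecidableEq T] {a j : ℕ}
    (e : S ≃ T) (hS : BlockInv S a j) : BlockInv T a j := by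
  obtain ⟨π, σ, h1, h2, h3⟩ := hS
  refine ⟨(e.prodCongr (Equiv.refl _)).permCongr π, e.permCongr σ, ?_, ?_, ?_⟩
  · ext x : 1
    have := Equiv.Perm.ext_iff.1 h1 ((e.prodCongr (Equiv.refl _)).symm x)
    simp only [Equiv.Perm.mul_apply, Equiv.permCongr_apply, Equiv.symm_apply_apply, Equiv.Perm.one_apply] at this ⊢
    rw [this, Equiv.apply_symm_apply]
  · rw [support_permCongr_card, h2]
  · intro x; simp [Equiv.permCongr_apply, h3]

theorem blockInv_fin : ∀ (a t j : ℕ), 2 * j ≤ a * t → BlockInv (Fin t) a j := by
  intro a t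
  induction t using Nat.strong_induction_on with
  | _ t ih =>
    intro j hj
    have base : ∀ i, 2 * i ≤ a → BlockInv (Fin 1) a i := by
      intro i hi
      obtain ⟨π, h1, h2⟩ := exists_involution (α := Fin 1 × Fin a) i (by simpa using hi)
      exact ⟨π, 1, h1, h2, fun x => Subsingleton.elim _ _⟩
    match t with
    | 0 =>
      refine ⟨1, 1, one_mul _, ?_, fun x => rfl⟩
      simp; omega
    | 1 => exact base j (by simpa using hj)
    | s + 2 =>
      by_cases hja : a ≤ j
      · have h2 : BlockInv (Fin 2) a a := by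
          refine ⟨(Equiv.swap 0 1).prodCongr (Equiv.refl _), Equiv.swap 0 1, ?_, ?_, fun x => rfl⟩
          · ext x : 1
            simp [Prod.ext_iff]
          · have : Equiv.Perm.support (((Equiv.swap (0 : Fin 2) 1).prodCongr (Equiv.refl (Fin a))) : Equiv.Perm (Fin 2 × Fin a)) = Finset.univ := by
              ext ⟨x, k⟩
              fin_cases x <;> simp [Prod.ext_iff]
            rw [this]; simp
        have h := blockInv_sum h2 (ih s (by omega) (j - a) (by rw [mul_add] at hj; omega))
        rw [Nat.add_sub_cancel' hja] at h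
        exact blockInv_congr (finSumFinEquiv.trans (finCongr (by omega))) h
      · have h2 := blockInv_sum (base (min j (a / 2)) (by omega)) (base (j - min j (a / 2)) (by omega))
        have h := blockInv_sum h2 (ih s (by omega) 0 (by simp))
        rw [add_zero, Nat.add_sub_cancel' (min_le_left _ _)] at h
        exact blockInv_congr (((Equiv.sumCongr finSumFinEquiv (Equiv.refl _)).trans finSumFinEquiv).trans
          (finCongr (by omega))) h

/-- Any involutory permutation of `a * t` points permutes the fibres of a suitable identification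
with `Fin t × Fin a`. -/
theorem exists_block_perm {α : Type*} [Fintype α] [DecidableEq α] (a t : ℕ) (π : Equiv.Perm α)
    (hπ : π * π = 1) (hcard : Fintype.card α = a * t) :
    ∃ (e : α ≃ Fin t × Fin a) (σ : Equiv.Perm (Fin t)), ∀ x, (e (π x)).1 = σ (e x).1 := by
  have e0 : α ≃ Fin t × Fin a := Fintype.equivOfCardEq (by simp [hcard, mul_comm])
  have hsupp : π.support.card ≤ a * t := hcard ▸ Finset.card_le_univ _
  have hct := cycleType_of_mul_self_eq_one hπ
  have heven : 2 * (π.support.card / 2) = π.support.card := by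
    conv_rhs => rw [← Equiv.Perm.sum_cycleType, hct]
    simp [mul_comm]
  obtain ⟨π', σ, h1, h2, h3⟩ := blockInv_fin a t (π.support.card / 2) (by omega)
  have h0 : e0.permCongr π * e0.permCongr π = 1 := by
    ext x : 1
    have := Equiv.Perm.ext_iff.1 hπ (e0.symm x)
    simp [Equiv.permCongr_apply] at this ⊢
    rw [this]; simp
  have hconj : IsConj (e0.permCongr π) π' := by
    rw [Equiv.Perm.isConj_iff_cycleType_eq, cycleType_of_mul_self_eq_one h0, cycleType_of_mul_self_eq_one h1,
      support_permCongr_card, h2, Nat.mul_div_cancel_left _ two_pos]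
  obtain ⟨c, hc⟩ := isConj_iff.1 hconj
  refine ⟨e0.trans c, σ, fun x => ?_⟩
  have := h3 (c (e0 x))
  rw [← hc] at this
  simpa [Equiv.permCongr_apply] using this

variable {ι : Type} [Fintype ι] [DecidableEq ι] {F : Type*} [Field F]

/-- The subspaces spanned by the classes of a basis form a decomposition into equidimensional summands. -/
theorem isMDecomposition_span_fibres {α κ : Type*} [Fintype α] [Fintype κ] {a t m : ℕ}
    (b : Module.Basis (α × κ) F (ι → F)) (e : α ≃ Fin t × Fin a) (ht : 2 ≤ t)
    (hm : m = a * Fintype.card κ) (hm0 : 0 < m) :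
    Cfsg.Geo.IsMDecomposition m
      (fun k => Submodule.span F (b '' {x | (e x.1).1 = k})) := by
  classical
  have hind := b.linearIndependent
  refine ⟨ht, hm0, fun k => ?_, ?_, ?_⟩
  · have hli : LinearIndependent F (fun x : {x : α × κ | (e x.1).1 = k} => b x) :=
      hind.comp _ Subtype.val_injective
    have hrange : Set.range (fun x : {x : α × κ | (e x.1).1 = k} => b x) = b '' {x | (e x.1).1 = k} := by
      ext v; simp
    rw [← hrange, finrank_span_eq_card hli, hm]
    have : {x : α × κ | (e x.1).1 = k} ≃ Fin a × κ :=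
      { toFun := fun x => ((e x.1.1).2, x.1.2)
        invFun := fun y => ⟨(e.symm (k, y.1), y.2), by simp⟩
        left_inv := by
          rintro ⟨⟨x, y⟩, h⟩
          simp only [Set.mem_setOf_eq] at h
          ext
          · simp [← h]
          · rfl
        right_inv := fun y => by simp }
    rw [Fintype.card_congr this, Fintype.card_prod, Fintype.card_fin]
  · intro k
    have hsub : (⨆ j, ⨆ (_ : j ≠ k), Submodule.span F (b '' {x | (e x.1).1 = j})) ≤
        Submodule.span F (b '' {x | (e x.1).1 ≠ k}) := by
      refine iSup₂_le fun j hj => Submodule.span_mono (Set.image_mono ?_)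
      intro x hx
      simp only [Set.mem_setOf_eq] at hx ⊢
      rw [hx]; exact hj
    refine Disjoint.mono_right hsub (hind.disjoint_span_image ?_)
    rw [Set.disjoint_left]
    intro x hx hx'
    exact hx' hx
  · rw [eq_top_iff, ← b.span_eq, Submodule.span_le]
    rintro _ ⟨x, rfl⟩
    exact Submodule.mem_iSup_of_mem (e x.1).1 (Submodule.subset_span ⟨x, rfl, rfl⟩)

/-- A matrix of non-zero determinant maps a subspace onto one of the same dimension as soon as it maps it into it. -/
theorem map_toLin'_eq_of_le {A : Matrix ι ι F} (hA : IsUnit A) {U W : Submodule F (ι → F)}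
    (h : U.map (Matrix.toLin' A) ≤ W) (hr : Module.finrank F W ≤ Module.finrank F U) :
    U.map (Matrix.toLin' A) = W := by
  refine Submodule.eq_of_le_of_finrank_le h ?_
  have hinj : Function.Injective (Matrix.toLin' A) := by
    intro u v huv
    simp only [Matrix.toLin'_apply] at huv
    exact Matrix.mulVec_injective_of_isUnit hA huv
  rwa [← (Submodule.equivMapOfInjective _ hinj U).finrank_eq]

/-- If a matrix maps the basis vectors of each class into the span of another class, and the classes are
permuted compatibly with the fibres of `e`, it permutes the summands of the decomposition. -/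
theorem map_span_fibres {α κ : Type*} [Fintype α] [Fintype κ] {a t : ℕ}
    (b : Module.Basis (α × κ) F (ι → F)) (e : α ≃ Fin t × Fin a) (ht : 2 ≤ t) (ha : 0 < a * Fintype.card κ)
    {A : Matrix ι ι F} (hA : IsUnit A)
    (π : Equiv.Perm α) (σ : Equiv.Perm (Fin t))
    (hσ : ∀ x, (e (π x)).1 = σ (e x).1)
    (hmap : ∀ i u, A *ᵥ b (i, u) ∈ Submodule.span F (b '' {x | x.1 = π i})) (k : Fin t) :
    (Submodule.span F (b '' {x | (e x.1).1 = k})).map (Matrix.toLin' A) =
      Submodule.span F (b '' {x | (e x.1).1 = σ k}) := by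
  have hD := isMDecomposition_span_fibres b e ht rfl ha
  refine map_toLin'_eq_of_le hA ?_ ?_
  · rw [Submodule.map_span, Submodule.span_le]
    rintro _ ⟨_, ⟨⟨i, u⟩, hx, rfl⟩, rfl⟩
    simp only [Set.mem_setOf_eq] at hx
    refine Submodule.span_mono (Set.image_mono ?_) (by simpa using hmap i u)
    intro y hy
    simp only [Set.mem_setOf_eq] at hy ⊢
    rw [hy, hσ, hx]
  · exact le_of_eq ((hD.finrank_eq (σ k)).trans (hD.finrank_eq k).symm)

end CfsgLib.Omega
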