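import Mathlib
import Cfsg.Agent.Lib.Omega.SLConj

/-!
Facts about elements of order two and three in dimension three.
-/

set_option autoImplicit false
set_option synthInstance.maxSize 512

open scoped Matrix

namespace CfsgLib.Omega

variable {F : Type*} [Field F]

theorem signs_key : ∀ e e' : Fin 3 → Bool,
    (xor (xor (e 0) (e 1)) (e 2)) = false → (xor (xor (e' 0) (e' 1)) (e' 2)) = false →
    (∃ i, e i = true) → (∃ i, e' i = true) → ∃ σ : Equiv.Perm (Fin 3), ∀ i, e (σ i) = e' i := by decide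

/-- Any labelling of three points can be reordered so that its differences are affine. -/
theorem exists_affine_reorder : ∀ s : Fin 3 → Fin 3, ∃ σ : Equiv.Perm (Fin 3), ∃ u m : Fin 3,
    ∀ i, s (σ (i + 1)) = s (σ i) + u + m * i := by decide

theorem mod_eightyone_key : ∀ k : Fin 81, (k.val % 9 = 4 ∨ k.val % 9 = 7) →
    (((k.val : ZMod 81) ^ 3 - 1) * ((k.val : ZMod 81) ^ 3 - (k.val : ZMod 81)) * (k.val : ZMod 81) ^ 2) ≠ 0 := by
  decide

/-- Eigenvalue data of an involution of determinant one in dimension three are unique up to order. -/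
theorem exists_perm_signs (h2 : (2 : F) ≠ 0) (d d' : Fin 3 → F)
    (hd : ∀ i, d i = 1 ∨ d i = -1) (hd' : ∀ i, d' i = 1 ∨ d' i = -1)
    (hp : ∏ i, d i = 1) (hp' : ∏ i, d' i = 1) (hn : ∃ i, d i ≠ 1) (hn' : ∃ i, d' i ≠ 1) :
    ∃ σ : Equiv.Perm (Fin 3), ∀ i, d (σ i) = d' i := by
  classical
  let sgn : Bool → F := fun b => if b then -1 else 1
  have key := signs_key
  have hne : (1 : F) ≠ -1 := fun h => h2 (by linear_combination h)
  have conv : ∀ f : Fin 3 → F, (∀ i, f i = 1 ∨ f i = -1) → ∏ i, f i = 1 → (∃ i, f i ≠ 1) →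
      ∃ e : Fin 3 → Bool, (∀ i, f i = sgn (e i)) ∧ (xor (xor (e 0) (e 1)) (e 2)) = false ∧ ∃ i, e i = true := by
    intro f hf hfp ⟨j, hj⟩
    refine ⟨fun i => decide (f i = -1), fun i => ?_, ?_, ⟨j, ?_⟩⟩
    · rcases hf i with h | h <;> simp [sgn, h, hne]
    · rw [Fin.prod_univ_three] at hfp
      rcases hf 0 with a | a <;> rcases hf 1 with b | b <;> rcases hf 2 with c | c <;>
        simp [a, b, c, hne] at hfp ⊢ <;> exact absurd hfp.symm hne
    · simp [(hf j).resolve_left hj]
  obtain ⟨e, he, he1, he2⟩ := conv d hd hp hn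
  obtain ⟨e', he', he1', he2'⟩ := conv d' hd' hp' hn'
  obtain ⟨σ, hσ⟩ := key e e' he1 he1' he2 he2'
  exact ⟨σ, fun i => by rw [he, he', hσ]⟩

/-- Eigenvalue data of an involution of determinant one in dimension three. -/
theorem exists_sign_eigenbasis (h2 : (2 : F) ≠ 0) (Y : Matrix (Fin 3) (Fin 3) F) (hY : Y * Y = 1)
    (hdet : Y.det = 1) (hne : Y ≠ 1) :
    ∃ (b : Module.Basis (Fin 3) F (Fin 3 → F)) (d : Fin 3 → F), (∀ i, d i = 1 ∨ d i = -1) ∧
      ∏ i, d i = 1 ∧ (∃ i, d i ≠ 1) ∧ ∀ i, Y *ᵥ b i = d i • b i := by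
  classical
  have hp : Polynomial.aeval Y (∏ s ∈ ({1, -1} : Finset F), (Polynomial.X - Polynomial.C s)) = 0 := by
    rw [Finset.prod_insert (by simp; intro h; exact h2 (by linear_combination h)), Finset.prod_singleton]
    simp [Matrix.mul_add, Matrix.sub_mul, hY]
  obtain ⟨b, d, hd, hb⟩ := exists_eigenbasis Y _ hp
  simp only [Finset.mem_insert, Finset.mem_singleton] at hd
  refine ⟨b, d, hd, ?_, ?_, hb⟩
  · have h : LinearMap.toMatrix b b (Matrix.toLin' Y) = Matrix.diagonal d := by
      ext i j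
      rw [LinearMap.toMatrix_apply, Matrix.toLin'_apply, hb]
      by_cases hij : i = j
      · subst hij; simp
      · simp [hij, Matrix.diagonal_apply_ne _ hij, Ne.symm hij]
    rw [← Matrix.det_diagonal, ← h, LinearMap.det_toMatrix, LinearMap.det_toLin', hdet]
  · by_contra hc
    push Not at hc
    exact hne (Matrix.toLin'.injective (b.ext fun i => by simp [hb, hc]))

/-- If the cube of a `3 × 3` matrix is the scalar `z` and `z` is not a cube, the determinant is `z`. -/
theorem det_eq_of_cube_nonsplit (X : Matrix (Fin 3) (Fin 3) F) (z : F) (hX : X ^ 3 = z • 1)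
    (hz : ∀ η : F, η ^ 3 ≠ z) : X.det = z := by
  classical
  set f : Polynomial F := Polynomial.X ^ 3 - Polynomial.C z with hf
  have hdeg : f.natDegree = 3 := Polynomial.natDegree_X_pow_sub_C
  have hmonic : f.Monic := Polynomial.monic_X_pow_sub_C z (by norm_num)
  have hirr : Irreducible f := by
    rw [Polynomial.irreducible_iff_roots_eq_zero_of_degree_le_three (by omega) (by omega)]
    refine Multiset.eq_zero_of_forall_notMem fun η h => hz η ?_
    rw [Polynomial.mem_roots hmonic.ne_zero, Polynomial.IsRoot.def] at h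
    simpa [hf, sub_eq_zero] using h
  have haev : Polynomial.aeval X f = 0 := by
    simp [hf, hX, Algebra.algebraMap_eq_smul_one]
  have hmin : minpoly F X = f := (minpoly.eq_of_irreducible_of_monic hirr haev hmonic).symm
  have hchar : X.charpoly = f := by
    refine Polynomial.eq_of_monic_of_dvd_of_natDegree_le hmonic X.charpoly_monic
      (hmin ▸ Matrix.minpoly_dvd_charpoly X) ?_
    rw [Matrix.charpoly_natDegree_eq_dim, hdeg]; simp
  rw [Matrix.det_eq_sign_charpoly_coeff, hchar, hf]
  simp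
  norm_num

end CfsgLib.Omega
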