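import Mathlib
import Cfsg.Agent.Lib.Omega.SLConj

/-!
Conjugacy of non-scalar `2 × 2` matrices, and elements normalising a finite subgroup.
-/

set_option autoImplicit false

open scoped Matrix

namespace CfsgLib.Omega

variable {F : Type*} [Field F]

theorem mul_self_fin_two (A : Matrix (Fin 2) (Fin 2) F) :
    A * A = A.trace • A - A.det • (1 : Matrix (Fin 2) (Fin 2) F) := by
  ext i j
  fin_cases i <;> fin_cases j <;>
    simp [Matrix.mul_apply, Fin.sum_univ_two, Matrix.trace_fin_two, Matrix.det_fin_two] <;> ring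

theorem eq_zero_of_smul_eq_smul_one {A : Matrix (Fin 2) (Fin 2) F} (hA : ∀ z : F, A ≠ z • 1) {t k : F}
    (h : t • A = k • (1 : Matrix (Fin 2) (Fin 2) F)) : t = 0 ∧ k = 0 := by
  by_cases ht : t = 0
  · refine ⟨ht, ?_⟩
    have := congrFun (congrFun h 0) 0
    simpa [ht] using this.symm
  · exact absurd (by rw [← smul_smul, ← h, smul_smul, inv_mul_cancel₀ ht, one_smul]) (hA (t⁻¹ * k))

theorem exists_conj_companion {A : Matrix (Fin 2) (Fin 2) F} (hA : ∀ z : F, A ≠ z • 1) :
    ∃ g : GL (Fin 2) F, A * (g : Matrix (Fin 2) (Fin 2) F) =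
      (g : Matrix (Fin 2) (Fin 2) F) * !![0, -A.det; 1, A.trace] := by
  have key : ∃ v : Fin 2 → F, (!![v 0, (A *ᵥ v) 0; v 1, (A *ᵥ v) 1]).det ≠ 0 := by
    by_cases h10 : A 1 0 = 0
    · by_cases h01 : A 0 1 = 0
      · refine ⟨![1, 1], ?_⟩
        simp [Matrix.det_fin_two, Matrix.mulVec, dotProduct, Fin.sum_univ_two, h10, h01, sub_eq_zero]
        intro h
        apply hA (A 0 0)
        ext i j
        fin_cases i <;> fin_cases j <;> simp [h10, h01, h]
      · refine ⟨![0, 1], ?_⟩
        simpa [Matrix.det_fin_two, Matrix.mulVec, dotProduct, Fin.sum_univ_two] using h01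
    · refine ⟨![1, 0], ?_⟩
      simpa [Matrix.det_fin_two, Matrix.mulVec, dotProduct, Fin.sum_univ_two] using h10
  obtain ⟨v, hv⟩ := key
  refine ⟨Matrix.GeneralLinearGroup.mkOfDetNeZero _ hv, ?_⟩
  show A * !![v 0, (A *ᵥ v) 0; v 1, (A *ᵥ v) 1] = !![v 0, (A *ᵥ v) 0; v 1, (A *ᵥ v) 1] * _
  ext i j
  fin_cases i <;> fin_cases j <;>
    simp [Matrix.mul_apply, Matrix.mulVec, dotProduct, Fin.sum_univ_two, Matrix.trace_fin_two,
      Matrix.det_fin_two] <;> ring

/-- In odd characteristic, non-scalar `2 × 2` matrices with the same characteristic polynomial, not a square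
of a linear one, are `SL`-conjugate. -/
theorem exists_sl_conj_two [Fintype F] (hF : Fintype.card F % 2 = 1) (x y : GL (Fin 2) F)
    (hx : ∀ z : F, (x : Matrix (Fin 2) (Fin 2) F) ≠ z • 1) (hy : ∀ z : F, (y : Matrix (Fin 2) (Fin 2) F) ≠ z • 1)
    (ht : (x : Matrix (Fin 2) (Fin 2) F).trace = (y : Matrix (Fin 2) (Fin 2) F).trace)
    (hd : (x : Matrix (Fin 2) (Fin 2) F).det = (y : Matrix (Fin 2) (Fin 2) F).det)
    (hdisc : (y : Matrix (Fin 2) (Fin 2) F).trace ^ 2 ≠ 4 * (y : Matrix (Fin 2) (Fin 2) F).det) :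
    ∃ g ∈ Cfsg.Geo.specialLinear (Fin 2) F, g⁻¹ * x * g = y := by
  obtain ⟨gx, hgx⟩ := exists_conj_companion hx
  obtain ⟨gy, hgy⟩ := exists_conj_companion hy
  rw [ht, hd] at hgx
  have h2 : (2 : F) ≠ 0 := Ring.two_ne_zero fun h => by
    have := FiniteField.even_card_iff_char_two.1 h; omega
  set Y : Matrix (Fin 2) (Fin 2) F := (y : Matrix (Fin 2) (Fin 2) F) with hY
  obtain ⟨g, hg, hgval⟩ := exists_sl_conj_of_gl (x := x) (g := gx * gy⁻¹) (y := Y) (by
      set C := !![0, -Y.det; 1, Y.trace]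
      have hC : C = ((gy⁻¹ : GL (Fin 2) F) : Matrix (Fin 2) (Fin 2) F) * Y * gy := by
        rw [Matrix.mul_assoc, hgy, ← Matrix.mul_assoc, ← Units.val_mul, inv_mul_cancel, Units.val_one, one_mul]
      rw [Units.val_mul, ← Matrix.mul_assoc, hgx, hC]
      simp [Matrix.mul_assoc, ← Units.val_mul])
    (by
      intro u _
      set t := Y.trace with htdef
      set d := Y.det with hddef
      set k : F := d - t ^ 2 / 4 with hk
      have h4 : (4 : F) ≠ 0 := by
        have h22 : (4 : F) = 2 * 2 := by norm_num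
        rw [h22]; exact mul_ne_zero h2 h2
      have hk0 : k ≠ 0 := by
        intro h; apply hdisc
        rw [hk, sub_eq_zero] at h
        rw [h]; field_simp
      obtain ⟨α, β, hab⟩ := FiniteField.exists_root_sum_quadratic
        (f := Polynomial.X ^ 2 - Polynomial.C u) (g := Polynomial.C k * Polynomial.X ^ 2)
        (Polynomial.degree_X_pow_sub_C (by norm_num) u) (Polynomial.degree_C_mul_X_pow 2 hk0) hF
      simp only [Polynomial.eval_sub, Polynomial.eval_pow, Polynomial.eval_X, Polynomial.eval_C,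
        Polynomial.eval_mul] at hab
      refine ⟨(α - t * β / 2) • 1 + β • Y, ?_, ?_⟩
      · have : ((α - t * β / 2) • (1 : Matrix (Fin 2) (Fin 2) F) + β • Y).det =
            (α - t * β / 2) ^ 2 + t * (α - t * β / 2) * β + d * β ^ 2 := by
          rw [htdef, hddef]
          simp [Matrix.det_fin_two, Matrix.trace_fin_two]; ring
        rw [this]
        rw [hk] at hab
        field_simp at hab ⊢
        linear_combination hab
      · simp [Matrix.mul_add, Matrix.add_mul, Matrix.mul_smul, Matrix.smul_mul])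
  exact ⟨g, hg, Units.ext hgval⟩

theorem mem_normalizer_of_forall_mem {G : Type*} [Group G] (R : Subgroup G) [Finite R] (w : G)
    (h : ∀ s ∈ R, w * s * w⁻¹ ∈ R) : w ∈ Subgroup.normalizer (R : Set G) := by
  rw [Subgroup.mem_normalizer_iff]
  intro s
  refine ⟨h s, fun hs => ?_⟩
  let f : R → R := fun x => ⟨w * x.1 * w⁻¹, h x.1 x.2⟩
  have hf : Function.Injective f := fun a b hab => Subtype.ext (by
    simpa [f] using congrArg Subtype.val hab)
  obtain ⟨x, hx⟩ := (Finite.injective_iff_surjective.1 hf) ⟨_, hs⟩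
  have : x.1 = s := by simpa [f] using congrArg Subtype.val hx
  exact this ▸ x.2

end CfsgLib.Omega
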