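import Mathlib
import Cfsg.Prelude.Def_GeometricClasses
import Cfsg.Agent.Lib.Omega.SLConj
import Cfsg.Agent.Lib.Omega.TwoByTwo

/-!
Subgroups `3^{1+2}` of exponent three of `GL_3` and the monomial elements normalising them.
-/

set_option autoImplicit false

open scoped Matrix

namespace CfsgLib.Omega

variable {F : Type*} [Field F]

/-- A frame for a group of order 27: two generators `a`, `b` and a basis `v` of eigenvectors of `a`
permuted cyclically by `b`. -/
structure Frame27 (R : Subgroup (GL (Fin 3) F)) (lam : F) where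
  a : GL (Fin 3) F
  b : GL (Fin 3) F
  v : Module.Basis (Fin 3) F (Fin 3 → F)
  lam_ne : lam ≠ 1
  lam_cube : lam ^ 3 = 1
  gen : Subgroup.closure {a, b} = R
  ha : ∀ i : Fin 3, (a : Matrix (Fin 3) (Fin 3) F) *ᵥ v i = lam ^ (i : ℕ) • v i
  hb : ∀ i : Fin 3, (b : Matrix (Fin 3) (Fin 3) F) *ᵥ v i = v (i + 1)
  scalar_mem : ∃ c ∈ R, (c : Matrix (Fin 3) (Fin 3) F) = lam • 1
  hcard : Nat.card R = 27

theorem eq_of_mulVec_basis {ι : Type} [Fintype ι] [DecidableEq ι] {κ : Type*}
    (v : Module.Basis κ F (ι → F)) {M N : Matrix ι ι F} (h : ∀ i, M *ᵥ v i = N *ᵥ v i) : M = N := by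
  refine Matrix.toLin'.injective (v.ext fun i => ?_)
  simpa using h i

/-- A group of order `27` and exponent `3` which is not commutative has a frame. -/
theorem exists_frame27 (h3 : (3 : F) ≠ 0) {ω : F} (hω : ω ≠ 1) (hω3 : ω ^ 3 = 1)
    (R : Subgroup (GL (Fin 3) F)) (hR : Nat.card R = 27) (hRe : Monoid.exponent R = 3)
    (hRna : ¬ IsMulCommutative R) : ∃ lam : F, Nonempty (Frame27 R lam) := by
  classical
  haveI : Finite R := Nat.finite_of_card_ne_zero (by omega)
  haveI : Fact (Nat.Prime 3) := ⟨Nat.prime_three⟩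
  have hcube : ∀ g ∈ R, g ^ 3 = 1 := fun g hg => by
    have := Monoid.pow_exponent_eq_one (⟨g, hg⟩ : R)
    rw [hRe] at this
    exact congrArg Subtype.val this
  obtain ⟨a, ha, b, hb, hab⟩ : ∃ a ∈ R, ∃ b ∈ R, a * b ≠ b * a := by
    by_contra hc
    push Not at hc
    exact hRna ⟨⟨fun x y => Subtype.ext (hc x x.2 y y.2)⟩⟩
  have hp : IsPGroup 3 R := IsPGroup.of_card (n := 3) (by rw [hR]; norm_num)
  haveI : Nontrivial R := Finite.one_lt_card_iff_nontrivial.1 (by omega)
  set Z := Subgroup.center R with hZ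
  have hZcard : Nat.card Z * Z.index = 27 := by rw [Subgroup.card_mul_index, hR]
  have hZne : Nat.card Z ≠ 1 := by
    rw [Ne, Subgroup.card_eq_one]
    exact ne_of_gt (IsPGroup.bot_lt_center hp)
  have hQcomm : ∀ x y : R ⧸ Z, x * y = y * x := by
    have hQ : Nat.card (R ⧸ Z) = Z.index := rfl
    have hQp : IsPGroup 3 (R ⧸ Z) := hp.to_quotient Z
    obtain ⟨k, hk⟩ := hQp.exists_card_eq
    rw [hQ] at hk
    have hdvd : Z.index ∣ 27 := ⟨_, (mul_comm _ _).trans hZcard |>.symm⟩
    have hk3 : k ≤ 2 := by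
      by_contra hlt
      have h27 : 27 ≤ Z.index := by
        rw [hk]; calc 27 = 3 ^ 3 := by norm_num
          _ ≤ 3 ^ k := Nat.pow_le_pow_right (by norm_num) (by omega)
      have := Nat.le_of_dvd (by norm_num) hdvd
      have : Z.index = 27 := by omega
      rw [this] at hZcard
      omega
    interval_cases k
    · intro x y
      haveI : Subsingleton (R ⧸ Z) := (Nat.card_eq_one_iff_unique.1 (by rw [hQ, hk]; rfl)).1
      exact Subsingleton.elim _ _
    · have : IsCyclic (R ⧸ Z) := isCyclic_of_prime_card (p := 3) (by rw [hQ, hk]; norm_num)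
      letI := IsCyclic.commGroup (α := R ⧸ Z)
      exact mul_comm
    · exact (IsPGroup.isMulCommutative_of_card_eq_prime_sq (p := 3) (by rw [hQ, hk])).is_comm.comm
  set A : Matrix (Fin 3) (Fin 3) F := (a : Matrix (Fin 3) (Fin 3) F) with hAdef
  set B : Matrix (Fin 3) (Fin 3) F := (b : Matrix (Fin 3) (Fin 3) F) with hBdef
  set c : GL (Fin 3) F := a * b * a⁻¹ * b⁻¹ with hcdef
  have hcR : c ∈ R := mul_mem (mul_mem (mul_mem ha hb) (inv_mem ha)) (inv_mem hb)
  have hcZ : (⟨c, hcR⟩ : R) ∈ Z := by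
    rw [← QuotientGroup.eq_one_iff]
    have h := hQcomm ((⟨a, ha⟩ : R) : R ⧸ Z) ((⟨b, hb⟩ : R) : R ⧸ Z)
    have he : (⟨c, hcR⟩ : R) = ⟨a, ha⟩ * ⟨b, hb⟩ * (⟨a, ha⟩ : R)⁻¹ * (⟨b, hb⟩ : R)⁻¹ := rfl
    rw [he]
    simp only [QuotientGroup.mk_mul, QuotientGroup.mk_inv, h]
    group
  have hcomm : ∀ g ∈ R, g * c = c * g := fun g hg =>
    congrArg Subtype.val (Subgroup.mem_center_iff.1 hcZ ⟨g, hg⟩)
  have hc1 : c ≠ 1 := fun h => hab (by
    rw [hcdef, mul_inv_eq_one, mul_inv_eq_iff_eq_mul] at h; exact h)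
  have hab' : a * b = c * (b * a) := by rw [hcdef]; group
  set C : Matrix (Fin 3) (Fin 3) F := (c : Matrix (Fin 3) (Fin 3) F) with hCdef
  have hω2 : ω ^ 2 ≠ 1 := fun h => hω (by
    calc ω = ω ^ 3 := by rw [pow_succ, h, one_mul]
      _ = 1 := hω3)
  have hωω : ω ^ 2 ≠ ω := fun h => hω (mul_left_cancel₀ (a := ω) (by rintro rfl; simp at hω3)
    (by rw [mul_one, ← pow_two, h]))
  have hsum : ω ^ 2 + ω + 1 = 0 := by
    refine (mul_eq_zero.1 (?_ : (ω - 1) * (ω ^ 2 + ω + 1) = 0)).resolve_left (sub_ne_zero.2 hω)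
    linear_combination hω3
  have hpoly : ∀ g ∈ R, Polynomial.aeval ((g : GL (Fin 3) F) : Matrix (Fin 3) (Fin 3) F)
      (∏ s ∈ ({1, ω, ω ^ 2} : Finset F), (Polynomial.X - Polynomial.C s)) = 0 := by
    intro g hg
    have hprod : ∏ s ∈ ({1, ω, ω ^ 2} : Finset F), (Polynomial.X - Polynomial.C s) =
        Polynomial.X ^ 3 - (1 : Polynomial F) := by
      rw [Finset.prod_insert (by simp [Ne.symm hω, Ne.symm hω2]), Finset.prod_insert (by simp [Ne.symm hωω]),
        Finset.prod_singleton]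
      have h1 : Polynomial.C ω + Polynomial.C (ω ^ 2) + 1 = (0 : Polynomial F) := by
        rw [← Polynomial.C_1, ← map_add, ← map_add, show ω + ω ^ 2 + 1 = 0 by linear_combination hsum, map_zero]
      have h2 : Polynomial.C ω * Polynomial.C (ω ^ 2) = (1 : Polynomial F) := by
        rw [← map_mul, ← pow_succ', hω3, Polynomial.C_1]
      rw [Polynomial.C_1]
      linear_combination (-Polynomial.X ^ 2 + Polynomial.X) * h1 + (Polynomial.X - 1) * h2
    rw [hprod]
    simp only [map_sub, map_pow, Polynomial.aeval_X, map_one]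
    rw [← Units.val_pow_eq_pow_val, hcube g hg, Units.val_one, sub_self]
  obtain ⟨e, d, hd, he⟩ := exists_eigenbasis C _ (hpoly c hcR)
  have hCdiag : ∃ i, d i ≠ 1 := by
    by_contra h
    push Not at h
    exact hc1 (Units.ext (eq_of_mulVec_basis e fun i => by rw [← hCdef, he, h]; simp))
  obtain ⟨i₀, hi₀⟩ := hCdiag
  have hlam3 : d i₀ ^ 3 = 1 := by
    have := hd i₀
    simp only [Finset.mem_insert, Finset.mem_singleton] at this
    rcases this with h | h | h <;> rw [h]
    · simp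
    · exact hω3
    · rw [← pow_mul, pow_mul', hω3, one_pow]
  set lam := d i₀ with hlam
  have hlam0 : lam ≠ 0 := fun h => by rw [h] at hlam3; simp at hlam3
  set f : Module.End F (Fin 3 → F) := Matrix.toLin' C with hf
  set E := Module.End.eigenspace f lam with hE
  have hEmem : ∀ w, w ∈ E ↔ C *ᵥ w = lam • w := fun w => by
    rw [hE, Module.End.mem_eigenspace_iff]; rfl
  have hpres : ∀ g ∈ R, ∀ w ∈ E, ((g : GL (Fin 3) F) : Matrix (Fin 3) (Fin 3) F) *ᵥ w ∈ E := by
    intro g hg w hw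
    rw [hEmem] at hw ⊢
    rw [Matrix.mulVec_mulVec, hCdef, ← Units.val_mul, ← hcomm g hg, Units.val_mul, ← Matrix.mulVec_mulVec,
      ← hCdef, hw, Matrix.mulVec_smul]
  have hEtop : E = ⊤ := by
    by_contra hne
    have hlt : Module.finrank F E < 3 := by
      have := Submodule.finrank_lt hne
      simpa using this
    have hpos : 0 < Module.finrank F E := by
      refine Nat.pos_of_ne_zero fun h0 => ?_
      rw [Submodule.finrank_eq_zero] at h0
      have : e i₀ ∈ E := (hEmem _).2 (he i₀)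
      rw [h0, Submodule.mem_bot] at this
      exact e.ne_zero i₀ this
    let res : ∀ g ∈ R, (E →ₗ[F] E) := fun g hg =>
      (Matrix.toLin' ((g : GL (Fin 3) F) : Matrix (Fin 3) (Fin 3) F)).restrict (hpres g hg)
    have hdet : LinearMap.det (res a ha) * LinearMap.det (res b hb) =
        lam ^ Module.finrank F E * (LinearMap.det (res b hb) * LinearMap.det (res a ha)) := by
      rw [← map_mul, ← map_mul, ← LinearMap.det_smul]
      congr 1
      refine LinearMap.ext fun w => Subtype.ext ?_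
      show A *ᵥ (B *ᵥ (w : Fin 3 → F)) = lam • (B *ᵥ (A *ᵥ (w : Fin 3 → F)))
      rw [Matrix.mulVec_mulVec, show A * B = C * (B * A) by
          rw [hAdef, hBdef, hCdef, ← Units.val_mul, ← Units.val_mul, ← Units.val_mul, ← hab'],
        ← Matrix.mulVec_mulVec, ← Matrix.mulVec_mulVec]
      exact (hEmem _).1 (hpres b hb _ (hpres a ha _ w.2))
    have hne0 : ∀ g (hg : g ∈ R), LinearMap.det (res g hg) ≠ 0 := by
      intro g hg h0
      have h1 : (res g hg) ^ 3 = 1 := by
        refine LinearMap.ext fun w => Subtype.ext ?_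
        have hval : ((g : GL (Fin 3) F) : Matrix (Fin 3) (Fin 3) F) ^ 3 = 1 := by
          rw [← Units.val_pow_eq_pow_val, hcube g hg, Units.val_one]
        show ((g : GL (Fin 3) F) : Matrix (Fin 3) (Fin 3) F) *ᵥ
          (((g : GL (Fin 3) F) : Matrix (Fin 3) (Fin 3) F) *ᵥ
          (((g : GL (Fin 3) F) : Matrix (Fin 3) (Fin 3) F) *ᵥ (w : Fin 3 → F))) = w
        rw [Matrix.mulVec_mulVec, Matrix.mulVec_mulVec, Matrix.mul_assoc, ← pow_three, hval, Matrix.one_mulVec]
      have := congrArg LinearMap.det h1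
      rw [map_pow, h0, map_one] at this
      simp at this
    rw [mul_comm (LinearMap.det (res b hb))] at hdet
    have hm : lam ^ Module.finrank F E = 1 :=
      mul_right_cancel₀ (mul_ne_zero (hne0 a ha) (hne0 b hb)) (by rw [one_mul]; exact hdet.symm)
    interval_cases hmm : Module.finrank F E
    · exact hi₀ (by simpa using hm)
    · exact hi₀ (mul_right_cancel₀ (pow_ne_zero 2 hlam0) (by rw [← pow_succ', one_mul, hlam3, hm]))
  have hCs : C = lam • 1 := eq_of_mulVec_basis e fun i => by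
    rw [(hEmem (e i)).1 (hEtop ▸ Submodule.mem_top)]
    simp [Matrix.smul_mulVec]
  -- the frame
  obtain ⟨e', d', hd', he'⟩ := exists_eigenbasis A _ (hpoly a ha)
  have hAB : A * B = lam • (B * A) := by
    rw [hAdef, hBdef, ← Units.val_mul, hab', Units.val_mul, ← hCdef, hCs, Units.val_mul]; simp
  have hstep : ∀ w μ, A *ᵥ w = μ • w → A *ᵥ (B *ᵥ w) = (lam * μ) • (B *ᵥ w) := by
    intro w μ hw
    rw [Matrix.mulVec_mulVec, hAB, Matrix.smul_mulVec, ← Matrix.mulVec_mulVec, hw, Matrix.mulVec_smul,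
      smul_smul]
  have hB3 : B ^ 3 = 1 := by rw [hBdef, ← Units.val_pow_eq_pow_val, hcube b hb, Units.val_one]
  obtain ⟨u, hu0, hu⟩ : ∃ u, u ≠ 0 ∧ A *ᵥ u = u := by
    have hmem := hd' 0
    simp only [Finset.mem_insert, Finset.mem_singleton] at hmem
    have hlam' : lam = ω ∨ lam = ω ^ 2 := by
      have := hd i₀
      simp only [Finset.mem_insert, Finset.mem_singleton] at this
      exact this.resolve_left hi₀
    have hne : ∀ j : ℕ, (B ^ j) *ᵥ e' 0 ≠ 0 := fun j h => e'.ne_zero 0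
      (Matrix.mulVec_injective_of_isUnit (IsUnit.pow j b.isUnit) (by rw [h, Matrix.mulVec_zero]))
    have hpow : ∀ j : ℕ, A *ᵥ ((B ^ j) *ᵥ e' 0) = (lam ^ j * d' 0) • ((B ^ j) *ᵥ e' 0) := by
      intro j
      induction j with
      | zero => simp [he']
      | succ j ih =>
        rw [pow_succ', ← Matrix.mulVec_mulVec, hstep _ _ ih, pow_succ', mul_assoc]
    have : ∃ j : ℕ, lam ^ j * d' 0 = 1 := by
      rcases hlam' with h | h <;> rcases hmem with h' | h' | h'
      · exact ⟨0, by simp [h']⟩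
      · exact ⟨2, by rw [h, h', ← pow_succ, hω3]⟩
      · exact ⟨1, by rw [h, h', pow_one, ← pow_succ', hω3]⟩
      · exact ⟨0, by simp [h']⟩
      · exact ⟨1, by rw [h, h', pow_one, ← pow_succ, hω3]⟩
      · exact ⟨2, by rw [h, h', ← pow_mul, ← pow_add, show 2 * 2 + 2 = 3 * 2 by rfl, pow_mul, hω3, one_pow]⟩
    obtain ⟨j, hj⟩ := this
    exact ⟨_, hne j, by rw [hpow, hj, one_smul]⟩
  let v' : Fin 3 → (Fin 3 → F) := fun i => (B ^ (i : ℕ)) *ᵥ u
  have hav' : ∀ i : Fin 3, A *ᵥ v' i = lam ^ (i : ℕ) • v' i := by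
    intro i
    suffices ∀ j : ℕ, A *ᵥ ((B ^ j) *ᵥ u) = lam ^ j • ((B ^ j) *ᵥ u) from this i
    intro j
    induction j with
    | zero => simp [hu]
    | succ j ih => rw [pow_succ', ← Matrix.mulVec_mulVec, hstep _ _ ih, pow_succ']
  have hinj : Function.Injective (fun i : Fin 3 => lam ^ (i : ℕ)) := by
    have h2 : lam ^ 2 ≠ 1 := fun h => hi₀ (by
      calc lam = lam ^ 3 := by rw [pow_succ, h, one_mul]
        _ = 1 := hlam3)
    have h12 : lam ≠ lam ^ 2 := fun h => hi₀ (mul_left_cancel₀ hlam0 (by rw [← pow_two, ← h, mul_one]))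
    intro i j h
    fin_cases i <;> fin_cases j <;> simp [-sq_eq_one_iff] at h ⊢
    all_goals first | exact hi₀ h | exact hi₀ h.symm | exact h2 h | exact h2 h.symm | exact h12 h | exact h12 h.symm
  have hli : LinearIndependent F v' := by
    refine Module.End.eigenvectors_linearIndependent' (Matrix.toLin' A) _ hinj v' fun i => ?_
    refine ⟨Module.End.mem_eigenspace_iff.2 (hav' i), fun h => hu0 ?_⟩
    exact Matrix.mulVec_injective_of_isUnit (IsUnit.pow (i : ℕ) b.isUnit)
      (by change (B ^ (i : ℕ)) *ᵥ u = 0 at h; rw [h, Matrix.mulVec_zero])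
  let v := basisOfLinearIndependentOfCardEqFinrank hli (by simp)
  have hv : ∀ i, v i = v' i := fun i => by simp [v]
  have hgen : Subgroup.closure {a, b} = R := by
    have hle : Subgroup.closure {a, b} ≤ R := (Subgroup.closure_le _).2 (by
      rintro g (rfl | rfl) <;> assumption)
    refine Subgroup.eq_of_le_of_card_ge hle ?_
    have hdvd : Nat.card (Subgroup.closure {a, b}) ∣ 27 := hR ▸ Subgroup.card_dvd_of_le hle
    have hp' : IsPGroup 3 (Subgroup.closure {a, b}) := hp.to_le hle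
    haveI : Finite (Subgroup.closure {a, b}) := Finite.of_injective _ (Subgroup.inclusion_injective hle)
    obtain ⟨k, hk⟩ := hp'.exists_card_eq
    by_contra hlt
    rw [hR] at hlt
    have hk2 : k ≤ 2 := by
      by_contra h
      have : 27 ≤ 3 ^ k := le_trans (by norm_num : 27 ≤ 3 ^ 3) (Nat.pow_le_pow_right (by norm_num) (by omega))
      omega
    have hcl : ∀ x y : Subgroup.closure {a, b}, x * y = y * x := by
      interval_cases k
      · haveI : Subsingleton (Subgroup.closure {a, b}) := (Nat.card_eq_one_iff_unique.1 (by simpa using hk)).1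
        exact fun x y => Subsingleton.elim _ _
      · have : IsCyclic (Subgroup.closure {a, b}) := isCyclic_of_prime_card (p := 3) (by simpa using hk)
        letI := IsCyclic.commGroup (α := Subgroup.closure {a, b})
        exact mul_comm
      · exact (IsPGroup.isMulCommutative_of_card_eq_prime_sq (p := 3) hk).is_comm.comm
    exact hab (congrArg Subtype.val (hcl ⟨a, Subgroup.subset_closure (Or.inl rfl)⟩
      ⟨b, Subgroup.subset_closure (Or.inr rfl)⟩))
  refine ⟨lam, ⟨a, b, v, hi₀, hlam3, hgen, fun i => ?_, fun i => ?_, ⟨c, hcR, hCs⟩, hR⟩⟩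
  · rw [hv]; exact hav' i
  · rw [hv, hv]
    show B *ᵥ ((B ^ (i : ℕ)) *ᵥ u) = (B ^ ((i + 1 : Fin 3) : ℕ)) *ᵥ u
    rw [Matrix.mulVec_mulVec, ← pow_succ']
    congr 1
    fin_cases i <;> simp [hB3]

namespace Frame27

variable {R : Subgroup (GL (Fin 3) F)} {lam : F} (fr : Frame27 R lam)
include fr

theorem finite : Finite R := Nat.finite_of_card_ne_zero (by rw [fr.hcard]; norm_num)

theorem a_mem : fr.a ∈ R := by
  have h : fr.a ∈ Subgroup.closure {fr.a, fr.b} := Subgroup.subset_closure (Or.inl rfl)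
  rwa [fr.gen] at h

theorem b_mem : fr.b ∈ R := by
  have h : fr.b ∈ Subgroup.closure {fr.a, fr.b} := Subgroup.subset_closure (Or.inr rfl)
  rwa [fr.gen] at h

theorem lam_ne_zero : lam ≠ 0 := fun h => by
  have := fr.lam_cube; rw [h] at this; simp at this

theorem pow_mod (k : ℕ) : lam ^ k = lam ^ (k % 3) := by
  conv_lhs => rw [← Nat.div_add_mod k 3, pow_add, pow_mul, fr.lam_cube, one_pow, one_mul]

theorem mul_pow_eq (i j : Fin 3) : lam ^ (i : ℕ) * lam ^ (j : ℕ) = lam ^ ((i + j : Fin 3) : ℕ) := by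
  rw [← pow_add, fr.pow_mod, Fin.val_add]

/-- An element is in the normaliser as soon as it maps both generators into the group. -/
theorem mem_normalizer (y : GL (Fin 3) F) (ha : y * fr.a * y⁻¹ ∈ R) (hb : y * fr.b * y⁻¹ ∈ R) :
    y ∈ Cfsg.Geo.subgroupNormalizer R := by
  haveI := fr.finite
  refine mem_normalizer_of_forall_mem R y ?_
  have h : (Subgroup.closure {fr.a, fr.b}).map (MulAut.conj y).toMonoidHom ≤ R := by
    rw [Subgroup.map_le_iff_le_comap, Subgroup.closure_le]
    rintro g (rfl | rfl)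
    · exact ha
    · exact hb
  rw [fr.gen] at h
  exact fun s hs => h ⟨s, hs, rfl⟩

/-- Monomial elements: diagonal on the frame with ratios following the commutation pattern. -/
theorem diag_mem_normalizer (y : GL (Fin 3) F) (η : F) (s : Fin 3 → Fin 3) (u m : Fin 3)
    (hy : ∀ i, (y : Matrix (Fin 3) (Fin 3) F) *ᵥ fr.v i = (η * lam ^ (s i : ℕ)) • fr.v i)
    (hs : ∀ i, s (i + 1) = s i + u + m * i) : y ∈ Cfsg.Geo.subgroupNormalizer R := by
  refine fr.mem_normalizer y ?_ ?_
  · have h : y * fr.a = fr.a * y := by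
      refine Units.ext (eq_of_mulVec_basis fr.v fun i => ?_)
      simp only [Units.val_mul, ← Matrix.mulVec_mulVec, fr.ha, hy, Matrix.mulVec_smul, smul_smul]
      rw [mul_comm]
    rw [h, mul_inv_cancel_right]
    exact fr.a_mem
  · obtain ⟨c, hcR, hc⟩ := fr.scalar_mem
    have h : y * fr.b * y⁻¹ = c ^ (u : ℕ) * fr.b * fr.a ^ (m : ℕ) := by
      rw [mul_inv_eq_iff_eq_mul]
      refine Units.ext (eq_of_mulVec_basis fr.v fun i => ?_)
      have hpow : ∀ k : ℕ, ((fr.a : Matrix (Fin 3) (Fin 3) F) ^ k) *ᵥ fr.v i =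
          (lam ^ ((i : ℕ) * k)) • fr.v i := by
        intro k
        induction k with
        | zero => simp
        | succ k ih =>
          rw [pow_succ, ← Matrix.mulVec_mulVec, fr.ha, Matrix.mulVec_smul, ih, smul_smul,
            ← pow_add, Nat.mul_succ, add_comm]
      simp only [Units.val_mul, ← Matrix.mulVec_mulVec, fr.hb, hy, Matrix.mulVec_smul, hpow, smul_smul,
        Units.val_pow_eq_pow_val, hc, smul_pow, one_pow, Matrix.smul_mulVec, Matrix.one_mulVec]
      congr 1
      rw [hs, ← fr.mul_pow_eq, ← fr.mul_pow_eq]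
      have : lam ^ ((m * i : Fin 3) : ℕ) = lam ^ ((i : ℕ) * (m : ℕ)) := by
        rw [Fin.val_mul, ← fr.pow_mod, mul_comm]
      rw [this]; ring
    rw [h]
    exact mul_mem (mul_mem (pow_mem hcR _) fr.b_mem) (pow_mem fr.a_mem _)

/-- Some element of the normaliser is an involution inverting both generators. -/
theorem inv_mem_normalizer (y : GL (Fin 3) F)
    (hy : ∀ i, (y : Matrix (Fin 3) (Fin 3) F) *ᵥ fr.v i = -fr.v (-i)) :
    y ∈ Cfsg.Geo.subgroupNormalizer R := by
  refine fr.mem_normalizer y ?_ ?_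
  · have h : y * fr.a * y⁻¹ = fr.a ^ 2 := by
      rw [mul_inv_eq_iff_eq_mul]
      refine Units.ext (eq_of_mulVec_basis fr.v fun i => ?_)
      simp only [pow_two, Units.val_mul, ← Matrix.mulVec_mulVec, hy, fr.ha, Matrix.mulVec_smul, Matrix.mulVec_neg,
        smul_smul, smul_neg]
      rw [fr.mul_pow_eq, show -i + -i = i by revert i; decide]
    rw [h]; exact pow_mem fr.a_mem _
  · have h : y * fr.b * y⁻¹ = fr.b ^ 2 := by
      rw [mul_inv_eq_iff_eq_mul]
      refine Units.ext (eq_of_mulVec_basis fr.v fun i => ?_)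
      simp only [pow_two, Units.val_mul, ← Matrix.mulVec_mulVec, hy, fr.hb, Matrix.mulVec_neg]
      rw [show -(i + 1) = -i + 1 + 1 by revert i; decide]
    rw [h]; exact pow_mem fr.b_mem _

/-- The group acts absolutely irreducibly. -/
theorem eq_scalar {Y : Matrix (Fin 3) (Fin 3) F}
    (ha : Y * (fr.a : Matrix (Fin 3) (Fin 3) F) = (fr.a : Matrix (Fin 3) (Fin 3) F) * Y)
    (hb : Y * (fr.b : Matrix (Fin 3) (Fin 3) F) = (fr.b : Matrix (Fin 3) (Fin 3) F) * Y) :
    ∃ z : F, Y = z • 1 := by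
  have hav : ∀ i, (fr.a : Matrix (Fin 3) (Fin 3) F) *ᵥ (Y *ᵥ fr.v i) = lam ^ (i : ℕ) • (Y *ᵥ fr.v i) := by
    intro i
    rw [Matrix.mulVec_mulVec, ← ha, ← Matrix.mulVec_mulVec, fr.ha, Matrix.mulVec_smul]
  have hY0 : ∀ j : Fin 3, j ≠ 0 → fr.v.repr (Y *ᵥ fr.v 0) j = 0 := by
    intro j hj
    set w := Y *ᵥ fr.v 0 with hw
    have h1 : (fr.a : Matrix (Fin 3) (Fin 3) F) *ᵥ w = w := by
      rw [hw, hav 0]; simp
    have h2 : fr.v.repr ((fr.a : Matrix (Fin 3) (Fin 3) F) *ᵥ w) j = lam ^ (j : ℕ) * fr.v.repr w j := by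
      have hlin : Matrix.toLin' (fr.a : Matrix (Fin 3) (Fin 3) F) w =
          ∑ i, fr.v.repr w i • (lam ^ (i : ℕ) • fr.v i) := by
        conv_lhs => rw [← fr.v.sum_repr w]
        rw [map_sum]
        exact Finset.sum_congr rfl fun i _ => by rw [map_smul, Matrix.toLin'_apply, fr.ha]
      rw [Matrix.toLin'_apply] at hlin
      rw [hlin]
      simp [Finsupp.single_apply, mul_comm]
    rw [h1] at h2
    have hl : lam ^ (j : ℕ) ≠ 1 := by
      have hl2 : lam ^ 2 ≠ 1 := fun h => fr.lam_ne (by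
        calc lam = lam ^ 3 := by rw [pow_succ, h, one_mul]
          _ = 1 := fr.lam_cube)
      fin_cases j <;> simp_all [fr.lam_ne]
    have h3 : (lam ^ (j : ℕ) - 1) * fr.v.repr w j = 0 := by linear_combination (-1 : F) * h2
    exact (mul_eq_zero.1 h3).resolve_left (sub_ne_zero.2 hl)
  refine ⟨fr.v.repr (Y *ᵥ fr.v 0) 0, eq_of_mulVec_basis fr.v fun i => ?_⟩
  rw [Matrix.smul_mulVec, Matrix.one_mulVec]
  set z := fr.v.repr (Y *ᵥ fr.v 0) 0 with hz
  have h0 : Y *ᵥ fr.v 0 = z • fr.v 0 := by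
    conv_lhs => rw [← fr.v.sum_repr (Y *ᵥ fr.v 0)]
    rw [Fin.sum_univ_three, hY0 1 (by decide), hY0 2 (by decide), zero_smul, zero_smul, add_zero, add_zero]
  have hstep : ∀ i, Y *ᵥ fr.v i = z • fr.v i → Y *ᵥ fr.v (i + 1) = z • fr.v (i + 1) := by
    intro i hi
    rw [← fr.hb, Matrix.mulVec_mulVec, hb, ← Matrix.mulVec_mulVec, hi, Matrix.mulVec_smul]
  fin_cases i
  · exact h0
  · exact hstep 0 h0
  · exact hstep 1 (hstep 0 h0)

/-- An element of prime order at least five normalising the group is scalar. -/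
theorem scalar_of_prime_order [Finite (GL (Fin 3) F)] {y : GL (Fin 3) F}
    (hy : y ∈ Cfsg.Geo.subgroupNormalizer R) {r : ℕ} [Fact r.Prime] (hr : 5 ≤ r) (hyr : y ^ r = 1) :
    ∃ z : F, (y : Matrix (Fin 3) (Fin 3) F) = z • 1 := by
  haveI := fr.finite
  have hmod := card_modEq_card_fixed R hy hyr
  rw [fr.hcard] at hmod
  set K := R ⊓ Subgroup.centralizer {y} with hK
  have hdvd : Nat.card K ∣ 3 ^ 3 := by
    have := Subgroup.card_dvd_of_le (inf_le_left : K ≤ R)
    rwa [fr.hcard] at this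
  have hK1 : Nat.card K ≠ 1 := by
    obtain ⟨c, hcR, hc⟩ := fr.scalar_mem
    rw [Ne, Subgroup.card_eq_one]
    intro h
    have hcK : c ∈ K := by
      refine ⟨hcR, ?_⟩
      show c ∈ Subgroup.centralizer {y}
      rw [Subgroup.mem_centralizer_iff]
      intro g hg
      rw [Set.mem_singleton_iff.1 hg]
      apply Units.ext
      rw [Units.val_mul, Units.val_mul, hc]
      simp
    rw [h, Subgroup.mem_bot] at hcK
    rw [hcK, Units.val_one] at hc
    have := congrFun (congrFun hc 0) 0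
    simp at this
    exact fr.lam_ne this.symm
  obtain ⟨k, hk, hKk⟩ := (Nat.dvd_prime_pow Nat.prime_three).1 hdvd
  have hk3 : k = 3 := by
    by_contra hne
    have hle : 3 ^ k ≤ 27 := le_trans (Nat.pow_le_pow_right (by norm_num) hk) (by norm_num)
    rw [hKk] at hmod hK1
    have hdiv : r ∣ 27 - 3 ^ k := (Nat.modEq_iff_dvd' hle).1 hmod.symm
    have hk1 : k ≠ 0 := by rintro rfl; simp at hK1
    have hr' := Fact.out (p := r.Prime)
    have hsmall : r ∣ 2 ^ 3 * 3 ∨ r ∣ 2 * 3 ^ 2 := by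
      interval_cases k
      · exact absurd rfl hk1
      · exact Or.inl (by simpa using hdiv)
      · exact Or.inr (by simpa using hdiv)
      · exact absurd rfl hne
    rcases hsmall with h | h <;> rcases hr'.dvd_mul.1 h with h | h
    all_goals first
      | (have := Nat.le_of_dvd (by norm_num) (hr'.dvd_of_dvd_pow h); omega)
      | (have := Nat.le_of_dvd (by norm_num) h; omega)
  have hKR : K = R := Subgroup.eq_of_le_of_card_ge inf_le_left (by rw [hKk, hk3, fr.hcard]; norm_num)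
  have hcomm : ∀ s ∈ R, y * s = s * y := fun s hs => by
    rw [← hKR] at hs
    exact Subgroup.mem_centralizer_iff.1 hs.2 y rfl
  exact fr.eq_scalar (congrArg Units.val (hcomm _ fr.a_mem)) (congrArg Units.val (hcomm _ fr.b_mem))

end Frame27

end CfsgLib.Omega
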