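import Mathlib
import Cfsg.Agent.Lib.Omega.DimThree
import Cfsg.Agent.Lib.Omega.Extraspecial27

/-!
The 3-part of the order of `SL_3(q)` for `q ≡ 4, 7 (mod 9)`, and determinants on a frame.
-/

set_option autoImplicit false

namespace CfsgLib.Omega

variable {F : Type*} [Field F]

theorem not_eightyone_dvd_card_specialLinear [Fintype F] {q : ℕ} (hq : Fintype.card F = q)
    (h : q % 9 = 4 ∨ q % 9 = 7) : ¬ 81 ∣ Nat.card (Cfsg.Geo.specialLinear (Fin 3) F) := by
  classical
  intro h81
  set S := Cfsg.Geo.specialLinear (Fin 3) F with hS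
  have e1 : Nat.card S * (q - 1) = Nat.card (GL (Fin 3) F) := by
    rw [← Subgroup.card_mul_index S]
    congr 1
    rw [Subgroup.index_eq_card, hS, Cfsg.Geo.specialLinear, ← hq, ← Fintype.card_units,
      ← Nat.card_eq_fintype_card]
    exact (Nat.card_congr (QuotientGroup.quotientKerEquivOfSurjective _
      Matrix.GeneralLinearGroup.det_surjective).toEquiv).symm
  have hcard : (q - 1) * Nat.card S = (q - 1) * ((q ^ 3 - 1) * (q ^ 3 - q) * q ^ 2) := by
    rw [mul_comm, e1, Matrix.card_GL_field, hq, Fin.prod_univ_three]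
    simp only [Fin.val_zero, Fin.val_one, Fin.val_two, pow_zero, pow_one]
    have : q ^ 3 - q ^ 2 = (q - 1) * q ^ 2 := by rw [Nat.sub_mul, one_mul, ← pow_succ']
    rw [this]; ring
  have hcard' := Nat.eq_of_mul_eq_mul_left (by omega) hcard
  rw [hcard', ← ZMod.natCast_eq_zero_iff] at h81
  rw [Nat.cast_mul, Nat.cast_mul, Nat.cast_sub (Nat.one_le_pow _ _ (by omega)),
    Nat.cast_sub (Nat.le_self_pow (by norm_num) q)] at h81
  push_cast at h81
  refine mod_eightyone_key ⟨q % 81, Nat.mod_lt _ (by norm_num)⟩ (by simp; omega) ?_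
  simp only [ZMod.natCast_mod]
  exact h81

theorem Frame27.le_specialLinear {R : Subgroup (GL (Fin 3) F)} {lam : F} (fr : Frame27 R lam) :
    R ≤ Cfsg.Geo.specialLinear (Fin 3) F := by
  classical
  rw [← fr.gen, Subgroup.closure_le]
  have hdet : ∀ (g : GL (Fin 3) F) (M : Matrix (Fin 3) (Fin 3) F),
      LinearMap.toMatrix fr.v fr.v (Matrix.toLin' (g : Matrix (Fin 3) (Fin 3) F)) = M →
      (g : Matrix (Fin 3) (Fin 3) F).det = M.det := by
    rintro g M rfl
    rw [LinearMap.det_toMatrix, LinearMap.det_toLin']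
  rintro g (rfl | rfl)
  · show fr.a ∈ Cfsg.Geo.specialLinear (Fin 3) F
    rw [mem_specialLinear, hdet fr.a (Matrix.diagonal fun i : Fin 3 => lam ^ (i : ℕ))]
    · simp [Matrix.det_diagonal, Fin.prod_univ_three, ← pow_succ', fr.lam_cube]
    · ext i j
      rw [LinearMap.toMatrix_apply, Matrix.toLin'_apply, fr.ha]
      by_cases hij : i = j
      · subst hij; simp
      · simp [hij]
  · show fr.b ∈ Cfsg.Geo.specialLinear (Fin 3) F
    rw [mem_specialLinear, hdet fr.b (Matrix.of fun i j : Fin 3 => if i = j + 1 then (1 : F) else 0)]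
    · simp [Matrix.det_fin_three]
    · ext i j
      rw [LinearMap.toMatrix_apply, Matrix.toLin'_apply, fr.hb]
      simp [Finsupp.single_apply, eq_comm]

end CfsgLib.Omega
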