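import Mathlib
import Cfsg.Agent.Lib.Omega.JordanBasis

/-!
Matrices made of Jordan chains.
-/

set_option autoImplicit false

open scoped Matrix

namespace CfsgLib.Omega

/-- The shift along chains of the given lengths. -/
def chainShift {m : ℕ} (len : Fin m → ℕ) (K : Type*) [Zero K] [One K] :
    Matrix (Σ k : Fin m, Fin (len k)) (Σ k : Fin m, Fin (len k)) K :=
  Matrix.of fun i j => if i.1 = j.1 ∧ (i.2 : ℕ) = (j.2 : ℕ) + 1 then 1 else 0

theorem chainShift_map {m : ℕ} (len : Fin m → ℕ) {K L : Type*} [Semiring K] [Semiring L] (f : K →+* L) :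
    (chainShift len K).map f = chainShift len L := by
  ext i j
  simp only [chainShift, Matrix.map_apply, Matrix.of_apply]
  split_ifs <;> simp

theorem sum_chainShift_smul {m : ℕ} (len : Fin m → ℕ) {K V : Type*} [Semiring K] [AddCommMonoid V]
    [Module K V] (v : (Σ k : Fin m, Fin (len k)) → V) (j : Σ k : Fin m, Fin (len k)) :
    ∑ i, chainShift len K i j • v i =
      if h : j.2.1 + 1 < len j.1 then v ⟨j.1, ⟨j.2.1 + 1, h⟩⟩ else 0 := by
  split_ifs with h
  · rw [Finset.sum_eq_single ⟨j.1, ⟨j.2.1 + 1, h⟩⟩]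
    · simp [chainShift]
    · rintro ⟨a, b⟩ _ hne
      simp only [chainShift, Matrix.of_apply]
      rw [if_neg, zero_smul]
      rintro ⟨rfl, hb⟩
      exact hne (Sigma.ext rfl (heq_of_eq (Fin.ext hb)))
    · simp
  · refine Finset.sum_eq_zero ?_
    rintro ⟨a, b⟩ _
    simp only [chainShift, Matrix.of_apply]
    rw [if_neg, zero_smul]
    rintro ⟨rfl, hb⟩
    show False
    exact h (by have := b.2; omega)

/-- A matrix written on another basis. -/
theorem exists_gl_of_repr {ι ι' K : Type*} [Field K] [Fintype ι] [DecidableEq ι] [Fintype ι'] [DecidableEq ι']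
    (A : Matrix ι ι K) (b : Module.Basis ι' K (ι → K)) (e : ι' ≃ ι) (R : Matrix ι' ι' K)
    (h : ∀ j, A *ᵥ b j = ∑ i, R i j • b i) :
    ∃ g : GL ι K, A * (g : Matrix ι ι K) = (g : Matrix ι ι K) * Matrix.reindex e e R := by
  let G : Matrix ι ι K := (Pi.basisFun K ι).toMatrix (b.reindex e)
  have hG : IsUnit G := by
    have := (Pi.basisFun K ι).invertibleToMatrix (b.reindex e)
    exact isUnit_of_invertible G
  refine ⟨hG.unit, ?_⟩
  show A * G = G * Matrix.reindex e e R
  ext i j
  have := congrFun (h (e.symm j)) i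
  rw [Finset.sum_apply] at this
  simp only [Matrix.mulVec, dotProduct, Pi.smul_apply, smul_eq_mul] at this
  simp only [G, Matrix.mul_apply, Module.Basis.toMatrix_apply, Pi.basisFun_repr,
    Module.Basis.coe_reindex, Function.comp_apply, Matrix.reindex_apply, Matrix.submatrix_apply]
  rw [this, ← Equiv.sum_comp e]
  refine Finset.sum_congr rfl fun k _ => ?_
  rw [Equiv.symm_apply_apply, mul_comm]

/-- A matrix whose power `(A - 1)^p` vanishes is conjugate to one plus a chain shift. -/
theorem exists_chain_conj {n : ℕ} {K : Type*} [Field K] (p : ℕ) (A : Matrix (Fin n) (Fin n) K)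
    (hA : A ^ p = 0) :
    ∃ (m : ℕ) (len : Fin m → ℕ) (e : (Σ k : Fin m, Fin (len k)) ≃ Fin n) (g : GL (Fin n) K),
      (∀ k, 0 < len k ∧ len k ≤ p) ∧
      A * (g : Matrix (Fin n) (Fin n) K) =
        (g : Matrix (Fin n) (Fin n) K) * Matrix.reindex e e (chainShift len K) := by
  classical
  obtain ⟨m, len, b, hlen, hb⟩ := exists_jordan_basis p n (V := Fin n → K) (by simp)
    (Matrix.toLinAlgEquiv' A) (by rw [← map_pow, hA, map_zero])
  let e := b.indexEquiv (Pi.basisFun K (Fin n))
  obtain ⟨g, hg⟩ := exists_gl_of_repr A b e (chainShift len K) (fun j => by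
    rw [sum_chainShift_smul len b j]
    exact hb j)
  exact ⟨m, len, e, g, hlen, hg⟩

end CfsgLib.Omega
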