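import Mathlib
import Cfsg.Prelude.Def_GeometricClasses
import Cfsg.Agent.Lib.Geometric.Decomp
import Cfsg.Agent.Lib.Omega.PrimeOrderPieces
import Cfsg.Agent.Lib.Omega.BlockPerm
import Cfsg.Agent.Lib.ClassicalLinear.Card
import Cfsg.Agent.Lib.Forms.Counting

/-!
Elements of prime order permuting the summands of an equidimensional decomposition, and the number of such
decompositions.
-/

set_option autoImplicit false

open scoped Matrix

namespace CfsgLib.Omega.PrimeOrder

open CfsgLib.Geometric

variable {F : Type*} [Field F] {ι : Type} [Fintype ι] [DecidableEq ι] {a t r : ℕ} [Fact r.Prime]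
  {D : Fin t → Submodule F (ι → F)} {Y : (ι → F) →ₗ[F] (ι → F)} {σ : Equiv.Perm (Fin t)}

theorem decomp_injective (hD : Cfsg.Geo.IsMDecomposition a D) : Function.Injective D := by
  intro i j h
  by_contra hij
  obtain ⟨u, hu, hu0⟩ := Decomp.exists_ne_zero_mem hD i
  have h1 := Decomp.comp_of_mem hD (i := i) hu
  rw [if_pos rfl, Decomp.comp_of_mem hD (i := i) (show u ∈ D j by rw [← h]; exact hu), if_neg hij] at h1
  exact hu0 h1.symm

omit [Fact r.Prime] in
theorem iterate_mem (hσ : ∀ j, (D j).map Y = D (σ j)) (m : ℕ) (j : Fin t) {v : ι → F} (hv : v ∈ D j) :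
    Y^[m] v ∈ D (σ^[m] j) := by
  induction m with
  | zero => exact hv
  | succ m ih =>
    rw [Function.iterate_succ_apply', Function.iterate_succ_apply', ← hσ]
    exact ⟨_, ih, rfl⟩

omit [Fact r.Prime] in
/-- The components of the image are the images of the components. -/
theorem comp_map (hD : Cfsg.Geo.IsMDecomposition a D) (hσ : ∀ j, (D j).map Y = D (σ j)) (j : Fin t)
    (w : ι → F) : Decomp.comp hD (σ j) (Y w) = Y (Decomp.comp hD j w) := by
  classical
  conv_lhs => rw [← Decomp.sum_comp hD w, map_sum]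
  rw [← Equiv.sum_comp σ.symm]
  rw [Decomp.comp_sum_of_mem hD (fun l => Y (Decomp.comp hD (σ.symm l) w)) (fun l => ?_), σ.symm_apply_apply]
  have := hσ (σ.symm l)
  rw [σ.apply_symm_apply] at this
  rw [← this]
  exact ⟨_, Decomp.comp_mem hD _ w, rfl⟩

omit [Fact r.Prime] in
theorem iterate_eq (hD : Cfsg.Geo.IsMDecomposition a D) (hσ : ∀ j, (D j).map Y = D (σ j))
    (hY : ∀ v, Y^[r] v = v) (j : Fin t) : σ^[r] j = j := by
  classical
  by_contra h
  obtain ⟨u, hu, hu0⟩ := Decomp.exists_ne_zero_mem hD j
  have h1 := iterate_mem hσ r j hu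
  rw [hY] at h1
  have h2 := Decomp.comp_of_mem hD (i := j) hu
  rw [if_pos rfl, Decomp.comp_of_mem hD (i := j) h1, if_neg (Ne.symm h)] at h2
  exact hu0 h2.symm

/-- In a moved orbit the points `σ^m j`, `m < r`, are distinct from `j`. -/
theorem iterate_ne (hD : Cfsg.Geo.IsMDecomposition a D) (hσ : ∀ j, (D j).map Y = D (σ j))
    (hY : ∀ v, Y^[r] v = v) {j : Fin t} (hj : σ j ≠ j) {m : ℕ} (hm0 : 0 < m) (hm : m < r) :
    σ^[m] j ≠ j := by
  intro h
  have h1 : Function.IsPeriodicPt σ (m.gcd r) j := Function.IsPeriodicPt.gcd h (iterate_eq hD hσ hY j)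
  have hg : m.gcd r = 1 :=
    Nat.Coprime.symm ((Nat.Prime.coprime_iff_not_dvd Fact.out).2 fun hd => by
      have := Nat.le_of_dvd hm0 hd; omega)
  rw [hg] at h1
  exact hj h1

theorem iterate_injective (hD : Cfsg.Geo.IsMDecomposition a D) (hσ : ∀ j, (D j).map Y = D (σ j))
    (hY : ∀ v, Y^[r] v = v) {j : Fin t} (hj : σ j ≠ j) {m m' : ℕ} (hm : m < r) (hm' : m' < r)
    (h : σ^[m] j = σ^[m'] j) : m = m' := by
  rcases lt_trichotomy m m' with hlt | heq | hlt
  · exfalso
    refine iterate_ne hD hσ hY hj (m := m' - m) (by omega) (by omega) ((σ.injective.iterate m) ?_)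
    rw [← Function.iterate_add_apply, Nat.add_sub_cancel' hlt.le]
    exact h.symm
  · exact heq
  · exfalso
    refine iterate_ne hD hσ hY hj (m := m - m') (by omega) (by omega) ((σ.injective.iterate m') ?_)
    rw [← Function.iterate_add_apply, Nat.add_sub_cancel' hlt.le]
    exact h

/-- A moved summand gives fixed vectors by summing over the orbit. -/
theorem le_finrank_fixed (hD : Cfsg.Geo.IsMDecomposition a D) (hσ : ∀ j, (D j).map Y = D (σ j))
    (hY : ∀ v, Y^[r] v = v) {j : Fin t} (hj : σ j ≠ j) :
    a ≤ Module.finrank F (LinearMap.ker (Y - LinearMap.id)) := by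
  classical
  let N : (ι → F) →ₗ[F] (ι → F) := ∑ m ∈ Finset.range r, (Y : Module.End F (ι → F)) ^ m
  have hN : ∀ v, N v = ∑ m ∈ Finset.range r, Y^[m] v := fun v => by
    show (∑ m ∈ Finset.range r, (Y : Module.End F (ι → F)) ^ m) v = _
    simp [LinearMap.sum_apply, Module.End.pow_apply]
  have hfix : ∀ v, N v ∈ LinearMap.ker (Y - LinearMap.id) := fun v => by
    rw [LinearMap.mem_ker, LinearMap.sub_apply, LinearMap.id_apply, hN, map_sum, sub_eq_zero]
    simp_rw [← Function.iterate_succ_apply' Y _ v]
    have h1 := Finset.sum_range_succ (fun m => Y^[m] v) r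
    rw [Finset.sum_range_succ', hY] at h1
    exact add_right_cancel h1
  let Φ : D j →ₗ[F] LinearMap.ker (Y - LinearMap.id) := (N.comp (D j).subtype).codRestrict _ fun v => hfix v
  have hinj : Function.Injective Φ := by
    intro v w hvw
    have h : ∀ u : D j, Decomp.comp hD j (N u) = u := by
      intro u
      rw [hN, map_sum, Finset.sum_eq_single 0 (fun m hm hm0 => ?_)
        (fun h => absurd (Finset.mem_range.2 (Fact.out : r.Prime).pos) h)]
      · rw [Function.iterate_zero_apply, Decomp.comp_of_mem hD u.2, if_pos rfl]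
      · rw [Decomp.comp_of_mem hD (iterate_mem hσ m j u.2), if_neg]
        exact Ne.symm (iterate_ne hD hσ hY hj (Nat.pos_of_ne_zero hm0) (Finset.mem_range.1 hm))
    have h1 : N v = N w := congrArg Subtype.val hvw
    exact Subtype.ext (by rw [← h v, ← h w, h1])
  have := LinearMap.finrank_le_finrank_of_injective hinj
  rwa [hD.finrank_eq] at this

/-- A moved summand makes the rank of `Y - 1` at least `a (r - 1)`. -/
theorem mul_le_finrank_range (hD : Cfsg.Geo.IsMDecomposition a D) (hσ : ∀ j, (D j).map Y = D (σ j))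
    (hY : ∀ v, Y^[r] v = v) {j : Fin t} (hj : σ j ≠ j) :
    (r - 1) * a ≤ Module.finrank F (LinearMap.range (Y - LinearMap.id)) := by
  classical
  let Θ : (Fin (r - 1) → D j) →ₗ[F] (ι → F) :=
    ∑ m : Fin (r - 1), ((Y : Module.End F (ι → F)) ^ (m : ℕ)).comp ((D j).subtype.comp (LinearMap.proj m))
  have hΘ : ∀ f, Θ f = ∑ m : Fin (r - 1), Y^[(m : ℕ)] (f m) := fun f => by
    simp [Θ, LinearMap.sum_apply, Module.End.pow_apply]
  have hr1 : 1 < r := (Fact.out : r.Prime).one_lt
  have hinj : Function.Injective ((Y - LinearMap.id).rangeRestrict.comp Θ) := by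
    rw [injective_iff_map_eq_zero]
    intro f hf
    have hw : Y (Θ f) = Θ f := sub_eq_zero.1 (congrArg Subtype.val hf)
    have hcomp : ∀ m : ℕ, m < r → Decomp.comp hD (σ^[m] j) (Θ f) =
        if h : m < r - 1 then Y^[m] (f ⟨m, h⟩) else 0 := by
      intro m hm
      rw [hΘ, map_sum]
      split_ifs with h
      · rw [Finset.sum_eq_single ⟨m, h⟩ (fun m' _ hne => ?_) (fun hh => absurd (Finset.mem_univ _) hh)]
        · rw [Decomp.comp_of_mem hD (iterate_mem hσ m j (f _).2), if_pos rfl]
        · rw [Decomp.comp_of_mem hD (iterate_mem hσ m' j (f _).2), if_neg]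
          exact fun he => hne (Fin.ext (iterate_injective hD hσ hY hj (by omega) hm he.symm))
      · refine Finset.sum_eq_zero fun m' _ => ?_
        rw [Decomp.comp_of_mem hD (iterate_mem hσ m' j (f _).2), if_neg]
        intro he
        have := iterate_injective hD hσ hY hj (by omega) hm he.symm
        omega
    have hnext : ∀ l, Decomp.comp hD (σ l) (Θ f) = Y (Decomp.comp hD l (Θ f)) := fun l => by
      rw [← comp_map hD hσ, hw]
    have hzero : ∀ i : ℕ, Decomp.comp hD (σ^[(r - 1) + i] j) (Θ f) = 0 := by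
      intro i
      induction i with
      | zero => rw [Nat.add_zero, hcomp _ (by omega), dif_neg (lt_irrefl _)]
      | succ i ih => rw [← Nat.add_assoc, Function.iterate_succ_apply', hnext, ih, map_zero]
    ext1 m
    have h := hzero ((m : ℕ) + 1)
    rw [show r - 1 + ((m : ℕ) + 1) = m + r by omega, Function.iterate_add_apply, iterate_eq hD hσ hY j,
      hcomp m (by omega), dif_pos m.2] at h
    have hYinj : Function.Injective Y := fun u v huv => by
      rw [← hY u, ← hY v, show r = (r - 1) + 1 by omega, Function.iterate_succ_apply,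
        Function.iterate_succ_apply, huv]
    refine Subtype.ext (hYinj.iterate (m : ℕ) ?_)
    rw [Pi.zero_apply, Submodule.coe_zero]
    rw [h]
    clear h
    generalize (m : ℕ) = i
    induction i with
    | zero => rfl
    | succ i ih => rw [Function.iterate_succ_apply', ← ih, map_zero]
  have := LinearMap.finrank_le_finrank_of_injective hinj
  rwa [Module.finrank_pi_fintype, Finset.sum_const, Finset.card_univ, Fintype.card_fin, hD.finrank_eq,
    smul_eq_mul] at this

omit [Fact r.Prime] in
/-- If every summand is invariant the fixed space is the sum of the fixed spaces in the summands. -/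
theorem finrank_fixed_eq_sum (hD : Cfsg.Geo.IsMDecomposition a D) (hσ : ∀ j, (D j).map Y = D j) :
    Module.finrank F (LinearMap.ker (Y - LinearMap.id)) = ∑ j, Module.finrank F (fixedIn Y (D j)) := by
  classical
  let Φ : (∀ j, fixedIn Y (D j)) →ₗ[F] LinearMap.ker (Y - LinearMap.id) :=
    (∑ j, (fixedIn Y (D j)).subtype.comp (LinearMap.proj j)).codRestrict _ fun f => by
      rw [LinearMap.sum_apply]
      exact Submodule.sum_mem _ fun j _ => (Submodule.mem_inf.1 (f j).2).2
  have hΦ : ∀ f, ((Φ f : LinearMap.ker (Y - LinearMap.id)) : ι → F) = ∑ j, (f j : ι → F) := fun f => by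
    simp [Φ, LinearMap.sum_apply]
  have hbij : Function.Bijective Φ := by
    refine ⟨fun f g hfg => funext fun j => Subtype.ext ?_, fun w => ?_⟩
    · have h := congrArg (fun w : LinearMap.ker (Y - LinearMap.id) => Decomp.comp hD j w) hfg
      simp only [hΦ] at h
      rwa [Decomp.comp_sum_of_mem hD (fun l => (f l : ι → F)) (fun l => fixedIn_le _ _ (f l).2),
        Decomp.comp_sum_of_mem hD (fun l => (g l : ι → F)) (fun l => fixedIn_le _ _ (g l).2)] at h
    · refine ⟨fun j => ⟨Decomp.comp hD j w, mem_fixedIn.2 ⟨Decomp.comp_mem hD j w, ?_⟩⟩,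
        Subtype.ext ((hΦ _).trans (Decomp.sum_comp hD w))⟩
      have hw : Y (w : ι → F) = w := sub_eq_zero.1 (LinearMap.mem_ker.1 w.2)
      have := comp_map (σ := 1) hD hσ j (w : ι → F)
      rw [hw] at this
      exact this.symm
  rw [← (LinearEquiv.ofBijective Φ hbij).finrank_eq, Module.finrank_pi_fintype]

/-- Permuted lines: there are at least `n / r` independent fixed vectors. -/
theorem le_mul_finrank_fixed [Fintype F] (hroot : ∀ s : F, s ^ r = 1 → s = 1)
    (hD : Cfsg.Geo.IsMDecomposition 1 D) (hσ : ∀ j, (D j).map Y = D (σ j)) (hY : ∀ v, Y^[r] v = v) :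
    t ≤ r * Module.finrank F (LinearMap.ker (Y - LinearMap.id)) := by
  classical
  have hr0 : 0 < r := (Fact.out : r.Prime).pos
  choose v hv hv0 using fun j => Decomp.exists_ne_zero_mem hD j
  let R : Finset (Fin t) := Finset.univ.filter fun j => ∀ m < r, j ≤ σ^[m] j
  have hcover : ∀ j, ∃ i ∈ R, ∃ m < r, σ^[m] i = j := by
    intro j
    obtain ⟨m, hm, hmin⟩ := Finset.exists_min_image (Finset.range r) (fun m => σ^[m] j)
      ⟨0, Finset.mem_range.2 hr0⟩
    rw [Finset.mem_range] at hm
    refine ⟨σ^[m] j, Finset.mem_filter.2 ⟨Finset.mem_univ _, fun l hl => ?_⟩, ?_⟩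
    · rw [← Function.iterate_add_apply]
      by_cases hlm : l + m < r
      · exact hmin _ (Finset.mem_range.2 hlm)
      · rw [show l + m = (l + m - r) + r by omega, Function.iterate_add_apply, iterate_eq hD hσ hY]
        exact hmin _ (Finset.mem_range.2 (by omega))
    · rcases Nat.eq_zero_or_pos m with rfl | hm0
      · exact ⟨0, hr0, rfl⟩
      · exact ⟨r - m, by omega, by rw [← Function.iterate_add_apply, Nat.sub_add_cancel hm.le,
          iterate_eq hD hσ hY]⟩
  choose rep hrep m hm hrm using hcover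
  have hcard : t ≤ R.card * r := by
    have := Finset.card_le_card_of_injOn (s := (Finset.univ : Finset (Fin t))) (t := R ×ˢ Finset.range r)
      (fun j => (rep j, m j)) (fun j _ => Finset.mem_product.2 ⟨hrep j, Finset.mem_range.2 (hm j)⟩)
      (fun i _ j _ h => by
        simp only [Prod.mk.injEq] at h
        rw [← hrm i, ← hrm j, h.1, h.2])
    simpa using this
  have hscalar : ∀ j, σ j = j → Y (v j) = v j := by
    intro j hj
    have h1 : Y (v j) ∈ D j := by
      have := hσ j
      rw [hj] at this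
      exact this ▸ ⟨_, hv j, rfl⟩
    obtain ⟨s, hs⟩ : ∃ s : F, s • v j = Y (v j) := by
      obtain ⟨s, hs⟩ := exists_smul_eq_of_finrank_eq_one (hD.finrank_eq j)
        (x := ⟨v j, hv j⟩) (fun h => hv0 j (congrArg Subtype.val h)) ⟨_, h1⟩
      exact ⟨s, congrArg Subtype.val hs⟩
    have hit : ∀ i : ℕ, Y^[i] (v j) = s ^ i • v j := by
      intro i
      induction i with
      | zero => simp
      | succ i ih => rw [Function.iterate_succ_apply', ih, map_smul, ← hs, smul_smul, pow_succ]
    have hs1 : s ^ r = 1 := by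
      have := hit r
      rw [hY] at this
      exact (smul_left_injective F (hv0 j) (by simpa using this.symm))
    rw [← hs, hroot s hs1, one_smul]
  let w : R → LinearMap.ker (Y - LinearMap.id) := fun j =>
    if hj : σ j.1 = j.1 then ⟨v j, by rw [LinearMap.mem_ker, LinearMap.sub_apply, hscalar _ hj]; simp⟩
    else ⟨∑ l ∈ Finset.range r, Y^[l] (v j), by
      rw [LinearMap.mem_ker, LinearMap.sub_apply, LinearMap.id_apply, map_sum, sub_eq_zero]
      simp_rw [← Function.iterate_succ_apply' Y _ (v j)]
      have h1 := Finset.sum_range_succ (fun l => Y^[l] (v j)) r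
      rw [Finset.sum_range_succ', hY] at h1
      exact add_right_cancel h1⟩
  have hw : ∀ j i : R, Decomp.comp hD i.1 (w j : ι → F) = if i = j then v i else 0 := by
    intro j i
    have hj := (Finset.mem_filter.1 j.2).2
    have hi := (Finset.mem_filter.1 i.2).2
    by_cases hfix : σ j.1 = j.1
    · simp only [w, dif_pos hfix]
      rw [Decomp.comp_of_mem hD (hv _)]
      by_cases hij : i = j
      · subst hij; simp
      · rw [if_neg hij, if_neg (fun h => hij (Subtype.ext h))]
    · simp only [w, dif_neg hfix, map_sum]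
      by_cases hij : i = j
      · subst hij
        rw [if_pos rfl, Finset.sum_eq_single 0 (fun l hl hl0 => ?_) (fun h => absurd (Finset.mem_range.2 hr0) h)]
        · rw [Function.iterate_zero_apply, Decomp.comp_of_mem hD (hv _), if_pos rfl]
        · rw [Decomp.comp_of_mem hD (iterate_mem hσ l _ (hv _)), if_neg]
          exact Ne.symm (iterate_ne hD hσ hY hfix (Nat.pos_of_ne_zero hl0) (Finset.mem_range.1 hl))
      · rw [if_neg hij]
        refine Finset.sum_eq_zero fun l hl => ?_
        rw [Finset.mem_range] at hl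
        rw [Decomp.comp_of_mem hD (iterate_mem hσ l _ (hv _)), if_neg]
        intro he
        refine hij (Subtype.ext ?_)
        rcases Nat.eq_zero_or_pos l with rfl | hl0
        · exact he
        · have h1 : j.1 ≤ i.1 := he ▸ hj l hl
          have h2 := hi (r - l) (by omega)
          conv_rhs at h2 => rw [he, ← Function.iterate_add_apply, Nat.sub_add_cancel hl.le, iterate_eq hD hσ hY]
          exact le_antisymm h2 h1
  have hli : LinearIndependent F w := by
    rw [Fintype.linearIndependent_iff]
    intro g hg i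
    have h := congrArg (fun x : LinearMap.ker (Y - LinearMap.id) => Decomp.comp hD i.1 (x : ι → F)) hg
    simp only [Submodule.coe_sum, Submodule.coe_smul, map_sum, map_smul, hw, smul_ite, smul_zero,
      Submodule.coe_zero, map_zero] at h
    rw [Finset.sum_ite_eq Finset.univ i, if_pos (Finset.mem_univ _)] at h
    exact (smul_eq_zero.1 h).resolve_right (hv0 _)
  have hR := hli.fintype_card_le_finrank
  rw [Fintype.card_coe] at hR
  calc t ≤ R.card * r := hcard
    _ ≤ r * _ := by rw [mul_comm]; exact Nat.mul_le_mul_left r hR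

end CfsgLib.Omega.PrimeOrder

namespace CfsgLib.Omega

variable {F : Type*} [Field F] {n a t : ℕ}

/-- An automorphism carrying the parts of one internal sum into those of another one with bases of the same
index types. -/
theorem exists_equiv_of_isInternal {κ M : Type*} [DecidableEq κ] [AddCommGroup M] [Module F M] {α : κ → Type*}
    {A A' : κ → Submodule F M} (h : DirectSum.IsInternal A) (h' : DirectSum.IsInternal A')
    (v : ∀ i, Module.Basis (α i) F (A i)) (v' : ∀ i, Module.Basis (α i) F (A' i)) :
    ∃ E : M ≃ₗ[F] M, ∀ i, (A i).map (E : M →ₗ[F] M) ≤ A' i := by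
  refine ⟨(h.collectedBasis v).equiv (h'.collectedBasis v') (Equiv.refl _), fun i => ?_⟩
  conv_lhs => rw [← Submodule.map_subtype_top (A i), ← (v i).span_eq]
  rw [Submodule.map_span, Submodule.map_span, Submodule.span_le]
  rintro _ ⟨_, ⟨_, ⟨j, rfl⟩, rfl⟩, rfl⟩
  have hj : (A i).subtype (v i j) = h.collectedBasis v ⟨i, j⟩ :=
    (congrFun (DirectSum.IsInternal.collectedBasis_coe h v) ⟨i, j⟩).symm
  rw [hj, LinearEquiv.coe_coe, Module.Basis.equiv_apply]
  exact h'.collectedBasis_mem v' ⟨i, j⟩

/-- A matrix carrying one decomposition to another one. -/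
theorem exists_gl_map_decomp {D D' : Fin t → Submodule F (Fin n → F)}
    (hD : Cfsg.Geo.IsMDecomposition a D) (hD' : Cfsg.Geo.IsMDecomposition a D') :
    ∃ g : GL (Fin n) F, ∀ i, (D i).map (Matrix.toLin' (g : Matrix (Fin n) (Fin n) F)) = D' i := by
  classical
  obtain ⟨E, hE⟩ := exists_equiv_of_isInternal
    (DirectSum.isInternal_submodule_of_iSupIndep_of_iSup_eq_top hD.indep hD.iSup_eq_top)
    (DirectSum.isInternal_submodule_of_iSupIndep_of_iSup_eq_top hD'.indep hD'.iSup_eq_top)
    (fun i => Module.finBasisOfFinrankEq F (D i) (hD.finrank_eq i))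
    (fun i => Module.finBasisOfFinrankEq F (D' i) (hD'.finrank_eq i))
  let g : GL (Fin n) F := Matrix.GeneralLinearGroup.toLin.symm (LinearMap.GeneralLinearGroup.ofLinearEquiv E)
  have hg : Matrix.toLin' (g : Matrix (Fin n) (Fin n) F) = (E : (Fin n → F) →ₗ[F] (Fin n → F)) := by
    have h1 : Matrix.GeneralLinearGroup.toLin g = LinearMap.GeneralLinearGroup.ofLinearEquiv E :=
      MulEquiv.apply_symm_apply _ _
    exact congrArg Units.val h1
  refine ⟨g, fun i => map_toLin'_eq_of_le g.isUnit ?_ (by rw [hD.finrank_eq, hD'.finrank_eq])⟩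
  rw [hg]
  exact hE i

/-- The number of unordered decompositions divides the order of `GL`. -/
theorem card_decomp_div_dvd [Fintype F] (hn : n = a * t) (ha : 0 < a) (ht : 2 ≤ t) :
    Nat.card {D : Fin t → Submodule F (Fin n → F) // Cfsg.Geo.IsMDecomposition a D} / Nat.factorial t ∣
      Nat.card (GL (Fin n) F) := by
  classical
  set X := {D : Fin t → Submodule F (Fin n → F) // Cfsg.Geo.IsMDecomposition a D}
  let e : Fin n ≃ Fin t × Fin a := Fintype.equivOfCardEq (by simp [hn, mul_comm])
  let b : Module.Basis (Fin n × Fin 1) F (Fin n → F) :=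
    (Pi.basisFun F (Fin n)).reindex (Equiv.prodUnique (Fin n) (Fin 1)).symm
  let D₀ : X := ⟨_, isMDecomposition_span_fibres b e ht (by simp) ha⟩
  let K : Subgroup (GL (Fin n) F) :=
    { carrier := {g | ∀ i, (D₀.1 i).map (Matrix.toLin' (g : Matrix (Fin n) (Fin n) F)) = D₀.1 i}
      mul_mem' := fun {g h} hg hh i => by
        rw [Units.val_mul, Matrix.toLin'_mul, Submodule.map_comp, hh, hg]
      one_mem' := fun i => by simp
      inv_mem' := fun {g} hg i => by
        conv_lhs => rw [← hg i]
        rw [← Submodule.map_comp, ← Matrix.toLin'_mul, ← Units.val_mul, inv_mul_cancel]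
        simp }
  let Φ : GL (Fin n) F → Fin t → Submodule F (Fin n → F) :=
    fun g i => (D₀.1 i).map (Matrix.toLin' (g : Matrix (Fin n) (Fin n) F))
  have hcoset : ∀ g g', Φ g = Φ g' ↔ g⁻¹ * g' ∈ K := by
    intro g g'
    rw [funext_iff]
    refine forall_congr' fun i => ?_
    rw [Units.val_mul, Matrix.toLin'_mul, Submodule.map_comp]
    constructor
    · intro h
      show Submodule.map _ (Φ g' i) = _
      rw [← h]
      show Submodule.map _ ((D₀.1 i).map _) = _
      rw [← Submodule.map_comp, ← Matrix.toLin'_mul, ← Units.val_mul, inv_mul_cancel]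
      simp
    · intro h
      show (D₀.1 i).map _ = (D₀.1 i).map _
      conv_lhs => rw [← h]
      rw [← Submodule.map_comp, ← Submodule.map_comp, ← Matrix.toLin'_mul, ← Matrix.toLin'_mul,
        ← Units.val_mul g g⁻¹, mul_inv_cancel, Units.val_one, one_mul]
  have hrange : Set.range Φ = {D | Cfsg.Geo.IsMDecomposition a D} := by
    ext D
    constructor
    · rintro ⟨g, rfl⟩
      let L : (Fin n → F) ≃ₗ[F] (Fin n → F) :=
        LinearMap.GeneralLinearGroup.generalLinearEquiv _ _ (Matrix.GeneralLinearGroup.toLin g)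
      have hL : ∀ i, Φ g i = (D₀.1 i).map (L : (Fin n → F) →ₗ[F] (Fin n → F)) := fun i => rfl
      refine ⟨ht, ha, fun i => ?_, ?_, ?_⟩
      · rw [hL, LinearEquiv.finrank_map_eq, D₀.2.finrank_eq]
      · exact D₀.2.indep.map_orderIso (Submodule.orderIsoMapComap L)
      · show ⨆ i, Φ g i = ⊤
        simp only [hL, ← Submodule.map_iSup, D₀.2.iSup_eq_top, Submodule.map_top, LinearEquiv.range]
    · intro hD
      obtain ⟨g, hg⟩ := exists_gl_map_decomp D₀.2 hD
      exact ⟨g, funext hg⟩
  have hGL := Forms.card_eq_card_range_mul Φ K hcoset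
  rw [hrange] at hGL
  change Nat.card (GL (Fin n) F) = Nat.card X * Nat.card K at hGL
  refine (Nat.div_dvd_of_dvd ?_).trans ⟨_, hGL⟩
  let R : X → Set (Submodule F (Fin n → F)) := fun D => Set.range D.1
  haveI : Finite X := Subtype.finite
  rw [← Nat.card_congr (Equiv.sigmaFiberEquiv R), Nat.card_sigma]
  refine Finset.dvd_sum fun S _ => ?_
  by_cases hS : Nonempty {D : X // R D = S}
  · obtain ⟨D, hDS⟩ := hS
    refine dvd_of_eq ?_
    rw [← Fintype.card_fin t, ← Fintype.card_perm, ← Nat.card_eq_fintype_card]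
    have hperm : ∀ s : Equiv.Perm (Fin t), Cfsg.Geo.IsMDecomposition a (D.1 ∘ s) := fun s =>
      ⟨ht, ha, fun i => D.2.finrank_eq _, D.2.indep.comp s.injective, by
        rw [← D.2.iSup_eq_top]; exact Equiv.iSup_comp (g := D.1) s⟩
    refine Nat.card_eq_of_bijective
      (fun s => ⟨⟨D.1 ∘ s, hperm s⟩, by rw [← hDS]; exact Set.ext fun U =>
        ⟨fun ⟨i, hi⟩ => ⟨s i, hi⟩, fun ⟨i, hi⟩ => ⟨s.symm i, by simpa using hi⟩⟩⟩) ⟨fun s s' h => ?_, fun D' => ?_⟩
    · have h1 := congrArg (fun E : {E : X // R E = S} => E.1.1) h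
      exact Equiv.ext fun i => PrimeOrder.decomp_injective D.2 (congrFun h1 i)
    · have h1 : ∀ i, ∃ j, D.1 j = D'.1.1 i := fun i => by
        have : D'.1.1 i ∈ R D := by
          have hm : D'.1.1 i ∈ R D'.1 := ⟨i, rfl⟩
          exact (Set.ext_iff.1 (D'.2.trans hDS.symm) _).1 hm
        exact this
      choose f hf using h1
      have hfi : Function.Injective f := fun i j h => PrimeOrder.decomp_injective D'.1.2 (by rw [← hf i, ← hf j, h])
      refine ⟨Equiv.ofBijective f (Finite.injective_iff_bijective.1 hfi), Subtype.ext (Subtype.ext (funext fun i => ?_))⟩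
      exact hf i
  · rw [not_nonempty_iff] at hS
    rw [Nat.card_of_isEmpty]
    exact dvd_zero _

end CfsgLib.Omega
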