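import Cfsg.Agent.Lib.Omega.SympPieces
import Cfsg.Agent.Lib.SemisimpleClasses.Symplectic

/-!
Irreducible factors of the cyclotomic polynomial of prime index `r` when the order of `q` modulo `r` is even: they are
palindromic, each is the characteristic polynomial of a symplectic map, and two pieces with the same factor contain
an invariant totally isotropic subspace.
-/

set_option autoImplicit false

open Module Polynomial

namespace CfsgLib.Omega.SelfDual

open CfsgLib.Omega.SympPieces UniqueFactorizationMonoid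

universe u v

variable {F : Type u} [Field F] [Fintype F] {r : ℕ} [Fact r.Prime]

variable (F r) in
/-- The monic irreducible factors of the cyclotomic polynomial. -/
noncomputable def factors : Finset F[X] :=
  letI := Classical.decEq F
  (normalizedFactors (cyclotomic r F)).toFinset

theorem exists_card_eq (hrq : (Fintype.card F : ZMod r) ≠ 0) :
    ∃ (p f : ℕ), p.Prime ∧ Fintype.card F = p ^ f ∧ p.Coprime r ∧ (r : F) ≠ 0 := by
  obtain ⟨p, hp⟩ := CharP.exists F
  obtain ⟨n, hpp, hn⟩ := FiniteField.card F p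
  have hne : r ≠ p := fun h => hrq (by
    rw [ZMod.natCast_eq_zero_iff, hn, ← h]
    exact dvd_pow_self r n.pos.ne')
  refine ⟨p, n, hpp, hn, (Nat.coprime_primes hpp Fact.out).2 hne.symm, fun h => hne ?_⟩
  exact ((Nat.prime_dvd_prime_iff_eq hpp Fact.out).1 ((CharP.cast_eq_zero_iff F p r).1 h)).symm

/-- The basic properties of a factor. -/
theorem factors_spec (hrq : (Fintype.card F : ZMod r) ≠ 0) {g : F[X]} (hg : g ∈ factors F r) :
    Irreducible g ∧ g.Monic ∧ g ∣ cyclotomic r F ∧ g.natDegree = orderOf (Fintype.card F : ZMod r) ∧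
      g ∣ X ^ r - 1 ∧ g.eval 1 ≠ 0 := by
  classical
  obtain ⟨p, f, hp, hpf, hco, hrF⟩ := exists_card_eq (F := F) hrq
  haveI := Fact.mk hp
  rw [factors, Multiset.mem_toFinset] at hg
  have hirr := irreducible_of_normalized_factor g hg
  have hdvd := dvd_of_mem_normalizedFactors hg
  refine ⟨hirr, ?_, hdvd, ?_, hdvd.trans (Dvd.intro _ (cyclotomic_prime_mul_X_sub_one F r)), fun h => ?_⟩
  · rw [← normalize_normalized_factor g hg]
    exact monic_normalize hirr.ne_zero
  · rw [natDegree_of_dvd_cyclotomic_of_irreducible hpf hco hdvd hirr, ← orderOf_units, ZMod.coe_unitOfCoprime,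
      ← hpf]
  · obtain ⟨k, hk⟩ := hdvd
    have := congrArg (eval (1 : F)) hk
    rw [eval_one_cyclotomic_prime, eval_mul, h, zero_mul] at this
    exact hrF this

/-- The number of factors. -/
theorem card_factors (hrq : (Fintype.card F : ZMod r) ≠ 0) :
    (factors F r).card = (r - 1) / orderOf (Fintype.card F : ZMod r) := by
  classical
  obtain ⟨p, f, hp, hpf, hco, -⟩ := exists_card_eq (F := F) hrq
  haveI := Fact.mk hp
  rw [factors, normalizedFactors_cyclotomic_card hpf hco, Nat.totient_prime Fact.out, ← orderOf_units,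
    ZMod.coe_unitOfCoprime, ← hpf]

theorem cyclotomic_dvd_prod (hrq : (Fintype.card F : ZMod r) ≠ 0) : cyclotomic r F ∣ ∏ g ∈ factors F r, g := by
  classical
  obtain ⟨p, f, hp, hpf, hco, hrF⟩ := exists_card_eq (F := F) hrq
  have hsq : Squarefree (cyclotomic r F) := by
    have h1 : (X ^ r - 1 : F[X]).Separable := by
      simpa using separable_X_pow_sub_C (1 : F) hrF one_ne_zero
    exact h1.squarefree.squarefree_of_dvd (Dvd.intro _ (cyclotomic_prime_mul_X_sub_one F r))
  have hnd := (squarefree_iff_nodup_normalizedFactors (cyclotomic_ne_zero r F)).1 hsq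
  rw [factors, Finset.prod_eq_multiset_prod, Multiset.toFinset_val, Multiset.dedup_eq_self.2 hnd, Multiset.map_id']
  exact (prod_normalizedFactors (cyclotomic_ne_zero r F)).symm.dvd

theorem aeval_frobenius {K : Type*} [CommRing K] [Algebra F K] (x : K) (g : F[X]) (j : ℕ) :
    aeval (x ^ Fintype.card F ^ j) g = (aeval x g) ^ Fintype.card F ^ j := by
  have hexp : ∀ j : ℕ, g ^ (Fintype.card F ^ j) = expand F (Fintype.card F ^ j) g := by
    intro j
    induction j with
    | zero => simp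
    | succ j ih => rw [pow_succ, pow_mul, ih, ← FiniteField.expand_card, expand_expand, mul_comm]
  rw [← map_pow, hexp, expand_aeval]

theorem pow_half (h : Even (orderOf (Fintype.card F : ZMod r))) (hrq : (Fintype.card F : ZMod r) ≠ 0) :
    r ∣ Fintype.card F ^ (orderOf (Fintype.card F : ZMod r) / 2) + 1 := by
  set c := orderOf (Fintype.card F : ZMod r) with hc
  have hc0 : 0 < c := orderOf_pos_iff.2 (isOfFinOrder_iff_pow_eq_one.2
    ⟨r - 1, Nat.sub_pos_of_lt (Fact.out : r.Prime).one_lt, ZMod.pow_card_sub_one_eq_one hrq⟩)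
  obtain ⟨k, hk⟩ := h
  rw [show c / 2 = k by omega, ← ZMod.natCast_eq_zero_iff, Nat.cast_add, Nat.cast_pow, Nat.cast_one]
  have hsq : ((Fintype.card F : ZMod r) ^ k) ^ 2 = 1 := by
    rw [← pow_mul, show k * 2 = c by omega, hc, pow_orderOf_eq_one]
  rcases sq_eq_one_iff.1 hsq with h1 | h1
  · have := Nat.le_of_dvd (by omega) (orderOf_dvd_of_pow_eq_one h1)
    omega
  · rw [h1, neg_add_cancel]

/-- The factors are palindromic. -/
theorem reverse_eq (hrq : (Fintype.card F : ZMod r) ≠ 0) (hev : Even (orderOf (Fintype.card F : ZMod r)))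
    {g : F[X]} (hg : g ∈ factors F r) : g.reverse = g := by
  obtain ⟨hirr, hm, -, -, hdvd, h1⟩ := factors_spec hrq hg
  haveI := Fact.mk hirr
  set ζ := AdjoinRoot.root g with hζ
  have hζr : ζ ^ r = 1 := by
    have := AdjoinRoot.mk_eq_zero.2 hdvd
    rwa [map_sub, map_pow, AdjoinRoot.mk_X, map_one, sub_eq_zero] at this
  set Q := Fintype.card F ^ (orderOf (Fintype.card F : ZMod r) / 2)
  have hinv : ζ ^ Q * ζ = 1 := by
    obtain ⟨k, hk⟩ := pow_half hev hrq
    rw [← pow_succ, hk, pow_mul, hζr, one_pow]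
  have hroot : aeval (ζ ^ Q) g = 0 := by
    rw [aeval_frobenius, AdjoinRoot.aeval_eq, AdjoinRoot.mk_self,
      zero_pow (pow_ne_zero _ Fintype.card_ne_zero)]
  letI : Invertible (ζ ^ Q) := ⟨ζ, by rw [mul_comm]; exact hinv, hinv⟩
  have hrev : g ∣ g.reverse := by
    have := (eval₂_reverse_eq_zero_iff (algebraMap F (AdjoinRoot g)) (ζ ^ Q) g).2 hroot
    rw [show ⅟(ζ ^ Q) = ζ from rfl, ← aeval_def, AdjoinRoot.aeval_eq] at this
    exact AdjoinRoot.mk_eq_zero.1 this
  obtain ⟨k, hk⟩ := hrev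
  have hev1 : g.reverse.eval 1 = g.eval 1 := by
    letI := invertibleOne (α := F)
    have := eval₂_reverse_mul_pow (RingHom.id F) (1 : F) g
    simpa [invOf_one] using this
  have hk0 : k ≠ 0 := fun h => by
    rw [h, mul_zero] at hk
    rw [hk, eval_zero] at hev1
    exact h1 hev1.symm
  have hdeg : k.natDegree = 0 := by
    have h2 := reverse_natDegree_le g
    rw [hk, natDegree_mul hirr.ne_zero hk0] at h2
    omega
  obtain ⟨c, rfl⟩ := natDegree_eq_zero.1 hdeg
  rw [hk, eval_mul, eval_C] at hev1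
  rw [hk, show c = 1 from mul_left_cancel₀ h1 (hev1.trans (mul_one _).symm), map_one, mul_one]

/-- Each factor is realised by a fixed-point-free symplectic map of order `r`. -/
theorem exists_symp_of_factor (hrq : (Fintype.card F : ZMod r) ≠ 0) {e₀ : ℕ}
    (he : orderOf (Fintype.card F : ZMod r) = 2 * e₀) {g : F[X]} (hg : g ∈ factors F r) :
    ∃ X₀ : Module.End F (Fin e₀ ⊕ Fin e₀ → F),
      (∀ u v, Cfsg.sympForm e₀ F (X₀ u) (X₀ v) = Cfsg.sympForm e₀ F u v) ∧ aeval X₀ g = 0 := by
  classical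
  obtain ⟨-, hm, -, hd, -, -⟩ := factors_spec hrq hg
  rw [he] at hd
  obtain ⟨x, hx⟩ := SemisimpleClasses.Symp.exists_sp_charpoly hm hd (fun k hk => by
    have h2 := congrArg (fun f => Polynomial.coeff f k) (reverse_eq hrq (by rw [he]; exact even_two_mul e₀) hg)
    simp only [coeff_reverse, hd, revAt_le hk] at h2
    exact h2.symm)
  refine ⟨Matrix.toLinAlgEquiv' (x : Matrix (Fin e₀ ⊕ Fin e₀) (Fin e₀ ⊕ Fin e₀) F), fun u v => ?_, ?_⟩
  · rw [Matrix.toLinAlgEquiv'_apply, Matrix.toLinAlgEquiv'_apply]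
    exact sympForm_mulVec_of_mem x.2 u v
  · rw [aeval_algEquiv, AlgHom.comp_apply, ← hx, Matrix.aeval_self_charpoly, map_zero]

variable {V : Type v} [AddCommGroup V] [Module F V] [FiniteDimensional F V]

/-- A space bigger than one block, on which a self-dual factor kills an isometry, has an invariant totally
isotropic subspace of the size of one block. -/
theorem exists_iso_of_killed (hrq : (Fintype.card F : ZMod r) ≠ 0)
    (hev : Even (orderOf (Fintype.card F : ZMod r))) {g : F[X]} (hg : g ∈ factors F r)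
    (B : LinearMap.BilinForm F V) (hB : ∀ v, B v v = 0) (Y : Module.End F V)
    (hf : ∀ u v, B (Y u) (Y v) = B u v) (hgY : aeval Y g = 0)
    (hdim : orderOf (Fintype.card F : ZMod r) < finrank F V) :
    ∃ W : Submodule F V, finrank F W = orderOf (Fintype.card F : ZMod r) ∧ (∀ w ∈ W, Y w ∈ W) ∧ IsoOn B W := by
  classical
  obtain ⟨hirr, hm, -, hdeg, hdvd, -⟩ := factors_spec hrq hg
  haveI := Fact.mk hirr
  haveI : Module.Finite F (AdjoinRoot g) := hm.finite_adjoinRoot
  haveI : Finite (AdjoinRoot g) := Module.finite_of_finite F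
  letI : Fintype (AdjoinRoot g) := Fintype.ofFinite _
  set q := Fintype.card F with hq
  set e := orderOf (q : ZMod r) / 2 with he
  set Q := q ^ e with hQ
  have hKdim : finrank F (AdjoinRoot g) = orderOf (q : ZMod r) := by
    rw [(AdjoinRoot.powerBasis hirr.ne_zero).finrank, AdjoinRoot.powerBasis_dim, hdeg]
  have hQQ : Fintype.card (AdjoinRoot g) = Q * Q := by
    rw [Module.card_eq_pow_finrank (K := F) (V := AdjoinRoot g), hKdim, hQ, ← pow_add, he]
    congr 1
    obtain ⟨k, hk⟩ := hev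
    omega
  have hQ2 : ∀ a : AdjoinRoot g, (a ^ Q) ^ Q = a := fun a => by rw [← pow_mul, ← hQQ, FiniteField.pow_card]
  have hneg : ∀ a : AdjoinRoot g, (-a) ^ Q = -(a ^ Q) := fun a => by
    have h1 : ((-1 : F)) ^ Q = -1 := FiniteField.pow_card_pow e (-1)
    have h2 := congrArg (algebraMap F (AdjoinRoot g)) h1
    rw [map_pow, map_neg, map_one] at h2
    rw [neg_pow, h2, neg_one_mul]
  have hr0 : 0 < r := (Fact.out : r.Prime).pos
  have hYr : Y ^ r = 1 := by
    obtain ⟨k, hk⟩ := hdvd
    have := congrArg (aeval Y) hk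
    rw [map_sub, map_pow, aeval_X, map_one, map_mul, hgY, zero_mul, sub_eq_zero] at this
    exact this
  have hadj₀ : ∀ (f : F[X]) (u v : V), B (aeval Y f u) v = B u (aeval (Y ^ (r - 1)) f v) := by
    intro f u v
    induction f using Polynomial.induction_on' with
    | add f g hf hg => simp [hf, hg]
    | monomial i a =>
      simp only [aeval_monomial, Algebra.algebraMap_eq_smul_one, smul_one_mul, LinearMap.smul_apply, map_smul,
        LinearMap.smul_apply, smul_eq_mul]
      congr 1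
      induction i generalizing u v with
      | zero => rfl
      | succ i ih =>
        rw [pow_succ Y, pow_succ' (Y ^ (r - 1)), Module.End.mul_apply, Module.End.mul_apply, ih]
        generalize ((Y ^ (r - 1)) ^ i) v = z
        conv_lhs => rw [show z = (Y ^ r) z by rw [hYr]; rfl, show r = (r - 1) + 1 by omega, pow_succ',
          Module.End.mul_apply, hf]
  have hYQ : Y ^ Q = Y ^ (r - 1) := by
    obtain ⟨k, hk⟩ := pow_half hev hrq
    have hk' : Q = r * k - 1 := by rw [← hk]; rfl
    have hk1 : 1 ≤ k := by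
      rcases k with _ | k
      · omega
      · omega
    obtain ⟨k, rfl⟩ : ∃ j, k = j + 1 := ⟨k - 1, by omega⟩
    rw [hk', Nat.mul_succ, show r * k + r - 1 = r * k + (r - 1) by omega, pow_add, pow_mul, hYr, one_pow, one_mul]
  let φ : AdjoinRoot g →ₐ[F] Module.End F V :=
    Ideal.Quotient.liftₐ (Ideal.span {g}) (aeval Y) (fun a ha => by
      obtain ⟨k, rfl⟩ := Ideal.mem_span_singleton'.1 ha
      rw [map_mul, hgY, mul_zero])
  have hφ : ∀ f : F[X], φ (AdjoinRoot.mk g f) = aeval Y f := fun f => rfl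
  have hadj : ∀ (a : AdjoinRoot g) u v, B (φ a u) v = B u (φ (a ^ Q) v) := by
    intro a u v
    obtain ⟨f, rfl⟩ := AdjoinRoot.mk_surjective a
    rw [← map_pow, hφ, hφ, hadj₀, hQ, ← hYQ, hQ]
    congr 2
    have hexp : ∀ j : ℕ, f ^ (q ^ j) = expand F (q ^ j) f := by
      intro j
      induction j with
      | zero => simp
      | succ j ih => rw [pow_succ, pow_mul, ih, ← FiniteField.expand_card, expand_expand, mul_comm]
    rw [hexp, expand_aeval]
  have hadj' : ∀ (a : AdjoinRoot g) u v, B u (φ a v) = B (φ (a ^ Q) u) v := fun a u v => by rw [hadj, hQ2]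
  -- the functional of a vector
  let fn : V → (AdjoinRoot g →ₗ[F] F) := fun v => (B.flip v) ∘ₗ (LinearMap.applyₗ v) ∘ₗ φ.toLinearMap
  have hfn : ∀ v a, fn v a = B (φ a v) v := fun v a => rfl
  have hskew : ∀ v a, fn v (a ^ Q) = -fn v a := fun v a => by
    rw [hfn, hfn, ← hadj' a v v, alt_skew hB]
  have build : ∀ v, v ≠ 0 → fn v = 0 →
      ∃ W : Submodule F V, finrank F W = orderOf (q : ZMod r) ∧ (∀ w ∈ W, Y w ∈ W) ∧ IsoOn B W := by
    intro v hv h0
    let L : AdjoinRoot g →ₗ[F] V := (LinearMap.applyₗ v) ∘ₗ φ.toLinearMap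
    have hL : ∀ a, L a = φ a v := fun a => rfl
    have hLinj : Function.Injective L := by
      rw [injective_iff_map_eq_zero]
      intro a ha
      by_contra hne
      refine hv ?_
      have : φ (a⁻¹ * a) v = 0 := by rw [map_mul, Module.End.mul_apply, ← hL, ha, map_zero]
      rwa [inv_mul_cancel₀ hne, map_one, Module.End.one_apply] at this
    refine ⟨LinearMap.range L, by rw [LinearMap.finrank_range_of_inj hLinj, hKdim], ?_, ?_⟩
    · rintro _ ⟨a, rfl⟩
      refine ⟨AdjoinRoot.root g * a, ?_⟩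
      rw [hL, hL, map_mul, Module.End.mul_apply, ← AdjoinRoot.mk_X, hφ, aeval_X]
    · rintro _ ⟨a, rfl⟩ _ ⟨b, rfl⟩
      rw [hL, hL, hadj', ← Module.End.mul_apply, ← map_mul, ← hfn, h0, LinearMap.zero_apply]
  have hnt : Nontrivial V := Module.nontrivial_of_finrank_pos (R := F) (by omega)
  obtain ⟨u₁, hu₁⟩ := exists_ne (0 : V)
  by_cases h1 : fn u₁ = 0
  · exact build u₁ hu₁ h1
  obtain ⟨u₂, hu₂m, hu₂⟩ : ∃ w ∈ LinearMap.ker (((LinearMap.lcomp F F ((LinearMap.applyₗ u₁) ∘ₗ φ.toLinearMap)) ∘ₗ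
      B.flip : V →ₗ[F] AdjoinRoot g →ₗ[F] F)), w ≠ 0 := by
    refine Submodule.exists_mem_ne_zero_of_ne_bot fun h => ?_
    have h2 := LinearMap.finrank_range_add_finrank_ker (((LinearMap.lcomp F F ((LinearMap.applyₗ u₁) ∘ₗ
      φ.toLinearMap)) ∘ₗ B.flip : V →ₗ[F] AdjoinRoot g →ₗ[F] F))
    have h3 := Submodule.finrank_le (LinearMap.range (((LinearMap.lcomp F F ((LinearMap.applyₗ u₁) ∘ₗ
      φ.toLinearMap)) ∘ₗ B.flip : V →ₗ[F] AdjoinRoot g →ₗ[F] F)))
    rw [Subspace.dual_finrank_eq, hKdim] at h3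
    rw [h, finrank_bot] at h2
    omega
  have horth : ∀ a, B (φ a u₁) u₂ = 0 := fun a => LinearMap.congr_fun (LinearMap.mem_ker.1 hu₂m) a
  by_cases h2 : fn u₂ = 0
  · exact build u₂ hu₂ h2
  obtain ⟨l₀, hl₀⟩ : ∃ a, fn u₂ a ≠ 0 := by
    by_contra h
    push Not at h
    exact h2 (LinearMap.ext h)
  have hsurj : Function.Surjective ((LinearMap.mul F (AdjoinRoot g)).compr₂ (fn u₂)) := by
    refine (LinearMap.injective_iff_surjective_of_finrank_eq_finrank
      (Subspace.dual_finrank_eq (K := F) (V := AdjoinRoot g)).symm).1 ?_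
    rw [injective_iff_map_eq_zero]
    intro a ha
    by_contra hne
    refine hl₀ ?_
    have h := LinearMap.congr_fun ha (a⁻¹ * l₀)
    simpa [← mul_assoc, mul_inv_cancel₀ hne] using h
  obtain ⟨ν, hν⟩ := hsurj (fn u₁)
  have hν' : ∀ a, fn u₂ (ν * a) = fn u₁ a := fun a => LinearMap.congr_fun hν a
  have hνQ : ν ^ Q = ν := by
    by_contra hne
    refine hl₀ ?_
    have key : ∀ a, fn u₂ (ν ^ Q * a) = fn u₂ (ν * a) := fun a => by
      have e1 := hskew u₂ (ν ^ Q * a)
      rw [mul_pow, hQ2, hν', hskew] at e1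
      rw [hν']
      linear_combination e1
    have h := key ((ν ^ Q - ν)⁻¹ * l₀)
    rw [← sub_eq_zero, ← map_sub, ← sub_mul, mul_inv_cancel_left₀ (sub_ne_zero.2 hne)] at h
    exact h
  by_cases hν0 : ν = 0
  · exact absurd (LinearMap.ext fun a => by rw [← hν', hν0, zero_mul, map_zero]; rfl) h1
  -- solving the norm equation
  obtain ⟨γ, hγ⟩ := IsCyclic.exists_generator (α := (AdjoinRoot g)ˣ)
  have hQ1 : 1 < Q := Nat.one_lt_pow (by
    rw [he]
    obtain ⟨k, hk⟩ := hev
    have : 0 < orderOf (q : ZMod r) := hdeg ▸ hirr.natDegree_pos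
    omega) Fintype.one_lt_card
  have hγo : orderOf γ = (Q - 1) * (Q + 1) := by
    rw [orderOf_eq_card_of_forall_mem_zpowers hγ, Nat.card_eq_fintype_card, Fintype.card_units, hQQ]
    obtain ⟨k, hk⟩ : ∃ k, Q = k + 1 := ⟨Q - 1, by omega⟩
    rw [hk, Nat.add_sub_cancel]
    have : (k + 1) * (k + 1) = k * (k + 1 + 1) + 1 := by ring
    omega
  obtain ⟨k, hk⟩ := (mem_powers_iff_mem_zpowers).2 (hγ (Units.mk0 (-ν) (neg_ne_zero.2 hν0)))
  have hdv : Q + 1 ∣ k := by
    have h3 : (γ ^ k) ^ (Q - 1) = 1 := by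
      have hk' : γ ^ k = Units.mk0 (-ν) (neg_ne_zero.2 hν0) := hk
      refine Units.ext (mul_right_cancel₀ (neg_ne_zero.2 hν0) ?_)
      rw [hk', Units.val_pow_eq_pow_val, Units.val_mk0, Units.val_one, one_mul, ← pow_succ,
        Nat.sub_add_cancel hQ1.le, hneg, hνQ]
    rw [← pow_mul] at h3
    have h4 := orderOf_dvd_of_pow_eq_one h3
    rw [hγo, mul_comm k] at h4
    exact Nat.dvd_of_mul_dvd_mul_left (by omega) h4
  obtain ⟨j, hj⟩ := hdv
  set a : AdjoinRoot g := ((γ ^ j : (AdjoinRoot g)ˣ) : AdjoinRoot g) with hadef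
  have ha : a ^ Q * a = -ν := by
    have hk' : γ ^ k = Units.mk0 (-ν) (neg_ne_zero.2 hν0) := hk
    rw [← pow_succ, hadef, ← Units.val_pow_eq_pow_val, ← pow_mul, mul_comm, ← hj, hk', Units.val_mk0]
  have hcross : ∀ b c, B (φ b u₁) (φ c u₂) = 0 := fun b c => by
    rw [hadj', ← Module.End.mul_apply, ← map_mul]
    exact horth _
  have hcross' : ∀ b c, B (φ c u₂) (φ b u₁) = 0 := fun b c => by rw [alt_skew hB, hcross, neg_zero]
  have hsecond : ∀ c, B (φ (c * a) u₂) (φ a u₂) = fn u₂ (-ν * c) := fun c => by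
    rw [hadj', ← Module.End.mul_apply, ← map_mul, ← hfn, ← mul_assoc, mul_comm (a ^ Q) c, mul_assoc, ha, mul_comm]
  refine build (u₁ + φ a u₂) (fun h => h1 (LinearMap.ext fun c => ?_)) (LinearMap.ext fun c => ?_)
  · have h3 : B (φ c u₁) (u₁ + φ a u₂) = 0 := by rw [h, map_zero]
    rw [map_add, hcross, add_zero] at h3
    exact h3
  · show B (φ c (u₁ + φ a u₂)) (u₁ + φ a u₂) = 0
    have h4 : B (φ c (φ a u₂)) u₁ = 0 := by
      have := hcross' 1 (c * a)
      rwa [map_one, Module.End.one_apply, map_mul, Module.End.mul_apply] at this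
    simp only [map_add, LinearMap.add_apply, hcross, h4, add_zero, zero_add]
    rw [← Module.End.mul_apply (φ c), ← map_mul, hsecond, ← hfn, ← hν', neg_mul, map_neg, add_neg_cancel]

/-- An invariant fixed-point-free subspace of one block size is killed by one of the factors. -/
theorem exists_factor (hrq : (Fintype.card F : ZMod r) ≠ 0) (Y : Module.End F V) (hY : Y ^ r = 1)
    {W : Submodule F V} (hW : ∀ w ∈ W, Y w ∈ W) (hfree : ∀ w ∈ W, Y w = w → w = 0)
    (hdim : finrank F W = orderOf (Fintype.card F : ZMod r)) :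
    ∃ g ∈ factors F r, ∀ w ∈ W, aeval Y g w = 0 := by
  classical
  haveI : Finite V := Module.finite_of_finite F
  by_contra hcon
  push Not at hcon
  have hit : ∀ v, Y^[r] v = v := fun v => by rw [← Module.End.pow_apply, hY]; rfl
  have hinj : ∀ g ∈ factors F r, ∀ w ∈ W, aeval Y g w = 0 → w = 0 := by
    intro g hg w hw h0
    let K : Submodule F V := W ⊓ LinearMap.ker (aeval Y g)
    have hK : ∀ x ∈ K, Y x ∈ K := fun x hx => ⟨hW x hx.1, LinearMap.mem_ker.2 (by
      rw [← Module.End.mul_apply, show aeval Y g * Y = Y * aeval Y g by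
        conv_lhs => arg 2; rw [← aeval_X (R := F) Y]
        conv_rhs => arg 1; rw [← aeval_X (R := F) Y]
        rw [← map_mul, ← map_mul, mul_comm], Module.End.mul_apply, LinearMap.mem_ker.1 hx.2, map_zero])⟩
    by_contra hne
    have hd := PrimeOrder.orderOf_dvd_finrank_of_free hrq Y K hK (fun x _ => hit x) fun x hx => hfree x hx.1
    have hpos : 0 < finrank F K := by
      rw [Module.finrank_pos_iff, Submodule.nontrivial_iff_ne_bot]
      exact fun h => hne (by
        have : w ∈ K := ⟨hw, LinearMap.mem_ker.2 h0⟩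
        rwa [h, Submodule.mem_bot] at this)
    have hKW : K = W := Submodule.eq_of_le_of_finrank_le inf_le_left (hdim ▸ Nat.le_of_dvd hpos hd)
    obtain ⟨x, hx, hx0⟩ := hcon g hg
    rw [← hKW] at hx
    exact hx0 (LinearMap.mem_ker.1 hx.2)
  have hmem : ∀ (f : F[X]), ∀ w ∈ W, aeval Y f w ∈ W := fun f w hw => pow_mem hW f hw
  have hprod : ∀ s : Finset F[X], s ⊆ factors F r → ∀ w ∈ W, aeval Y (∏ g ∈ s, g) w = 0 → w = 0 := by
    intro s
    induction s using Finset.induction_on with
    | empty => intro _ w _ h; simpa using h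
    | @insert g s hgs ih =>
      intro hs w hw h
      rw [Finset.prod_insert hgs, map_mul, Module.End.mul_apply] at h
      exact ih (fun x hx => hs (Finset.mem_insert_of_mem hx)) w hw
        (hinj g (hs (Finset.mem_insert_self g s)) _ (hmem _ w hw) h)
  have hpos : 0 < finrank F W := by
    rw [hdim]
    exact orderOf_pos_iff.2 (isOfFinOrder_iff_pow_eq_one.2
      ⟨r - 1, Nat.sub_pos_of_lt (Fact.out : r.Prime).one_lt, ZMod.pow_card_sub_one_eq_one hrq⟩)
  rw [Module.finrank_pos_iff, Submodule.nontrivial_iff_ne_bot] at hpos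
  obtain ⟨w, hw, hw0⟩ := Submodule.exists_mem_ne_zero_of_ne_bot hpos
  refine hw0 (hprod _ subset_rfl w hw ?_)
  have hΦ : aeval Y (cyclotomic r F) w = 0 := by
    refine hfree _ (hmem _ w hw) (sub_eq_zero.1 ?_)
    have h := congrArg (aeval Y) (cyclotomic_prime_mul_X_sub_one F r)
    rw [mul_comm, map_mul, map_sub, map_sub, map_pow, aeval_X, map_one, hY, sub_self] at h
    exact LinearMap.congr_fun h w
  obtain ⟨k, hk⟩ := cyclotomic_dvd_prod (F := F) hrq
  rw [hk, mul_comm, map_mul, Module.End.mul_apply, hΦ, map_zero]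

end CfsgLib.Omega.SelfDual
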