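import Mathlib
import Cfsg.Prelude.Def_GeometricClasses
import Cfsg.Agent.Lib.Omega.QuadraticField
import Cfsg.Agent.Lib.Omega.ChainMatrix

/-!
The normaliser of a field subalgebra of full degree (a Singer cycle normaliser), and elements of prime order
with a cyclic vector.
-/

set_option autoImplicit false

open scoped Matrix

namespace CfsgLib.Omega

variable {F : Type*} [Field F] {n : ℕ}

/-- Multiplication of a vector by a field subalgebra of full degree is bijective. -/
theorem bijective_field_mulVec {K : Subalgebra F (Matrix (Fin n) (Fin n) F)}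
    (hK : Cfsg.Geo.IsFieldSubalgebra n K) {v : Fin n → F} (hv : v ≠ 0) :
    Function.Bijective (fun k : K => (k : Matrix (Fin n) (Fin n) F) *ᵥ v) := by
  let L : K →ₗ[F] (Fin n → F) :=
    { toFun := fun k => (k : Matrix (Fin n) (Fin n) F) *ᵥ v
      map_add' := fun a b => by simp [Matrix.add_mulVec]
      map_smul' := fun c a => by simp [Matrix.smul_mulVec] }
  have hinj : Function.Injective L := by
    rw [injective_iff_map_eq_zero]
    intro k hk
    by_contra hne
    exact hv (eq_zero_of_field_mulVec hK k.2 (fun h => hne (Subtype.ext h)) hk)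
  have hfr : Module.finrank F K = Module.finrank F (Fin n → F) := by
    rw [hK.finrank_eq, Module.finrank_fin_fun]
  exact ⟨hinj, (LinearMap.injective_iff_surjective_of_finrank_eq_finrank hfr).1 hinj⟩

/-- A field subalgebra of full degree is its own centraliser. -/
theorem mem_of_commute [NeZero n] {K : Subalgebra F (Matrix (Fin n) (Fin n) F)}
    (hK : Cfsg.Geo.IsFieldSubalgebra n K) {g : Matrix (Fin n) (Fin n) F} (h : ∀ k ∈ K, g * k = k * g) : g ∈ K := by
  obtain ⟨v, hv⟩ : ∃ v : Fin n → F, v ≠ 0 := exists_ne 0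
  obtain ⟨k, hk⟩ := (bijective_field_mulVec hK hv).2 (g *ᵥ v)
  dsimp only at hk
  have hgk : g = (k : Matrix (Fin n) (Fin n) F) := by
    refine Matrix.toLin'.injective (LinearMap.ext fun w => ?_)
    obtain ⟨k', rfl⟩ := (bijective_field_mulVec hK hv).2 w
    simp only [Matrix.toLin'_apply, Matrix.mulVec_mulVec]
    rw [h _ k'.2, ← Matrix.mulVec_mulVec, ← hk, Matrix.mulVec_mulVec, hK.comm _ k'.2 _ k.2]
  exact hgk ▸ k.2

/-- An element of the normaliser outside the field, with scalar `n`-th power, has independent powers. -/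
theorem linearIndependent_pow_of_not_mem [NeZero n] (hp : n.Prime) {K : Subalgebra F (Matrix (Fin n) (Fin n) F)}
    (hK : Cfsg.Geo.IsFieldSubalgebra n K) (g : GL (Fin n) F) (hg : g ∈ Cfsg.Geo.subalgebraNormalizer K)
    {z : F} (hgz : ((g : Matrix (Fin n) (Fin n) F)) ^ n = z • 1) (hgK : (g : Matrix (Fin n) (Fin n) F) ∉ K) :
    LinearIndependent F (fun i : Fin n => (g : Matrix (Fin n) (Fin n) F) ^ (i : ℕ)) := by
  classical
  obtain ⟨θ, hθ, hne⟩ : ∃ θ ∈ K, (g : Matrix (Fin n) (Fin n) F) * θ ≠ θ * g := by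
    by_contra h
    push Not at h
    exact hgK (mem_of_commute hK h)
  set G : Matrix (Fin n) (Fin n) F := (g : Matrix (Fin n) (Fin n) F) with hG
  obtain ⟨θs, hθs, hcomm⟩ : ∃ θs : ℕ → Matrix (Fin n) (Fin n) F,
      (∀ i, θs i ∈ K) ∧ ∀ i, G ^ i * θ = θs i * G ^ i := by
    refine ⟨fun i => ((g ^ i : GL (Fin n) F) : Matrix (Fin n) (Fin n) F) * θ *
      (((g ^ i)⁻¹ : GL (Fin n) F) : Matrix (Fin n) (Fin n) F), fun i => ((pow_mem hg i) θ).1 hθ, fun i => ?_⟩
    simp only [hG, ← Units.val_pow_eq_pow_val]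
    rw [Matrix.mul_assoc _ _ ((g ^ i : GL (Fin n) F) : Matrix (Fin n) (Fin n) F), ← Units.val_mul,
      inv_mul_cancel, Units.val_one, Matrix.mul_one]
  have hinj : ∀ i j : Fin n, θs i = θs j → i = j := by
    intro i j hij
    by_contra hne'
    wlog hlt : (i : ℕ) < j generalizing i j
    · exact this j i hij.symm (Ne.symm hne') (by
        have := Fin.val_ne_of_ne hne'; omega)
    set t := (j : ℕ) - i with ht
    have hfix : G ^ t * θ = θ * G ^ t := by
      have e1 : G ^ (i : ℕ) * (G ^ t * θ) = G ^ (i : ℕ) * (θ * G ^ t) := by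
        rw [← Matrix.mul_assoc, ← pow_add, show (i : ℕ) + t = j by omega, hcomm, ← hij,
          ← Matrix.mul_assoc, hcomm, Matrix.mul_assoc, ← pow_add, show (i : ℕ) + t = j by omega]
      exact (g ^ (i : ℕ)).isUnit.mul_left_cancel (by rwa [Units.val_pow_eq_pow_val])
    have hcop : Nat.gcd t n = 1 := by
      refine Nat.coprime_comm.1 (hp.coprime_iff_not_dvd.2 fun hd => ?_)
      have := Nat.le_of_dvd (by omega) hd
      omega
    -- the exponents commuting with θ contain t and n
    have hn' : Commute (G ^ n) θ := by rw [hgz]; exact (Commute.one_left θ).smul_left z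
    obtain ⟨m, hm⟩ := Nat.exists_mul_mod_eq_one_of_coprime hcop hp.one_lt
    have hkey : Commute (G ^ (t * m)) θ := by rw [pow_mul]; exact (Commute.pow_left (hfix) m)
    have hdec : t * m = n * (t * m / n) + 1 := by
      have := Nat.div_add_mod (t * m) n
      omega
    rw [hdec, pow_succ] at hkey
    have hGn : Commute (G ^ (n * (t * m / n))) θ := by rw [pow_mul]; exact hn'.pow_left _
    refine hne ((g ^ (n * (t * m / n))).isUnit.mul_left_cancel ?_)
    rw [Units.val_pow_eq_pow_val, ← hG, ← Matrix.mul_assoc, hkey.eq, ← Matrix.mul_assoc, ← hGn.eq,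
      Matrix.mul_assoc]
  have main : ∀ (S : Finset (Fin n)) (a : Fin n → Matrix (Fin n) (Fin n) F), (∀ i ∈ S, a i ∈ K) →
      ∑ i ∈ S, a i * G ^ (i : ℕ) = 0 → ∀ i ∈ S, a i = 0 := by
    intro S
    induction S using Finset.induction_on with
    | empty => simp
    | insert j S hj ih =>
      intro a ha hsum
      rw [Finset.sum_insert hj] at hsum
      have h2 : ∑ i ∈ S, (a i * (θs i - θs j)) * G ^ (i : ℕ) = 0 := by
        have e1 := congrArg (· * θ) hsum
        have e2 := congrArg (θs j * ·) hsum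
        simp only [Matrix.zero_mul, Matrix.mul_zero, Matrix.add_mul, Matrix.mul_add, Finset.sum_mul,
          Finset.mul_sum] at e1 e2
        rw [Matrix.mul_assoc, hcomm, ← Matrix.mul_assoc, hK.comm _ (ha j (Finset.mem_insert_self _ _)) _ (hθs j),
          Matrix.mul_assoc, ← e2] at e1
        have e3 := add_left_cancel e1
        rw [← sub_eq_zero, ← Finset.sum_sub_distrib] at e3
        rw [← e3]
        refine Finset.sum_congr rfl fun i hi => ?_
        rw [mul_sub, sub_mul, Matrix.mul_assoc (a i) (θs i), ← hcomm i, Matrix.mul_assoc (a i) (G ^ (i : ℕ)),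
          hK.comm _ (ha i (Finset.mem_insert_of_mem hi)) _ (hθs j), Matrix.mul_assoc (θs j)]
      have hS : ∀ i ∈ S, a i = 0 := by
        intro i hi
        have h0 := ih (fun i => a i * (θs i - θs j))
          (fun i hi => mul_mem (ha i (Finset.mem_insert_of_mem hi)) (sub_mem (hθs i) (hθs j))) h2 i hi
        obtain ⟨y, hy, hyy⟩ := hK.inv _ (sub_mem (hθs i) (hθs j))
          (sub_ne_zero.2 fun h => hj ((hinj i j h) ▸ hi))
        rw [← Matrix.mul_one (a i), ← hyy, ← Matrix.mul_assoc, h0, Matrix.zero_mul]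
      intro i hi
      rcases Finset.mem_insert.1 hi with rfl | hi
      · rw [Finset.sum_eq_zero (fun k hk => by rw [hS k hk, Matrix.zero_mul]), add_zero] at hsum
        exact (g ^ (i : ℕ)).isUnit.mul_left_eq_zero.1 (by rwa [Units.val_pow_eq_pow_val])
      · exact hS i hi
  rw [Fintype.linearIndependent_iff]
  intro c hc i
  have := main Finset.univ (fun i => c i • 1) (fun i _ => K.smul_mem (one_mem K) _)
    (by simpa [Matrix.smul_mul] using hc) i (Finset.mem_univ _)
  simpa using congrFun (congrFun this ⟨0, hp.pos⟩) ⟨0, hp.pos⟩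

/-- A non-scalar element with scalar `n`-th power, an eigenvector and dependent powers lies in no conjugate of
the normaliser. -/
theorem not_mem_singer_normalizer [NeZero n] (hp : n.Prime) {K : Subalgebra F (Matrix (Fin n) (Fin n) F)}
    (hK : Cfsg.Geo.IsFieldSubalgebra n K) (x P : GL (Fin n) F) {z : F}
    (hxz : ((x : Matrix (Fin n) (Fin n) F)) ^ n = z • 1)
    (hns : ∀ c : F, (x : Matrix (Fin n) (Fin n) F) ≠ c • 1)
    {s : F} {v : Fin n → F} (hv : v ≠ 0) (hxv : (x : Matrix (Fin n) (Fin n) F) *ᵥ v = s • v)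
    (hdep : ¬ LinearIndependent F (fun i : Fin n => (x : Matrix (Fin n) (Fin n) F) ^ (i : ℕ))) :
    P⁻¹ * x * P ∉ Cfsg.Geo.subalgebraNormalizer K := by
  classical
  intro hmem
  set X : Matrix (Fin n) (Fin n) F := (x : Matrix (Fin n) (Fin n) F) with hX
  set A : Matrix (Fin n) (Fin n) F := (P : Matrix (Fin n) (Fin n) F) with hA
  set B : Matrix (Fin n) (Fin n) F := ((P⁻¹ : GL (Fin n) F) : Matrix (Fin n) (Fin n) F) with hB
  have hAB : A * B = 1 := by rw [hA, hB, ← Units.val_mul, mul_inv_cancel, Units.val_one]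
  have hBA : B * A = 1 := by rw [hA, hB, ← Units.val_mul, inv_mul_cancel, Units.val_one]
  set Y : Matrix (Fin n) (Fin n) F := ((P⁻¹ * x * P : GL (Fin n) F) : Matrix (Fin n) (Fin n) F) with hY
  have hYX : Y = B * X * A := by rw [hY, Units.val_mul, Units.val_mul]
  have hpow : ∀ i, Y ^ i = B * X ^ i * A := by
    intro i
    induction i with
    | zero => rw [pow_zero, pow_zero, Matrix.mul_one, hBA]
    | succ i ih =>
      rw [pow_succ, pow_succ, ih, hYX]
      simp only [← Matrix.mul_assoc]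
      rw [Matrix.mul_assoc (B * X ^ i) A B, hAB, Matrix.mul_one]
  by_cases hYK : Y ∈ K
  · have h0 : (Y - s • 1) *ᵥ (B *ᵥ v) = 0 := by
      rw [Matrix.sub_mulVec, Matrix.smul_mulVec, Matrix.one_mulVec, Matrix.mulVec_mulVec, hYX,
        Matrix.mul_assoc, hAB, Matrix.mul_one, ← Matrix.mulVec_mulVec, hxv, Matrix.mulVec_smul, sub_self]
    have hBv : B *ᵥ v ≠ 0 := fun h => hv (by
      rw [← Matrix.one_mulVec v, ← hAB, ← Matrix.mulVec_mulVec, h, Matrix.mulVec_zero])
    refine hns s ?_
    by_contra hne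
    refine hBv (eq_zero_of_field_mulVec hK (sub_mem hYK (K.smul_mem (one_mem K) s)) (fun h => ?_) h0)
    rw [sub_eq_zero, hYX] at h
    apply hne
    calc X = A * (B * X * A) * B := by
          simp only [← Matrix.mul_assoc, hAB, Matrix.one_mul]; rw [Matrix.mul_assoc, hAB, Matrix.mul_one]
      _ = s • 1 := by rw [h, Matrix.mul_smul, Matrix.mul_one, Matrix.smul_mul, hAB]
  · refine hdep ?_
    have hind := linearIndependent_pow_of_not_mem hp hK _ hmem (z := z) (by
      rw [← hY, hpow, hxz, Matrix.mul_smul, Matrix.mul_one, Matrix.smul_mul, hBA]) hYK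
    rw [Fintype.linearIndependent_iff] at hind ⊢
    intro c hc
    refine hind c ?_
    rw [← hY]
    calc ∑ i, c i • Y ^ (i : ℕ) = B * (∑ i, c i • X ^ (i : ℕ)) * A := by
          simp [hpow, Finset.mul_sum, Finset.sum_mul]
      _ = 0 := by rw [hc, Matrix.mul_zero, Matrix.zero_mul]

/-- The field subalgebra of full degree has a semilinear element of order `n` in its normaliser. -/
theorem exists_frobenius_element [Fintype F] [NeZero n] (hp : n.Prime)
    {K : Subalgebra F (Matrix (Fin n) (Fin n) F)} (hK : Cfsg.Geo.IsFieldSubalgebra n K) :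
    ∃ y : GL (Fin n) F, y ∈ Cfsg.Geo.subalgebraNormalizer K ∧ y ^ n = 1 ∧
      (y : Matrix (Fin n) (Fin n) F) ∉ K := by
  classical
  obtain ⟨v₀, hv₀⟩ : ∃ v : Fin n → F, v ≠ 0 := exists_ne 0
  let L₀ : K →ₗ[F] (Fin n → F) :=
    { toFun := fun k => (k : Matrix (Fin n) (Fin n) F) *ᵥ v₀
      map_add' := fun a b => by simp [Matrix.add_mulVec]
      map_smul' := fun c a => by simp [Matrix.smul_mulVec] }
  have hL₀ : Function.Bijective L₀ := bijective_field_mulVec hK hv₀
  have hfield : IsField K := by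
    refine ⟨⟨0, 1, fun h => one_ne_zero (α := Matrix (Fin n) (Fin n) F) (congrArg Subtype.val h).symm⟩,
      fun a b => Subtype.ext (hK.comm _ a.2 _ b.2), fun {a} ha => ?_⟩
    obtain ⟨y, hy, hay⟩ := hK.inv _ a.2 (fun h => ha (Subtype.ext h))
    exact ⟨⟨y, hy⟩, Subtype.ext hay⟩
  letI : Field K := hfield.toField
  haveI : Finite K := inferInstance
  letI : Fintype K := Fintype.ofFinite _
  have hcard : Fintype.card K = Fintype.card F ^ n := by
    have := Module.card_eq_pow_finrank (K := F) (V := K)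
    rwa [hK.finrank_eq] at this
  let σ : K →ₐ[F] K := FiniteField.frobeniusAlgHom F K
  have hσ : ∀ (i : ℕ) (k : K), (σ^[i]) k = k ^ (Fintype.card F ^ i) := by
    intro i
    induction i with
    | zero => intro k; simp
    | succ i ih =>
      intro k
      rw [Function.iterate_succ_apply', ih]
      simp [σ, ← pow_mul, pow_succ]
  have hσn : ∀ k, (σ^[n]) k = k := fun k => by rw [hσ, ← hcard, FiniteField.pow_card]
  obtain ⟨k₁, hk₁⟩ : ∃ k, σ k ≠ k := by
    by_contra h
    push Not at h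
    have hroots : (Finset.univ : Finset K).card ≤
        (Polynomial.X ^ Fintype.card F - Polynomial.X : Polynomial K).natDegree := by
      refine Polynomial.card_le_degree_of_subset_roots fun k _ => ?_
      have hk := h k
      rw [Polynomial.mem_roots (FiniteField.X_pow_card_sub_X_ne_zero K Fintype.one_lt_card)]
      simp [σ] at hk
      simp [hk]
    rw [Finset.card_univ, hcard, FiniteField.X_pow_card_sub_X_natDegree_eq K Fintype.one_lt_card] at hroots
    have := Nat.pow_lt_pow_right (Fintype.one_lt_card (α := F)) hp.one_lt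
    rw [pow_one] at this
    omega
  let e : K ≃ₗ[F] (Fin n → F) := LinearEquiv.ofBijective L₀ hL₀
  have he : ∀ k k' : K, (k : Matrix (Fin n) (Fin n) F) *ᵥ e k' = e (k * k') := fun k k' => by
    show (k : Matrix (Fin n) (Fin n) F) *ᵥ ((k' : Matrix (Fin n) (Fin n) F) *ᵥ v₀) = _
    rw [Matrix.mulVec_mulVec]
    rfl
  let L : (Fin n → F) →ₗ[F] (Fin n → F) := e.toLinearMap.comp (σ.toLinearMap.comp e.symm.toLinearMap)
  have hLpow : ∀ (i : ℕ) k, (L ^ i) (e k) = e ((σ^[i]) k) := by
    intro i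
    induction i with
    | zero => intro k; simp
    | succ i ih => intro k; rw [pow_succ', Module.End.mul_apply, ih, Function.iterate_succ_apply']; simp [L]
  have hLn : L ^ n = 1 := LinearMap.ext fun v => by
    obtain ⟨k, rfl⟩ := e.surjective v
    rw [hLpow, hσn]; rfl
  set Y : Matrix (Fin n) (Fin n) F := LinearMap.toMatrix' L with hY
  have hYn : Y ^ n = 1 := by
    refine Matrix.toLinAlgEquiv'.injective ?_
    rw [map_pow, map_one]
    show (Matrix.toLin' Y : Module.End F (Fin n → F)) ^ n = 1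
    rw [hY, Matrix.toLin'_toMatrix', hLn]
  obtain ⟨m, hm⟩ : ∃ m, n = m + 1 := ⟨n - 1, by have := hp.pos; omega⟩
  let y : GL (Fin n) F := ⟨Y, Y ^ m, by rw [← pow_succ', ← hm, hYn], by rw [← pow_succ, ← hm, hYn]⟩
  have hy : y ^ n = 1 := Units.ext (by rw [Units.val_pow_eq_pow_val]; exact hYn)
  have hYapp : ∀ k, Y *ᵥ e k = e (σ k) := fun k => by
    rw [hY, ← Matrix.toLin'_apply, Matrix.toLin'_toMatrix']; simp [L]
  have hsemi : ∀ k : K, Y * (k : Matrix (Fin n) (Fin n) F) = (σ k : K).1 * Y := by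
    intro k
    refine Matrix.toLin'.injective (LinearMap.ext fun v => ?_)
    obtain ⟨k', rfl⟩ := e.surjective v
    simp only [Matrix.toLin'_apply, ← Matrix.mulVec_mulVec, he, hYapp, map_mul]
  refine ⟨y, ?_, hy, fun hmem => ?_⟩
  · intro k
    show k ∈ K ↔ Y * k * ((y⁻¹ : GL (Fin n) F) : Matrix (Fin n) (Fin n) F) ∈ K
    have hYi : Y * ((y⁻¹ : GL (Fin n) F) : Matrix (Fin n) (Fin n) F) = 1 := y.mul_inv
    constructor
    · intro hk
      rw [hsemi ⟨k, hk⟩, Matrix.mul_assoc, hYi, Matrix.mul_one]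
      exact SetLike.coe_mem _
    · intro hk
      obtain ⟨k₀, hk₀⟩ := (Finite.injective_iff_surjective.1 σ.toRingHom.injective) ⟨_, hk⟩
      have heq : Y * k = Y * (k₀ : Matrix (Fin n) (Fin n) F) := by
        rw [hsemi, show (σ k₀ : K).1 = _ from congrArg Subtype.val hk₀, Matrix.mul_assoc,
          show ((y⁻¹ : GL (Fin n) F) : Matrix (Fin n) (Fin n) F) * Y = 1 from y.inv_mul, Matrix.mul_one]
      exact (y.isUnit.mul_left_cancel (show (y : Matrix (Fin n) (Fin n) F) * k = y * _ from heq)) ▸ k₀.2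
  · have h1 := hsemi k₁
    have h2 : Y * (k₁ : Matrix (Fin n) (Fin n) F) = (k₁ : Matrix (Fin n) (Fin n) F) * Y := hK.comm _ hmem _ k₁.2
    exact hk₁ (Subtype.ext (y.isUnit.mul_right_cancel (h1.symm.trans h2)))

/-- The matrix of a cyclic shift. -/
def cycleMatrix (n : ℕ) [NeZero n] (K : Type*) [Zero K] [One K] : Matrix (Fin n) (Fin n) K :=
  Matrix.of fun i j => if i = j + 1 then 1 else 0

/-- An element of prime order `n` different from one is the cyclic shift on some basis, when `q` is a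
primitive root modulo `n`. -/
theorem exists_cycle_basis [Fintype F] [NeZero n] (hp : n.Prime) (hord : orderOf (Fintype.card F : ZMod n) = n - 1)
    (hn : 3 ≤ n) (x : GL (Fin n) F) (hx : x ^ n = 1) (hx1 : x ≠ 1) :
    ∃ g : GL (Fin n) F,
      (x : Matrix (Fin n) (Fin n) F) * (g : Matrix (Fin n) (Fin n) F) =
        (g : Matrix (Fin n) (Fin n) F) * cycleMatrix n F := by
  classical
  haveI : Fact n.Prime := ⟨hp⟩
  set X : Matrix (Fin n) (Fin n) F := (x : Matrix (Fin n) (Fin n) F) with hX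
  have hXn : X ^ n = 1 := by rw [hX, ← Units.val_pow_eq_pow_val, hx, Units.val_one]
  set q := Fintype.card F with hq
  have hq0 : (q : ZMod n) ≠ 0 := fun h => by
    rw [h] at hord
    have : orderOf (0 : ZMod n) = 0 := orderOf_eq_zero_iff'.2 fun j hj => by simp [zero_pow hj.ne']
    omega
  have orbit : ∀ W : Submodule F (Fin n → F), (∀ w ∈ W, X *ᵥ w ∈ W) →
      ∃ W₁ : Submodule F (Fin n → F), W₁ ≤ W ∧ (∀ w, w ∈ W₁ ↔ w ∈ W ∧ X *ᵥ w = w) ∧
        n - 1 ∣ Module.finrank F W - Module.finrank F W₁ := by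
    intro W hW
    let W₁ : Submodule F (Fin n → F) := W ⊓ LinearMap.ker (Matrix.toLin' X - LinearMap.id)
    have hmem : ∀ w, w ∈ W₁ ↔ w ∈ W ∧ X *ᵥ w = w := fun w => by
      simp [W₁, sub_eq_zero]
    refine ⟨W₁, inf_le_left, hmem, ?_⟩
    have hpw : ∀ (i : ℕ) (w : Fin n → F), w ∈ W → X ^ i *ᵥ w ∈ W := by
      intro i
      induction i with
      | zero => intro w hw; simpa using hw
      | succ i ih => intro w hw; rw [pow_succ', ← Matrix.mulVec_mulVec]; exact hW _ (ih w hw)
    let σ : Equiv.Perm W :=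
      { toFun := fun w => ⟨X *ᵥ w.1, hW _ w.2⟩
        invFun := fun w => ⟨X ^ (n - 1) *ᵥ w.1, hpw _ _ w.2⟩
        left_inv := fun w => Subtype.ext (by
          show X ^ (n - 1) *ᵥ (X *ᵥ w.1) = w.1
          rw [Matrix.mulVec_mulVec, ← pow_succ, Nat.sub_add_cancel (by omega), hXn, Matrix.one_mulVec])
        right_inv := fun w => Subtype.ext (by
          show X *ᵥ (X ^ (n - 1) *ᵥ w.1) = w.1
          rw [Matrix.mulVec_mulVec, ← pow_succ', Nat.sub_add_cancel (by omega), hXn, Matrix.one_mulVec]) }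
    have hσ : ∀ (i : ℕ) (w : W), ((σ ^ i) w : Fin n → F) = X ^ i *ᵥ w.1 := by
      intro i
      induction i with
      | zero => intro w; simp
      | succ i ih =>
        intro w
        rw [pow_succ', Equiv.Perm.mul_apply, pow_succ', ← Matrix.mulVec_mulVec, ← ih w]
        rfl
    have hσn : σ ^ n ^ 1 = 1 := Equiv.ext fun w => Subtype.ext (by
      rw [pow_one, hσ, hXn, Matrix.one_mulVec]; rfl)
    have hmod := Equiv.Perm.card_compl_support_modEq hσn
    have hfix : σ.supportᶜ.card = Nat.card W₁ := by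
      rw [← Nat.card_eq_finsetCard]
      exact Nat.card_congr
        { toFun := fun w => ⟨w.1.1, (hmem _).2 ⟨w.1.2, congrArg Subtype.val
            (Equiv.Perm.notMem_support.1 (Finset.mem_compl.1 w.2))⟩⟩
          invFun := fun w => ⟨⟨w.1, ((hmem _).1 w.2).1⟩, Finset.mem_compl.2
            (Equiv.Perm.notMem_support.2 (Subtype.ext ((hmem _).1 w.2).2))⟩
          left_inv := fun w => rfl
          right_inv := fun w => rfl }
    have c1 : Fintype.card W₁ = q ^ Module.finrank F W₁ := Module.card_eq_pow_finrank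
    have c2 : Fintype.card W = q ^ Module.finrank F W := Module.card_eq_pow_finrank
    rw [hfix, Nat.card_eq_fintype_card, c1, c2, ← ZMod.natCast_eq_natCast_iff, Nat.cast_pow, Nat.cast_pow] at hmod
    have hle := Submodule.finrank_mono (inf_le_left : W₁ ≤ W)
    rw [← hord]
    refine orderOf_dvd_of_pow_eq_one (mul_left_cancel₀ (pow_ne_zero (Module.finrank F W₁) hq0) ?_)
    rw [← pow_add, Nat.add_sub_cancel' hle, mul_one, hmod]
  have hne : ∃ v, X *ᵥ v ≠ v := by
    by_contra h
    push Not at h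
    exact hx1 (Units.ext (Matrix.toLin'.injective (LinearMap.ext fun w => by simpa [← hX] using h w)))
  -- a vector whose orbit sum is non-zero
  set E : Matrix (Fin n) (Fin n) F := ∑ i : Fin n, X ^ (i : ℕ) with hE
  have hXE : X * E = E := by
    rw [hE, Finset.mul_sum]
    simp only [← pow_succ']
    rw [Fin.sum_univ_eq_sum_range (fun i => X ^ (i + 1)), Fin.sum_univ_eq_sum_range (fun i => X ^ i)]
    refine add_right_cancel (b := X ^ 0) ?_
    rw [← Finset.sum_range_succ' (fun i => X ^ i) n, Finset.sum_range_succ, hXn, pow_zero]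
  have hnF : (n : F) ≠ 0 := by
    intro h
    apply hq0
    have hchar : ringChar F = n :=
      (Nat.prime_dvd_prime_iff_eq (CharP.char_is_prime F (ringChar F)) hp).1 (ringChar.dvd h)
    obtain ⟨a, -, ha⟩ := FiniteField.card F (ringChar F)
    rw [hq, ha, hchar, Nat.cast_pow, ZMod.natCast_self, zero_pow (by exact a.pos.ne')]
  obtain ⟨u, hu0, hu⟩ : ∃ u, u ≠ 0 ∧ X *ᵥ u = u := by
    obtain ⟨W₁, -, hW₁, hd⟩ := orbit ⊤ (fun _ _ => Submodule.mem_top)
    rw [finrank_top, Module.finrank_fin_fun] at hd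
    have hne0 : W₁ ≠ ⊥ := by
      intro h
      rw [h, finrank_bot, Nat.sub_zero] at hd
      have h1 : n - 1 ∣ n - (n - 1) := Nat.dvd_sub hd dvd_rfl
      rw [show n - (n - 1) = 1 by omega, Nat.dvd_one] at h1
      omega
    obtain ⟨u, hu, hu0⟩ := (Submodule.ne_bot_iff _).1 hne0
    exact ⟨u, hu0, ((hW₁ u).1 hu).2⟩
  have hXu : ∀ i : ℕ, X ^ i *ᵥ u = u := by
    intro i
    induction i with
    | zero => simp
    | succ i ih => rw [pow_succ, ← Matrix.mulVec_mulVec, hu, ih]
  have hEu : E *ᵥ u ≠ 0 := by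
    rw [hE, Matrix.sum_mulVec]
    simp only [hXu, Finset.sum_const, Finset.card_univ, Fintype.card_fin]
    rw [← Nat.cast_smul_eq_nsmul F]
    exact smul_ne_zero hnF hu0
  obtain ⟨v, hv, hEv⟩ : ∃ v, X *ᵥ v ≠ v ∧ E *ᵥ v ≠ 0 := by
    obtain ⟨v, hv⟩ := hne
    by_cases hE0 : E *ᵥ v = 0
    · refine ⟨v + u, fun h => hv ?_, by rw [Matrix.mulVec_add, hE0, zero_add]; exact hEu⟩
      rw [Matrix.mulVec_add, hu] at h
      exact add_right_cancel h
    · exact ⟨v, hv, hE0⟩
  -- its orbit is a basis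
  let U : Submodule F (Fin n → F) := Submodule.span F (Set.range fun i : Fin n => X ^ (i : ℕ) *ᵥ v)
  have hgen : ∀ i : ℕ, X ^ i *ᵥ v ∈ U := fun i => by
    rw [← Nat.div_add_mod i n, pow_add, pow_mul, hXn, one_pow, Matrix.one_mul]
    exact Submodule.subset_span ⟨⟨i % n, Nat.mod_lt _ hp.pos⟩, rfl⟩
  have hU : ∀ w ∈ U, X *ᵥ w ∈ U := by
    intro w hw
    induction hw using Submodule.span_induction with
    | mem w hw =>
      obtain ⟨i, rfl⟩ := hw
      rw [Matrix.mulVec_mulVec, ← pow_succ']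
      exact hgen _
    | zero => simp
    | add a b _ _ ha hb => rw [Matrix.mulVec_add]; exact add_mem ha hb
    | smul c a _ ha => rw [Matrix.mulVec_smul]; exact Submodule.smul_mem _ c ha
  obtain ⟨U₁, hU₁le, hU₁, hd⟩ := orbit U hU
  have hvU : v ∈ U := by simpa using hgen 0
  have h1 : Module.finrank F U₁ < Module.finrank F U :=
    Submodule.finrank_lt_finrank_of_lt (lt_of_le_of_ne hU₁le fun h => hv ((hU₁ v).1 (h ▸ hvU)).2)
  have h2 : 0 < Module.finrank F U₁ := by
    refine Submodule.one_le_finrank_iff.2 fun h => hEv ?_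
    have : E *ᵥ v ∈ U₁ := (hU₁ _).2 ⟨by
      rw [hE, Matrix.sum_mulVec]; exact Submodule.sum_mem _ fun i _ => hgen _,
      by rw [Matrix.mulVec_mulVec, hXE]⟩
    rw [h] at this
    simpa using this
  have h3 := Submodule.finrank_le U
  rw [Module.finrank_fin_fun] at h3
  have h4 := Nat.le_of_dvd (by omega) hd
  have htop : U = ⊤ := Submodule.eq_top_of_finrank_eq (by rw [Module.finrank_fin_fun]; omega)
  let b := basisOfTopLeSpanOfCardEqFinrank (fun i : Fin n => X ^ (i : ℕ) *ᵥ v)
    (le_of_eq htop.symm) (by simp)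
  obtain ⟨g, hg⟩ := exists_gl_of_repr X b (Equiv.refl _) (cycleMatrix n F) (fun j => by
    rw [Finset.sum_eq_single (j + 1)]
    · simp only [cycleMatrix, Matrix.of_apply, if_true, one_smul, b, coe_basisOfTopLeSpanOfCardEqFinrank]
      rw [Matrix.mulVec_mulVec, ← pow_succ', Fin.val_add, Fin.val_one', Nat.add_mod_mod]
      conv_lhs => rw [← Nat.div_add_mod ((j : ℕ) + 1) n, pow_add, pow_mul, hXn, one_pow, Matrix.one_mul]
    · intro i _ hi; simp [cycleMatrix, hi]
    · simp)
  exact ⟨g, by simpa using hg⟩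

/-- The centraliser of the cyclic shift has surjective determinant away from the characteristic `n`. -/
theorem exists_cycle_centralizer_det [NeZero n] (hnF : (n : F) ≠ 0) (u : F) :
    ∃ C : Matrix (Fin n) (Fin n) F, C.det = u ∧ cycleMatrix n F * C = C * cycleMatrix n F := by
  classical
  refine ⟨1 + ((u - 1) / (n : F)) • Matrix.vecMulVec (1 : Fin n → F) 1, ?_, ?_⟩
  · rw [← Matrix.smul_vecMulVec, Matrix.vecMulVec_eq Unit, Matrix.det_one_add_replicateCol_mul_replicateRow]
    simp [dotProduct]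
    field_simp
    ring
  · have h1 : cycleMatrix n F *ᵥ (1 : Fin n → F) = 1 := by
      funext i
      simp [cycleMatrix, Matrix.mulVec, dotProduct, ← sub_eq_iff_eq_add]
    have h2 : (1 : Fin n → F) ᵥ* cycleMatrix n F = 1 := by
      funext j
      simp [cycleMatrix, Matrix.vecMul, dotProduct]
    rw [Matrix.mul_add, Matrix.add_mul, Matrix.mul_one, Matrix.one_mul, Matrix.mul_smul, Matrix.smul_mul,
      Matrix.mul_vecMulVec, Matrix.vecMulVec_mul, h1, h2]

/-- Two non-trivial elements of order dividing `n` are conjugate under determinant one when `q` is a primitive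
root modulo `n`. -/
theorem exists_sl_conj_cycle [Fintype F] [NeZero n] (hp : n.Prime)
    (hord : orderOf (Fintype.card F : ZMod n) = n - 1) (hn : 3 ≤ n) (hnF : (n : F) ≠ 0) (x y : GL (Fin n) F)
    (hx : x ^ n = 1) (hx1 : x ≠ 1) (hy : y ^ n = 1) (hy1 : y ≠ 1) :
    ∃ g ∈ Cfsg.Geo.specialLinear (Fin n) F, g⁻¹ * x * g = y := by
  obtain ⟨g, hg⟩ := exists_cycle_basis hp hord hn x hx hx1
  obtain ⟨h, hh⟩ := exists_cycle_basis hp hord hn y hy hy1
  obtain ⟨g', hg', e1⟩ := exists_sl_conj_of_gl hg fun u _ => exists_cycle_centralizer_det hnF u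
  obtain ⟨h', hh', e2⟩ := exists_sl_conj_of_gl hh fun u _ => exists_cycle_centralizer_det hnF u
  refine ⟨g' * h'⁻¹, mul_mem hg' (inv_mem hh'), ?_⟩
  have e : g'⁻¹ * x * g' = h'⁻¹ * y * h' := Units.ext (e1.trans e2.symm)
  calc (g' * h'⁻¹)⁻¹ * x * (g' * h'⁻¹) = h' * (g'⁻¹ * x * g') * h'⁻¹ := by group
    _ = y := by rw [e]; group

end CfsgLib.Omega
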