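import Mathlib
import Cfsg.Prelude.Def_GeometricClasses
import Cfsg.Agent.Lib.Omega.SquareScalar
import Cfsg.Agent.Lib.ClassicalLinear.Card

/-!
Membership in subfield groups and parity of the index for field extensions of odd degree.
-/

set_option autoImplicit false

open scoped Matrix

namespace CfsgLib.Omega

variable {ι : Type} [Fintype ι] [DecidableEq ι] {F : Type*} [Field F]

theorem mem_subfieldSubgroup_one (F₀ : Subfield F) (g : GL ι F) :
    g ∈ Cfsg.Geo.subfieldSubgroup F₀ 1 ↔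
      ∃ (c : F) (M : Matrix ι ι F₀), c ≠ 0 ∧ (g : Matrix ι ι F) = c • M.map F₀.subtype := by
  have h1 : (MulAut.conj (1 : GL ι F)).toMonoidHom = MonoidHom.id _ := by
    ext g; simp
  rw [Cfsg.Geo.subfieldSubgroup, h1, Subgroup.map_id]
  constructor
  · intro h
    obtain ⟨a, ⟨M, rfl⟩, b, hb, rfl⟩ := Subgroup.mem_sup_of_normal_right.1 h
    obtain ⟨c, hc⟩ := (Cfsg.Geo.mem_scalars_iff b).1 hb
    refine ⟨c, (M : Matrix ι ι F₀), c.ne_zero, ?_⟩
    rw [Units.val_mul, hc, Matrix.mul_smul, mul_one]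
    rfl
  · rintro ⟨c, M, hc, hg⟩
    have hM : M.det ≠ 0 := fun h0 => g.det_ne_zero (by
      rw [hg, Matrix.det_smul, ← RingHom.mapMatrix_apply, ← RingHom.map_det, h0, map_zero, mul_zero])
    let b : GL ι F := Units.map (Matrix.scalar ι : F →+* Matrix ι ι F).toMonoidHom (Units.mk0 c hc)
    have hb : b ∈ Cfsg.Geo.scalars ι F := ⟨_, rfl⟩
    refine Subgroup.mem_sup_of_normal_right.2 ⟨_, ⟨Matrix.GeneralLinearGroup.mkOfDetNeZero M hM, rfl⟩, b, hb, ?_⟩
    apply Units.ext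
    rw [Units.val_mul, hg]
    show M.map F₀.subtype * Matrix.scalar ι c = c • M.map F₀.subtype
    rw [Matrix.scalar_apply, ← Matrix.smul_one_eq_diagonal, Matrix.mul_smul, mul_one]

theorem exists_odd_geom_factor {q₀ k m : ℕ} (hq : Odd q₀) (hk : Odd k) :
    ∃ u, Odd u ∧ (q₀ ^ m) ^ k - 1 = (q₀ ^ m - 1) * u := by
  refine ⟨∑ j ∈ Finset.range k, (q₀ ^ m) ^ j, ?_, ?_⟩
  · rw [Finset.odd_sum_iff_odd_card_odd,
      Finset.filter_true_of_mem fun j _ => (hq.pow).pow, Finset.card_range]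
    exact hk
  · have h : 1 ≤ q₀ ^ m := Nat.one_le_pow _ _ hq.pos
    have h1 := geom_sum_mul (((q₀ ^ m : ℕ)) : ℤ) k
    zify [h, Nat.one_le_pow k _ (Nat.lt_of_lt_of_le one_pos h)]
    push_cast at h1 ⊢
    linear_combination (-1 : ℤ) * h1

theorem exists_odd_factor_prod {q₀ k n : ℕ} (hq : Odd q₀) (hk : Odd k) :
    ∃ u, Odd u ∧ ∏ i : Fin n, ((q₀ ^ k) ^ n - (q₀ ^ k) ^ (i : ℕ)) =
      (∏ i : Fin n, (q₀ ^ n - q₀ ^ (i : ℕ))) * u := by
  have h : ∀ i : Fin n, ∃ u, Odd u ∧ (q₀ ^ k) ^ n - (q₀ ^ k) ^ (i : ℕ) = (q₀ ^ n - q₀ ^ (i : ℕ)) * u := by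
    intro i
    obtain ⟨u, hu, he⟩ := exists_odd_geom_factor (q₀ := q₀) (m := n - i) hq hk
    refine ⟨q₀ ^ ((k - 1) * i) * u, (hq.pow).mul hu, ?_⟩
    have hexp : n = (i : ℕ) + (n - i) := by omega
    have e1 : (q₀ ^ k) ^ n - (q₀ ^ k) ^ (i : ℕ) = (q₀ ^ k) ^ (i : ℕ) * ((q₀ ^ (n - i)) ^ k - 1) := by
      rw [show (q₀ ^ k) ^ n = (q₀ ^ k) ^ (i : ℕ) * (q₀ ^ k) ^ (n - i) by rw [← pow_add, ← hexp]]
      rw [Nat.mul_sub, mul_one, ← pow_mul q₀ (n - i) k, mul_comm (n - (i : ℕ)) k, pow_mul]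
    have e2 : q₀ ^ n - q₀ ^ (i : ℕ) = q₀ ^ (i : ℕ) * (q₀ ^ (n - i) - 1) := by
      rw [show q₀ ^ n = q₀ ^ (i : ℕ) * q₀ ^ (n - i) by rw [← pow_add, ← hexp]]
      rw [Nat.mul_sub, mul_one]
    have e3 : (q₀ ^ k) ^ (i : ℕ) = q₀ ^ (i : ℕ) * q₀ ^ ((k - 1) * i) := by
      obtain ⟨j, rfl⟩ : ∃ j, k = j + 1 := ⟨k - 1, (Nat.sub_add_cancel hk.pos).symm⟩
      rw [Nat.add_sub_cancel, ← pow_mul, ← pow_add]; ring_nf
    rw [e1, e2, he, e3]; ring
  choose u hu he using h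
  refine ⟨∏ i, u i, ?_, ?_⟩
  · exact Finset.prod_induction u Odd (fun a b => Odd.mul) odd_one (fun i _ => hu i)
  · rw [← Finset.prod_mul_distrib]; exact Finset.prod_congr rfl fun i _ => he i

/-- For an extension of odd degree of a field of odd order, the group over the subfield has odd index. -/
theorem not_two_dvd_index_subfield [Fintype F] {n : ℕ} [NeZero n] (F₀ : Subfield F) {q₀ k : ℕ}
    (hF₀ : Nat.card F₀ = q₀) (hq : Fintype.card F = q₀ ^ k) (hodd : Odd q₀) (hk : Odd k)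
    (H : Subgroup (Matrix.SpecialLinearGroup (Fin n) F))
    (hH : (Matrix.SpecialLinearGroup.map (F₀.subtype : F₀ →+* F) :
      Matrix.SpecialLinearGroup (Fin n) F₀ →* Matrix.SpecialLinearGroup (Fin n) F).range ≤ H) :
    ¬ 2 ∣ H.index := by
  classical
  intro h2
  haveI : Fintype F₀ := Fintype.ofFinite _
  have hF₀' : Fintype.card F₀ = q₀ := by rw [← Nat.card_eq_fintype_card, hF₀]
  set S₀ := Nat.card (Matrix.SpecialLinearGroup (Fin n) F₀) with hS₀
  have hdvd : S₀ ∣ Nat.card H := by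
    have hinj : Function.Injective (Matrix.SpecialLinearGroup.map (F₀.subtype : F₀ →+* F) :
        Matrix.SpecialLinearGroup (Fin n) F₀ →* Matrix.SpecialLinearGroup (Fin n) F) := by
      intro a b hab
      ext i j
      exact congrFun (congrFun (congrArg Subtype.val hab) i) j
    have := Subgroup.card_dvd_of_le hH
    rwa [← Nat.card_congr (MonoidHom.ofInjective hinj).toEquiv] at this
  obtain ⟨c, hc⟩ : 2 * S₀ ∣ Nat.card (Matrix.SpecialLinearGroup (Fin n) F) := by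
    rw [← H.card_mul_index, mul_comm 2]
    exact Nat.mul_dvd_mul hdvd h2
  have e0 := CfsgLib.ClassicalLinear.card_SL (ι := Fin n) (F := F₀)
  have e1 := CfsgLib.ClassicalLinear.card_SL (ι := Fin n) (F := F)
  rw [hF₀', Fintype.card_fin] at e0
  rw [hq, Fintype.card_fin] at e1
  obtain ⟨u, hu, hprod⟩ := exists_odd_factor_prod (n := n) hodd hk
  obtain ⟨v, hv, hvq⟩ := exists_odd_geom_factor (m := 1) hodd hk
  rw [pow_one] at hvq
  rw [hvq, hc, hprod, ← e0] at e1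
  have hpos : 0 < (q₀ - 1) * S₀ := Nat.mul_pos
    (by
      have := Fintype.one_lt_card (α := F₀)
      omega) Nat.card_pos
  have : 2 * (v * c) = u := Nat.eq_of_mul_eq_mul_left hpos (by
    rw [hS₀] at *; linarith [e1])
  exact (Nat.not_even_iff_odd.2 hu) ⟨v * c, by omega⟩

end CfsgLib.Omega
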