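import Mathlib
import Cfsg.Agent.Lib.Omega.Subfield
import Cfsg.Agent.Lib.Omega.SLConj
import Cfsg.Agent.Lib.SemisimpleClasses.Classes

/-!
Elements of prime order and subgroups of type `GL_n(q₀)` inside `SL_n(q₀ ^ k)`.
-/

set_option autoImplicit false

open Polynomial
open scoped Matrix

namespace CfsgLib.Omega

/-- A polynomial whose coefficients are fixed by the `|F|`-th power map comes from `F`. -/
theorem exists_map_eq_of_frobenius {F K : Type*} [Field F] [Finite F] [Field K] (ψ : F →+* K) (φ : K →+* K)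
    (hφ : ∀ a, φ a = a ^ Nat.card F) (P : K[X]) (h : P.map φ = P) :
    ∃ Q : F[X], Q.map ψ = P := by
  classical
  haveI : Fintype F := Fintype.ofFinite F
  refine (mem_lifts P).1 ((lifts_iff_coeff_lifts P).2 fun m => ?_)
  by_contra hm
  set a := P.coeff m
  have ha : a ^ Fintype.card F = a := by
    rw [← Nat.card_eq_fintype_card, ← hφ, ← coeff_map, h]
  have h1 : 1 < Fintype.card F := Fintype.one_lt_card
  have hne : (X ^ Fintype.card F - X : K[X]) ≠ 0 := FiniteField.X_pow_card_sub_X_ne_zero K h1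
  have hsub : insert a (Finset.univ.image ψ) ⊆ (X ^ Fintype.card F - X : K[X]).roots.toFinset := by
    intro b hb
    rw [Multiset.mem_toFinset, mem_roots hne, IsRoot.def, eval_sub, eval_pow, eval_X, sub_eq_zero]
    rcases Finset.mem_insert.1 hb with rfl | hb
    · exact ha
    · obtain ⟨c, -, rfl⟩ := Finset.mem_image.1 hb
      rw [← map_pow, FiniteField.pow_card]
  have := (Finset.card_le_card hsub).trans ((Multiset.toFinset_card_le _).trans (card_roots' _))
  rw [Finset.card_insert_of_notMem (by simpa using hm), Finset.card_image_of_injective _ ψ.injective,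
    Finset.card_univ, FiniteField.X_pow_card_sub_X_natDegree_eq K h1] at this
  omega

/-- A nonzero element of a finite field killed by `(q - 1) / r` is an `r`-th power. -/
theorem exists_pow_eq_of_pow_div {F : Type*} [Field F] [Fintype F] {r : ℕ} (hr : r ∣ Fintype.card F - 1)
    {z : F} (hz : z ≠ 0) (h : z ^ ((Fintype.card F - 1) / r) = 1) : ∃ w : F, w ^ r = z := by
  classical
  obtain ⟨g, hg⟩ := IsCyclic.exists_generator (α := Fˣ)
  obtain ⟨m, hm⟩ := Subgroup.mem_zpowers_iff.1 (hg (Units.mk0 z hz))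
  have ho : orderOf g = Fintype.card F - 1 := by
    rw [orderOf_eq_card_of_forall_mem_zpowers hg, Nat.card_eq_fintype_card, Fintype.card_units]
  set N := Fintype.card F - 1 with hN
  have hN0 : 0 < N := Nat.sub_pos_of_lt Fintype.one_lt_card
  obtain ⟨s, hs⟩ := hr
  have hr0 : 0 < r := Nat.pos_of_mul_pos_right (hs ▸ hN0)
  rw [hs, Nat.mul_div_cancel_left _ hr0] at h
  have h1 : g ^ (m * (s : ℤ)) = 1 := by
    rw [zpow_mul, hm, zpow_natCast]
    exact Units.ext (by simpa using h)
  rw [← orderOf_dvd_iff_zpow_eq_one, ho, hs, Nat.cast_mul] at h1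
  obtain ⟨t, rfl⟩ := Int.dvd_of_mul_dvd_mul_right
    (Int.natCast_ne_zero.2 (Nat.pos_of_mul_pos_left (hs ▸ hN0)).ne') h1
  refine ⟨((g ^ t : Fˣ) : F), ?_⟩
  rw [← Units.val_pow_eq_pow_val, ← zpow_natCast, ← zpow_mul, mul_comm, hm, Units.val_mk0]

variable {F : Type*} [Field F] {n : ℕ}

theorem exists_algClosure_root {π : F[X]} (hπ : Irreducible π) :
    ∃ a : AlgebraicClosure F, (π.map (algebraMap F (AlgebraicClosure F))).IsRoot a :=
  IsAlgClosed.exists_root _ (by
    rw [degree_map]; exact (degree_pos_of_irreducible hπ).ne')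

/-- The roots of the characteristic polynomial of an `r`-th root of a scalar. -/
theorem pow_eq_of_isRoot_charpoly {K : Type*} [Field K] (ψ : F →+* K) (A : Matrix (Fin n) (Fin n) F)
    {r : ℕ} {z : F} (hA : A ^ r = z • (1 : Matrix (Fin n) (Fin n) F)) {a : K}
    (ha : (A.charpoly.map ψ).IsRoot a) : a ^ r = ψ z := by
  rw [← Matrix.charpoly_map, ← Matrix.mem_spectrum_iff_isRoot_charpoly] at ha
  have h := spectrum.pow_mem_pow (A.map ψ) r ha
  have e : (A.map ψ) ^ r = algebraMap K (Matrix (Fin n) (Fin n) K) (ψ z) := by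
    have : (A.map ψ) ^ r = ψ.mapMatrix (A ^ r) := (map_pow ψ.mapMatrix A r).symm
    rw [this, hA, ← Algebra.algebraMap_eq_smul_one, RingHom.mapMatrix_apply, Matrix.algebraMap_eq_diagonal,
      Matrix.algebraMap_eq_diagonal, Matrix.diagonal_map (map_zero ψ)]
    rfl
  rw [e] at h
  rcases n with - | n
  · exact absurd (Matrix.mem_spectrum_iff_isRoot_charpoly.1 ha) (by simp [Matrix.charpoly])
  · rwa [spectrum.scalar_eq, Set.mem_singleton_iff] at h

/-- An `r`-th root of a scalar which is not an `r`-th power, `r` an odd prime. -/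
theorem exists_degree_of_not_pow (A : Matrix (Fin n) (Fin n) F) (hdet : A.det = 1) {r : ℕ} (hr : r.Prime)
    (hr2 : r ≠ 2) {z : F} (hA : A ^ r = z • (1 : Matrix (Fin n) (Fin n) F)) (hz : ∀ b : F, b ^ r ≠ z) :
    ∃ m, n = r * m ∧ z ^ m = 1 := by
  classical
  set P : F[X] := X ^ r - C z with hP
  have hPi : Irreducible P := X_pow_sub_C_irreducible_of_prime hr hz
  have hPm : P.Monic := monic_X_pow_sub_C z hr.ne_zero
  have hfac : ∀ π : F[X], π.Monic → Irreducible π → π ∣ A.charpoly → π = P := by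
    intro π hm hi hd
    obtain ⟨a, ha⟩ := exists_algClosure_root hi
    set ψ := algebraMap F (AlgebraicClosure F)
    have h := pow_eq_of_isRoot_charpoly ψ A hA (ha.dvd (Polynomial.map_dvd ψ hd))
    have h1 : π = minpoly F a := minpoly.eq_of_irreducible_of_monic hi
      (by rw [aeval_def, eval₂_eq_eval_map]; exact ha) hm
    have h2 : P = minpoly F a := minpoly.eq_of_irreducible_of_monic hPi (by simp [hP, h, ψ]) hPm
    exact h1.trans h2.symm
  have key : ∀ χ : F[X], χ.Monic → χ ∣ A.charpoly → ∃ m, χ = P ^ m := by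
    intro χ
    induction hd : χ.natDegree using Nat.strong_induction_on generalizing χ with
    | _ d ih =>
      intro hm hdvd
      by_cases hu : IsUnit χ
      · exact ⟨0, by rw [pow_zero, hm.eq_one_of_isUnit hu]⟩
      obtain ⟨π, hπ, hπd⟩ := WfDvdMonoid.exists_irreducible_factor hu hm.ne_zero
      have h1 := hfac (normalize π) (monic_normalize hπ.ne_zero)
        ((normalize_associated π).irreducible_iff.2 hπ) ((normalize_dvd_iff.2 hπd).trans hdvd)
      obtain ⟨c, rfl⟩ : P ∣ χ := h1 ▸ normalize_dvd_iff.2 hπd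
      have hcm : c.Monic := hPm.of_mul_monic_left hm
      obtain ⟨m, rfl⟩ := ih c.natDegree (by
        rw [← hd, hPm.natDegree_mul hcm]
        have := hPi.natDegree_pos
        omega) c rfl hcm ((dvd_mul_left _ _).trans hdvd)
      exact ⟨m + 1, (pow_succ' P m).symm⟩
  obtain ⟨m, hm⟩ := key _ (Matrix.charpoly_monic A) dvd_rfl
  have hn : n = r * m := by
    have := congrArg natDegree hm
    rwa [Matrix.charpoly_natDegree_eq_dim, Fintype.card_fin, natDegree_pow, hP, natDegree_X_pow_sub_C,
      mul_comm] at this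
  refine ⟨m, hn, ?_⟩
  have hd := Matrix.det_eq_sign_charpoly_coeff A
  rw [hdet, hm, coeff_zero_eq_eval_zero, eval_pow, hP, Fintype.card_fin, hn] at hd
  simp only [eval_sub, eval_pow, eval_X, eval_C, zero_pow hr.ne_zero, zero_sub] at hd
  rw [pow_mul, (hr.odd_of_ne_two hr2).neg_one_pow, ← mul_pow, neg_mul_neg, one_mul] at hd
  exact hd.symm

variable [Finite F] (p : ℕ) [Fact p.Prime] [CharP F p]

/-- An element whose characteristic polynomial is, up to a scalar, defined over `F₀` is conjugate into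
the subfield group. -/
theorem exists_sl_conj_subfield (F₀ : Subfield F) (x : Matrix.SpecialLinearGroup (Fin n) F)
    (hx : (orderOf x).Coprime p) {c : F} (hc : c ≠ 0) (χ₀ : F₀[X])
    (hχ : (c⁻¹ • (x : Matrix (Fin n) (Fin n) F)).charpoly = χ₀.map F₀.subtype) :
    ∃ P : Matrix.SpecialLinearGroup (Fin n) F, P⁻¹ * x * P ∈
      (Cfsg.Geo.subfieldSubgroup F₀ 1).comap
        (Matrix.SpecialLinearGroup.toGL : Matrix.SpecialLinearGroup (Fin n) F →* GL (Fin n) F) := by
  classical
  haveI : Fintype F := Fintype.ofFinite F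
  haveI : CharP F₀ p :=
    (RingHom.charP_iff F₀.subtype F₀.subtype.injective p).2 inferInstance
  have hm : χ₀.Monic := monic_of_injective F₀.subtype.injective (hχ ▸ Matrix.charpoly_monic _)
  have hdeg : χ₀.natDegree = n := by
    have := congrArg natDegree hχ
    rwa [Matrix.charpoly_natDegree_eq_dim, Fintype.card_fin, natDegree_map_eq_of_injective
      F₀.subtype.injective, eq_comm] at this
  have h0 : χ₀.coeff 0 ≠ 0 := fun h => by
    have hd := Matrix.det_eq_sign_charpoly_coeff (c⁻¹ • (x : Matrix (Fin n) (Fin n) F))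
    rw [hχ, coeff_map, h, map_zero, mul_zero, Matrix.det_smul, x.det_coe, mul_one] at hd
    exact pow_ne_zero _ (inv_ne_zero hc) hd
  obtain ⟨ι, _, _, M, N, hM, hN, hN0, hMN⟩ := CfsgLib.SemisimpleClasses.isGood_of_monic p χ₀ hm h0
  have hcard : Fintype.card ι = n := by
    rw [← Matrix.charpoly_natDegree_eq_dim M, hM, hdeg]
  let e : ι ≃ Fin n := Fintype.equivFinOfCardEq hcard
  set M₀ : Matrix (Fin n) (Fin n) F₀ := Matrix.reindexAlgEquiv F₀ F₀ e M with hM₀
  have hM₀c : M₀.charpoly = χ₀ := by
    rw [hM₀, Matrix.reindexAlgEquiv_apply, Matrix.charpoly_reindex, hM]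
  have hM₀N : M₀ ^ N = 1 := by rw [hM₀, ← map_pow, hMN, map_one]
  -- scale the characteristic polynomials
  have hchar : (c • M₀.map F₀.subtype).charpoly = (x : Matrix (Fin n) (Fin n) F).charpoly := by
    have hs : ∀ A B : Matrix (Fin n) (Fin n) F, A.charpoly = B.charpoly →
        (c • A).charpoly = (c • B).charpoly := by
      intro A B hAB
      let K := AlgebraicClosure F
      let ψ := algebraMap F K
      apply map_injective ψ ψ.injective
      apply Polynomial.funext
      intro t
      have hψ : ψ c ≠ 0 := (map_ne_zero ψ).2 hc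
      have key : ∀ C' : Matrix (Fin n) (Fin n) F,
          eval t ((c • C').charpoly.map ψ) = ψ c ^ n * eval ((ψ c)⁻¹ * t) (C'.charpoly.map ψ) := by
        intro C'
        rw [← Matrix.charpoly_map, ← Matrix.charpoly_map, Matrix.eval_charpoly, Matrix.eval_charpoly]
        conv_rhs => rw [show ψ c ^ n = ψ c ^ Fintype.card (Fin n) by rw [Fintype.card_fin],
          ← Matrix.det_smul]
        congr 1
        ext i j
        simp only [Matrix.scalar_apply, Matrix.sub_apply, Matrix.smul_apply, Matrix.map_apply,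
          Matrix.diagonal_apply, smul_eq_mul, map_mul]
        split_ifs with h
        · rw [Matrix.diagonal_mul_diagonal, Matrix.diagonal_apply, if_pos h]
          rw [mul_sub, ← mul_assoc, mul_inv_cancel₀ hψ, one_mul]
        · rw [Matrix.diagonal_mul_diagonal, Matrix.diagonal_apply, if_neg h]
          ring
      rw [key, key, hAB]
    rw [hs _ (c⁻¹ • (x : Matrix (Fin n) (Fin n) F)) (by rw [Matrix.charpoly_map, hM₀c, hχ]),
      smul_smul, mul_inv_cancel₀ hc, one_smul]
  have hdet : (c • M₀.map F₀.subtype).det = 1 := by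
    rw [Matrix.det_eq_sign_charpoly_coeff, hchar, ← Matrix.det_eq_sign_charpoly_coeff, x.det_coe]
  let y : Matrix.SpecialLinearGroup (Fin n) F := ⟨c • M₀.map F₀.subtype, hdet⟩
  have hy : y ^ (N * (Fintype.card F - 1)) = 1 := by
    apply Subtype.ext
    rw [Matrix.SpecialLinearGroup.coe_pow, Matrix.SpecialLinearGroup.coe_one]
    show (c • M₀.map F₀.subtype) ^ _ = _
    rw [_root_.smul_pow, mul_comm, pow_mul c, FiniteField.pow_card_sub_one_eq_one c hc, one_pow, one_smul,
      mul_comm, pow_mul, show (M₀.map F₀.subtype) ^ N = F₀.subtype.mapMatrix (M₀ ^ N) from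
        (map_pow F₀.subtype.mapMatrix M₀ N).symm, hM₀N, map_one, one_pow]
  have hyo : (orderOf y).Coprime p := by
    refine Nat.Coprime.coprime_dvd_left (orderOf_dvd_of_pow_eq_one hy) (hN.mul_left ?_)
    obtain ⟨⟨a, ha⟩, hp, hcq⟩ := FiniteField.card F p
    refine Nat.Coprime.symm ((hp.coprime_iff_not_dvd).2 fun hd => ?_)
    have h1 : p ∣ Fintype.card F := hcq ▸ dvd_pow_self p (by simp only [PNat.mk_coe]; omega)
    have h2 : 1 ≤ Fintype.card F := Fintype.card_pos
    have h3 := Nat.dvd_sub h1 hd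
    rw [show Fintype.card F - (Fintype.card F - 1) = 1 by omega] at h3
    exact hp.ne_one (Nat.dvd_one.1 h3)
  obtain ⟨g, hg⟩ := isConj_iff.1 (CfsgLib.SemisimpleClasses.isConj_SL p x y hx hyo hchar.symm)
  refine ⟨g⁻¹, ?_⟩
  rw [inv_inv, hg, Subgroup.mem_comap, mem_subfieldSubgroup_one]
  exact ⟨c, M₀, hc, rfl⟩

end CfsgLib.Omega
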