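import Cfsg.Agent.Lib.Omega.SympPieces

/-!
A unipotent isometry of an alternating form splits the space into orthogonal invariant non-degenerate pieces,
each spanned by one or two cyclic families of the same length.
-/

set_option autoImplicit false

open Module

namespace CfsgLib.Omega.SympCyclic

open CfsgLib.Omega.SympPieces

universe u v

variable {F : Type u} [Field F] {V : Type v} [AddCommGroup V] [Module F V] [FiniteDimensional F V]
variable {B : LinearMap.BilinForm F V} {x : Module.End F V}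

omit [FiniteDimensional F V] in
/-- Isometries of non-degenerate forms are bijective. -/
theorem injective_of_isometry (hnd : ∀ v, (∀ w, B v w = 0) → v = 0) (hx : ∀ u v, B (x u) (x v) = B u v) :
    Function.Injective x :=
  (injective_iff_map_eq_zero x).2 fun v hv => hnd v fun w => by rw [← hx, hv, map_zero, LinearMap.zero_apply]

/-- The orthogonal complement inside an invariant subspace of an invariant non-degenerate subspace. -/
theorem exists_orth (hB : ∀ v, B v v = 0) (hnd : ∀ v, (∀ w, B v w = 0) → v = 0)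
    (hx : ∀ u v, B (x u) (x v) = B u v) {D W : Submodule F V} (hWD : W ≤ D) (hD : ∀ v ∈ D, x v ∈ D)
    (hDn : NondegOn B D) (hW : ∀ v ∈ W, x v ∈ W) (hWn : NondegOn B W) :
    ∃ C ≤ D, (∀ v ∈ C, x v ∈ C) ∧ NondegOn B C ∧ (∀ w ∈ W, ∀ c ∈ C, B w c = 0 ∧ B c w = 0) ∧
      W ⊔ C = D ∧ W ⊓ C = ⊥ ∧ finrank F W + finrank F C = finrank F D := by
  let P : V →ₗ[F] (W →ₗ[F] F) := (LinearMap.lcomp F F W.subtype) ∘ₗ B.flip
  let C := D ⊓ LinearMap.ker P
  have hC : ∀ v, v ∈ C ↔ v ∈ D ∧ ∀ w ∈ W, B w v = 0 := fun v => by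
    refine and_congr_right fun _ => LinearMap.mem_ker.trans ⟨fun h w hw => LinearMap.congr_fun h ⟨w, hw⟩,
      fun h => LinearMap.ext fun u => h u u.2⟩
  have hsurj : ∀ v : V, ∃ w ∈ W, P w = P v := by
    have hb : Function.Surjective (P ∘ₗ W.subtype) := by
      refine (LinearMap.injective_iff_surjective_of_finrank_eq_finrank
        (Subspace.dual_finrank_eq (K := F) (V := W)).symm).1 ?_
      rw [injective_iff_map_eq_zero]
      intro w hw
      refine Subtype.ext (hWn w w.2 fun y hy => ?_)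
      have : B y w = 0 := LinearMap.congr_fun hw ⟨y, hy⟩
      rw [alt_skew hB, this, neg_zero]
    intro v
    obtain ⟨w, hw⟩ := hb (P v)
    exact ⟨w, w.2, hw⟩
  have hsup : W ⊔ C = D := by
    refine le_antisymm (sup_le hWD inf_le_left) fun v hv => ?_
    obtain ⟨w, hw, hwv⟩ := hsurj v
    rw [← add_sub_cancel w v]
    exact Submodule.add_mem_sup hw ⟨sub_mem hv (hWD hw), LinearMap.mem_ker.2 (by rw [map_sub, hwv, sub_self])⟩
  have hinf : W ⊓ C = ⊥ := by
    rw [Submodule.eq_bot_iff]
    rintro v ⟨hv, hvC⟩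
    exact hWn v hv fun y hy => by rw [alt_skew hB, ((hC v).1 hvC).2 y hy, neg_zero]
  have horth : ∀ w ∈ W, ∀ c ∈ C, B w c = 0 ∧ B c w = 0 := fun w hw c hc =>
    ⟨((hC c).1 hc).2 w hw, by rw [alt_skew hB, ((hC c).1 hc).2 w hw, neg_zero]⟩
  refine ⟨C, inf_le_left, fun v hv => (hC _).2 ⟨hD v ((hC v).1 hv).1, fun w hw => ?_⟩, fun v hv hall => ?_, horth,
    hsup, hinf, by
      have := Submodule.finrank_sup_add_finrank_inf_eq W C
      rw [hsup, hinf, finrank_bot, add_zero] at this
      exact this.symm⟩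
  · have hinj : Function.Injective (x.restrict hW) := fun a b hab =>
      Subtype.ext (injective_of_isometry hnd hx (congrArg Subtype.val hab))
    obtain ⟨w', hw'⟩ := (LinearMap.injective_iff_surjective.1 hinj) ⟨w, hw⟩
    rw [show w = x w' from (congrArg Subtype.val hw').symm, hx]
    exact ((hC v).1 hv).2 w' w'.2
  · refine hDn v ((hC v).1 hv).1 fun y hy => ?_
    rw [← hsup] at hy
    obtain ⟨w, hw, c, hc, rfl⟩ := Submodule.mem_sup.1 hy
    rw [map_add, (horth w hw v hv).2, hall c hc, add_zero]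

/-- A cyclic piece. -/
theorem exists_cyclic_piece (hB : ∀ v, B v v = 0)
    (hx : ∀ u v, B (x u) (x v) = B u v) {D : Submodule F V} (hD : ∀ v ∈ D, x v ∈ D) (hDn : NondegOn B D)
    (hD0 : D ≠ ⊥) {p : ℕ} (hp : (x - 1) ^ p = 0) :
    ∃ (W : Submodule F V) (k s : ℕ), W ≤ D ∧ (∀ v ∈ W, x v ∈ W) ∧ NondegOn B W ∧ finrank F W = k * s ∧ 0 < k ∧
      k ≤ p ∧ (s = 1 ∨ s = 2) ∧ Even (k * s) ∧ ((2 : F) ≠ 0 → Even k → s = 1) := by
  classical
  set N : Module.End F V := x - 1 with hN
  have hNx : ∀ v, x v = v + N v := fun v => by rw [hN, LinearMap.sub_apply, Module.End.one_apply]; abel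
  have hid : ∀ a b, B a (N b) = -B (N a) (x b) := fun a b => by
    rw [hN, LinearMap.sub_apply, LinearMap.sub_apply, Module.End.one_apply, Module.End.one_apply, map_sub, map_sub,
      LinearMap.sub_apply, hx]
    ring
  have hDN : ∀ i, ∀ v ∈ D, (N ^ i) v ∈ D := by
    intro i
    induction i with
    | zero => intro v hv; exact hv
    | succ i ih =>
      intro v hv
      rw [pow_succ', Module.End.mul_apply, hN, LinearMap.sub_apply, Module.End.one_apply]
      exact sub_mem (hD _ (ih v hv)) (ih v hv)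
  have hex : ∃ k, ∀ v ∈ D, (N ^ k) v = 0 := ⟨p, fun v _ => by rw [hp]; rfl⟩
  obtain ⟨k, hk, hmin⟩ : ∃ k, (∀ v ∈ D, (N ^ k) v = 0) ∧ ∀ j < k, ¬ ∀ v ∈ D, (N ^ j) v = 0 :=
    ⟨Nat.find hex, Nat.find_spec hex, fun j hj => Nat.find_min hex hj⟩
  have hkp : k ≤ p := by
    by_contra h
    exact hmin p (Nat.lt_of_not_le h) fun v _ => by rw [hp]; rfl
  obtain ⟨j, rfl⟩ : ∃ j, k = j + 1 := by
    rcases k with _ | j
    · exact absurd ((Submodule.eq_bot_iff _).2 fun v hv => by simpa using hk v hv) hD0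
    · exact ⟨j, rfl⟩
  let β : LinearMap.BilinForm F V := B ∘ₗ (N ^ j)
  have hβ : ∀ u v, β u v = B ((N ^ j) u) v := fun u v => rfl
  have hker : ∀ u ∈ D, ∀ b, B ((N ^ j) u) (N b) = 0 := fun u hu b => by
    rw [hid, ← Module.End.mul_apply, ← pow_succ', hk u hu, map_zero, LinearMap.zero_apply, neg_zero]
  have hshift : ∀ u ∈ D, ∀ i v, β u ((x ^ i) v) = β u v := by
    intro u hu i
    induction i with
    | zero => intro v; rfl
    | succ i ih =>
      intro v
      rw [pow_succ', Module.End.mul_apply, hNx, map_add, ih, hβ u (N _), hker u hu, add_zero]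
  have hmove : ∀ l u v, B u ((N ^ l) v) = (-1) ^ l * B ((N ^ l) u) ((x ^ l) v) := by
    intro l
    induction l with
    | zero => intro u v; simp
    | succ l ih =>
      intro u v
      have hc : Commute N x := by rw [hN]; exact (Commute.refl x).sub_left (Commute.one_left x)
      rw [pow_succ' N, Module.End.mul_apply, hid u, ← Module.End.mul_apply x, ← (hc.pow_left l).eq,
        Module.End.mul_apply, ih, ← Module.End.mul_apply (x ^ l), ← pow_succ, ← Module.End.mul_apply (N ^ l),
        ← pow_succ, Module.End.mul_apply N, ← Module.End.mul_apply N, ← pow_succ', pow_succ (-1 : F)]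
      ring
  have hpair : ∀ u ∈ D, ∀ v, ∀ i l, B ((N ^ i) u) ((N ^ l) v) =
      if i + l = j then (-1) ^ l * β u v else if j < i + l then 0 else B ((N ^ i) u) ((N ^ l) v) := by
    intro u hu v i l
    split_ifs with h1 h2
    · rw [hmove, ← Module.End.mul_apply (N ^ l), ← pow_add, add_comm, h1, ← hβ, hshift u hu]
    · rw [hmove, ← Module.End.mul_apply (N ^ l), ← pow_add,
        show l + i = (l + i - (j + 1)) + (j + 1) by omega, pow_add, Module.End.mul_apply, hk u hu, map_zero,
        map_zero, LinearMap.zero_apply, mul_zero]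
    · rfl
  have hsymm : ∀ u ∈ D, ∀ v ∈ D, β v u = (-1) ^ (j + 1) * β u v := by
    intro u hu v hv
    have h := hpair u hu v 0 j
    rw [if_pos (zero_add j), pow_zero, Module.End.one_apply] at h
    rw [hβ v u, alt_skew hB, h, pow_succ]
    ring
  obtain ⟨u₀, hu₀, v₀, hv₀, hne⟩ : ∃ u ∈ D, ∃ v ∈ D, β u v ≠ 0 := by
    obtain ⟨u, hu, hu'⟩ : ∃ u ∈ D, (N ^ j) u ≠ 0 := by
      by_contra h
      push Not at h
      exact hmin j (Nat.lt_succ_self j) h
    by_contra h
    push Not at h
    exact hu' (hDn _ (hDN j u hu) fun y hy => h u hu y hy)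
  obtain ⟨s, u, hs, huD, hG, hs2⟩ : ∃ (s : ℕ) (u : Fin s → V), (s = 1 ∨ s = 2) ∧ (∀ a, u a ∈ D) ∧
      (∀ c : Fin s → F, (∀ b, ∑ a, c a * β (u a) (u b) = 0) → c = 0) ∧
      ((2 : F) ≠ 0 → Even (j + 1) → s = 1) := by
    by_cases h : ∃ w ∈ D, β w w ≠ 0
    · obtain ⟨w, hw, hw0⟩ := h
      refine ⟨1, fun _ => w, Or.inl rfl, fun _ => hw, fun c hc => funext fun a => ?_, fun _ _ => rfl⟩
      have h0 := hc a
      rw [Fin.sum_univ_one, mul_eq_zero] at h0
      rw [Fin.fin_one_eq_zero a]
      exact h0.resolve_right hw0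
    · push Not at h
      have hne' : β v₀ u₀ ≠ 0 := by
        rw [hsymm u₀ hu₀ v₀ hv₀]
        exact mul_ne_zero (pow_ne_zero _ (neg_ne_zero.2 one_ne_zero)) hne
      refine ⟨2, ![u₀, v₀], Or.inr rfl, fun a => by fin_cases a <;> assumption, fun c hc => ?_, fun h2 hev => ?_⟩
      · have h0 := hc 0
        have h1 := hc 1
        simp only [Fin.sum_univ_two, Matrix.cons_val_zero, Matrix.cons_val_one, h u₀ hu₀, h v₀ hv₀, mul_zero,
          zero_add, add_zero, mul_eq_zero] at h0 h1
        funext a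
        fin_cases a
        · exact h1.resolve_right hne
        · exact h0.resolve_right hne'
      · have h3 := h (u₀ + v₀) (add_mem hu₀ hv₀)
        simp only [map_add, LinearMap.add_apply, h u₀ hu₀, h v₀ hv₀, hsymm u₀ hu₀ v₀ hv₀, hev.neg_one_pow, one_mul,
          zero_add, add_zero] at h3
        exact absurd ((mul_eq_zero.1 (show (2 : F) * β u₀ v₀ = 0 by linear_combination h3)).resolve_left h2) hne
  let g : Fin (j + 1) × Fin s → V := fun q => (N ^ (q.1 : ℕ)) (u q.2)
  let W := Submodule.span F (Set.range g)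
  have hgW : ∀ q, g q ∈ W := fun q => Submodule.subset_span ⟨q, rfl⟩
  have key : ∀ c : Fin (j + 1) × Fin s → F, (∀ y ∈ W, B (∑ q, c q • g q) y = 0) → c = 0 := by
    intro c hc
    suffices ∀ i : ℕ, ∀ a (hi : i < j + 1), c (⟨i, hi⟩, a) = 0 from funext fun q => this q.1 q.2 q.1.2
    intro i
    induction i using Nat.strong_induction_on with
    | _ i ih =>
      intro a hi
      refine congrFun (hG (fun a => c (⟨i, hi⟩, a)) fun b => ?_) a
      have h := hc _ (hgW (⟨j - i, by omega⟩, b))
      rw [map_sum, LinearMap.sum_apply, Fintype.sum_prod_type, Finset.sum_eq_single (⟨i, hi⟩ : Fin (j + 1))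
        (fun i' _ hne' => Finset.sum_eq_zero fun a' _ => ?_) (fun h' => absurd (Finset.mem_univ _) h')] at h
      · simp only [g, map_smul, LinearMap.smul_apply, smul_eq_mul] at h
        rw [Finset.sum_congr rfl (fun a' _ => congrArg (c (⟨i, hi⟩, a') * ·)
          ((hpair _ (huD a') (u b) i (j - i)).trans (if_pos (by omega))))] at h
        rw [Finset.sum_congr rfl (fun a' _ => show c (⟨i, hi⟩, a') * ((-1) ^ (j - i) * β (u a') (u b)) =
          (-1) ^ (j - i) * (c (⟨i, hi⟩, a') * β (u a') (u b)) by ring), ← Finset.mul_sum, mul_eq_zero] at h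
        exact h.resolve_left (pow_ne_zero _ (neg_ne_zero.2 one_ne_zero))
      · rw [map_smul, LinearMap.smul_apply, smul_eq_mul]
        rcases Nat.lt_or_ge (i' : ℕ) i with hlt | hge
        · rw [show c (i', a') = 0 from ih i' hlt a' i'.2, zero_mul]
        · have hgt : i < (i' : ℕ) := lt_of_le_of_ne hge fun h' => hne' (Fin.ext h'.symm)
          simp only [g]
          rw [hpair _ (huD _), if_neg (by omega), if_pos (by omega), mul_zero]
  have hli : LinearIndependent F g := Fintype.linearIndependent_iff.2 fun c hc =>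
    congrFun (key c fun y _ => by rw [hc, map_zero, LinearMap.zero_apply])
  have hWn : NondegOn B W := by
    intro w hw hall
    obtain ⟨c, rfl⟩ := (Submodule.mem_span_range_iff_exists_fun F).1 hw
    simp [key c hall]
  have hWd : finrank F W = (j + 1) * s := by
    rw [finrank_span_eq_card hli, Fintype.card_prod, Fintype.card_fin, Fintype.card_fin]
  have hWD : W ≤ D := Submodule.span_le.2 (by rintro _ ⟨q, rfl⟩; exact hDN _ _ (huD _))
  refine ⟨W, j + 1, s, hWD, fun v hv => ?_, hWn, hWd, Nat.succ_pos j, hkp, hs,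
    hWd ▸ even_finrank_of_nondegOn hB hWn, hs2⟩
  refine (Submodule.span_le (p := W.comap x)).2 ?_ hv
  rintro _ ⟨⟨i, a⟩, rfl⟩
  rw [SetLike.mem_coe, Submodule.mem_comap, hNx]
  refine add_mem (hgW _) ?_
  show N ((N ^ (i : ℕ)) (u a)) ∈ W
  rw [← Module.End.mul_apply, ← pow_succ']
  rcases Nat.lt_or_ge ((i : ℕ) + 1) (j + 1) with h | h
  · exact hgW (⟨_, h⟩, a)
  · rw [show (i : ℕ) + 1 = j + 1 by omega, hk _ (huD a)]
    exact zero_mem _

/-- The decomposition: every sub-multiset of the pieces is realised by an invariant subspace. -/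
theorem exists_pieces (hB : ∀ v, B v v = 0) (hnd : ∀ v, (∀ w, B v w = 0) → v = 0)
    (hx : ∀ u v, B (x u) (x v) = B u v) {p : ℕ} (hp : (x - 1) ^ p = 0) :
    ∀ D : Submodule F V, (∀ v ∈ D, x v ∈ D) → NondegOn B D →
      ∃ P : Multiset (ℕ × ℕ), (∀ a ∈ P, 0 < a.1 ∧ a.1 ≤ p ∧ (a.2 = 1 ∨ a.2 = 2) ∧ Even (a.1 * a.2) ∧
          ((2 : F) ≠ 0 → Even a.1 → a.2 = 1)) ∧
        (P.map fun a => a.1 * a.2).sum = finrank F D ∧
        ∀ Q ≤ P, ∃ W ≤ D, (∀ v ∈ W, x v ∈ W) ∧ NondegOn B W ∧ finrank F W = (Q.map fun a => a.1 * a.2).sum := by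
  classical
  intro D
  induction hn : finrank F D using Nat.strong_induction_on generalizing D with
  | _ n ih =>
    intro hD hDn
    subst hn
    by_cases hD0 : D = ⊥
    · subst hD0
      refine ⟨0, by simp, by simp, fun Q hQ => ⟨⊥, le_rfl, fun v hv => ?_, fun v hv _ => by simpa using hv, ?_⟩⟩
      · rw [(Submodule.mem_bot F).1 hv, map_zero]; exact zero_mem _
      · rw [nonpos_iff_eq_zero.1 hQ]; simp
    obtain ⟨W, k, s, hWD, hW, hWn, hWd, hk0, hkp, hs, hev, h2s⟩ := exists_cyclic_piece hB hx hD hDn hD0 hp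
    obtain ⟨C, hCD, hC, hCn, horth, -, hinf, hdim⟩ := exists_orth hB hnd hx hWD hD hDn hW hWn
    have hpos : 0 < k * s := Nat.mul_pos hk0 (by omega)
    obtain ⟨P, hP, hPs, hPW⟩ := ih (finrank F C) (by omega) C rfl hC hCn
    refine ⟨(k, s) ::ₘ P, fun a ha => ?_, by rw [Multiset.map_cons, Multiset.sum_cons, hPs, ← hdim, hWd], fun Q hQ => ?_⟩
    · rcases Multiset.mem_cons.1 ha with rfl | ha
      · exact ⟨hk0, hkp, hs, hev, h2s⟩
      · exact hP a ha
    · by_cases hmem : (k, s) ∈ Q
      · obtain ⟨Q', rfl⟩ := Multiset.exists_cons_of_mem hmem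
        obtain ⟨U, hUC, hU, hUn, hUd⟩ := hPW Q' ((Multiset.cons_le_cons_iff _).1 hQ)
        refine ⟨W ⊔ U, sup_le hWD (hUC.trans hCD), fun v hv => ?_, fun v hv hall => ?_, ?_⟩
        · obtain ⟨w, hw, y, hy, rfl⟩ := Submodule.mem_sup.1 hv
          rw [map_add]
          exact Submodule.add_mem_sup (hW w hw) (hU y hy)
        · obtain ⟨w, hw, y, hy, rfl⟩ := Submodule.mem_sup.1 hv
          have h1 : w = 0 := hWn w hw fun z hz => by
            have := hall z (Submodule.mem_sup_left hz)
            rwa [map_add, LinearMap.add_apply, (horth z hz y (hUC hy)).2, add_zero] at this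
          have h2 : y = 0 := hUn y hy fun z hz => by
            have := hall z (Submodule.mem_sup_right hz)
            rwa [map_add, LinearMap.add_apply, (horth w hw z (hUC hz)).1, zero_add] at this
          rw [h1, h2, add_zero]
        · have := Submodule.finrank_sup_add_finrank_inf_eq W U
          rw [show W ⊓ U = ⊥ from eq_bot_iff.2 (hinf ▸ inf_le_inf_left W hUC), finrank_bot, add_zero] at this
          rw [this, hWd, hUd, Multiset.map_cons, Multiset.sum_cons]
      · obtain ⟨U, hUC, hU, hUn, hUd⟩ := hPW Q ((Multiset.le_cons_of_notMem hmem).1 hQ)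
        exact ⟨U, hUC.trans hCD, hU, hUn, hUd⟩

/-- Pieces of odd characteristic realise every admissible part of their type. -/
theorem exists_subpieces (P : Multiset (ℕ × ℕ))
    (hP : ∀ a ∈ P, 0 < a.1 ∧ (a.2 = 1 ∨ a.2 = 2) ∧ Even (a.1 * a.2) ∧ (Even a.1 → a.2 = 1)) :
    ∀ ν : Multiset ℕ, ν ≤ P.bind (fun a => Multiset.replicate a.2 a.1) → (∀ e, Odd e → Even (ν.count e)) →
      ∃ Q ≤ P, (Q.map fun a => a.1 * a.2).sum = ν.sum := by
  classical
  induction P using Multiset.induction_on with
  | empty =>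
    intro ν hν _
    rw [Multiset.zero_bind, nonpos_iff_eq_zero] at hν
    exact ⟨0, le_rfl, by simp [hν]⟩
  | cons a P ih =>
    intro ν hν hpar
    obtain ⟨k, s⟩ := a
    obtain ⟨hk0, hs, hev, hs1⟩ := hP _ (Multiset.mem_cons_self _ _)
    dsimp at hk0 hs hev hs1
    have hP' := fun a ha => hP a (Multiset.mem_cons_of_mem ha)
    rw [Multiset.cons_bind] at hν
    by_cases hk : k ∈ ν
    · have hle : Multiset.replicate s k ≤ ν := by
        rw [Multiset.le_count_iff_replicate_le.symm]
        have h1 := Multiset.count_pos.2 hk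
        rcases hs with rfl | rfl
        · exact h1
        · have ho : Odd k := Nat.not_even_iff_odd.1 fun he => absurd (hs1 he) (by decide)
          obtain ⟨t, ht⟩ := hpar k ho
          omega
      obtain ⟨ν', rfl⟩ := Multiset.le_iff_exists_add.1 hle
      obtain ⟨Q, hQ, hQs⟩ := ih hP' ν' (Multiset.le_of_add_le_add_left hν) fun e he => by
        have := hpar e he
        rw [Multiset.count_add, Multiset.count_replicate] at this
        split_ifs at this with h
        · subst h
          rcases hs with rfl | rfl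
          · rw [mul_one] at hev
            exact absurd hev (Nat.not_even_iff_odd.2 he)
          · simpa [parity_simps] using this
        · simpa using this
      refine ⟨(k, s) ::ₘ Q, Multiset.cons_le_cons _ hQ, ?_⟩
      rw [Multiset.map_cons, Multiset.sum_cons, hQs, Multiset.sum_add, Multiset.sum_replicate, smul_eq_mul, mul_comm]
    · obtain ⟨Q, hQ, hQs⟩ := ih hP' ν (by
        rw [Multiset.le_iff_count] at hν ⊢
        intro e
        have := hν e
        rw [Multiset.count_add, Multiset.count_replicate] at this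
        split_ifs at this with h
        · subst h
          simp [Multiset.count_eq_zero.2 hk]
        · simpa using this) hpar
      exact ⟨Q, hQ.trans (Multiset.le_cons_self _ _), hQs⟩

end CfsgLib.Omega.SympCyclic
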