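import Cfsg.Agent.Lib.Geometric.Tensor

/-!
The rank of `g - 1` for elements of the stabiliser of a tensor decomposition: a factor is scalar when the rank is
smaller than the dimension of the other factor, and an element of rank at most `a` has a scalar factor.
-/

set_option autoImplicit false

open scoped Matrix
open Module

namespace CfsgLib.Omega.TensorRank

open CfsgLib.Geometric CfsgLib.Geometric.Tensor

variable {F : Type*} [Field F] {ι : Type} [Fintype ι] [DecidableEq ι] {a b : ℕ}
  {e : ι ≃ Fin a × Fin b} {P : GL ι F}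

/-- The map `M - 1` on column vectors. -/
def sub1 {κ : Type} [Fintype κ] [DecidableEq κ] (M : Matrix κ κ F) : (κ → F) →ₗ[F] (κ → F) :=
  Matrix.toLin' M - LinearMap.id

@[simp] theorem sub1_apply {κ : Type} [Fintype κ] [DecidableEq κ] (M : Matrix κ κ F) (v : κ → F) :
    sub1 M v = M *ᵥ v - v := rfl

/-- The rank of `M - 1`. -/
noncomputable def rk {κ : Type} [Fintype κ] [DecidableEq κ] (M : Matrix κ κ F) : ℕ :=
  finrank F (LinearMap.range (sub1 M))

theorem rk_le {κ : Type} [Fintype κ] [DecidableEq κ] (M : Matrix κ κ F) : rk M ≤ Fintype.card κ :=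
  (Submodule.finrank_le _).trans (Module.finrank_fintype_fun_eq_card F).le

theorem eq_one_of_rk_eq_zero {κ : Type} [Fintype κ] [DecidableEq κ] (M : Matrix κ κ F) (h : rk M = 0) : M = 1 :=
  Matrix.ext_of_mulVec_single fun i => by
    have h1 : sub1 M (Pi.single i 1) ∈ LinearMap.range (sub1 M) := ⟨_, rfl⟩
    rw [Submodule.finrank_eq_zero.1 h, Submodule.mem_bot, sub1_apply, sub_eq_zero] at h1
    rw [h1, Matrix.one_mulVec]

theorem rk_conj (x g : GL ι F) : rk ((g⁻¹ * x * g : GL ι F) : Matrix ι ι F) = rk (x : Matrix ι ι F) := by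
  have h : sub1 (x : Matrix ι ι F) ∘ₗ (apEquiv g).toLinearMap =
      (apEquiv g).toLinearMap ∘ₗ sub1 ((g⁻¹ * x * g : GL ι F) : Matrix ι ι F) := by
    refine LinearMap.ext fun v => ?_
    simp only [LinearMap.comp_apply, LinearEquiv.coe_coe, apEquiv_apply, sub1_apply, ← ap_def]
    rw [ap_sub, ap_mul, ap_mul, ap_ap_inv]
  have h2 := congrArg LinearMap.range h
  rw [LinearMap.range_comp_of_range_eq_top _ (apEquiv g).range, LinearMap.range_comp] at h2
  rw [rk, rk, h2, LinearEquiv.finrank_map_eq]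

theorem exists_scalar_of_forall_eigen {κ : Type} [Fintype κ] [Nonempty κ] [DecidableEq κ] (A : Matrix κ κ F)
    (h : ∀ u : κ → F, ∃ c : F, A *ᵥ u = c • u) : ∃ c : F, A = c • 1 := by
  choose c hc using h
  obtain ⟨i₀⟩ := ‹Nonempty κ›
  refine ⟨c (Pi.single i₀ 1), Matrix.ext_of_mulVec_single fun i => ?_⟩
  rw [Matrix.smul_mulVec, Matrix.one_mulVec]
  by_cases hi : i = i₀
  · subst hi; exact hc _
  have h1 := hc (Pi.single i₀ (1 : F) + Pi.single i 1)
  rw [Matrix.mulVec_add, hc, hc, smul_add] at h1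
  have e0 : c (Pi.single i₀ (1 : F)) = c (Pi.single i₀ (1 : F) + Pi.single i 1) := by
    simpa [Ne.symm hi] using congrFun h1 i₀
  have e1 : c (Pi.single i (1 : F)) = c (Pi.single i₀ (1 : F) + Pi.single i 1) := by
    simpa [hi] using congrFun h1 i
  rw [hc, e1, e0]

/-- Equal non-zero pure tensors have proportional left factors. -/
theorem eigen_of_pt {u u' : Fin a → F} {w w' : Fin b → F} (hw' : w' ≠ 0)
    (h : pt e P u' w' = pt e P u w) : ∃ c : F, u' = c • u := by
  obtain ⟨j, hj⟩ := Function.ne_iff.mp hw'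
  simp only [Pi.zero_apply] at hj
  refine ⟨w j / w' j, funext fun i => ?_⟩
  have h1 : u' i * w' j = u i * w j := congrFun ((coords e P).injective h) (i, j)
  rw [Pi.smul_apply, smul_eq_mul]
  field_simp
  linear_combination h1

theorem pt_eq_zero_left {u : Fin a → F} {w : Fin b → F} (hw : w ≠ 0) (h : pt e P u w = 0) : u = 0 := by
  have h0 : pt e P (0 : Fin a → F) w = 0 := by
    rw [← zero_smul F u, pt_smul_left, zero_smul]
  exact pt_inj_left e P hw (h.trans h0.symm)

/-- If the rank is smaller than `b`, the left factor is a scalar. -/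
theorem left_scalar (ha : 0 < a) (y : GL ι F) (A : GL (Fin a) F) (B : GL (Fin b) F)
    (hAB : ∀ u w, ap y (pt e P u w) = pt e P (ap A u) (ap B w)) (hrk : rk (y : Matrix ι ι F) < b) :
    ∃ c : F, (A : Matrix (Fin a) (Fin a) F) = c • 1 := by
  haveI : Nonempty (Fin a) := ⟨⟨0, ha⟩⟩
  refine exists_scalar_of_forall_eigen _ fun u => ?_
  have h2 := LinearMap.finrank_range_add_finrank_ker (sub1 (y : Matrix ι ι F) ∘ₗ ptr e P u)
  rw [Module.finrank_fin_fun] at h2
  have h3 : finrank F (LinearMap.range (sub1 (y : Matrix ι ι F) ∘ₗ ptr e P u)) ≤ rk (y : Matrix ι ι F) :=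
    Submodule.finrank_mono (LinearMap.range_comp_le_range _ _)
  obtain ⟨w, hw, hw0⟩ := Submodule.exists_mem_ne_zero_of_ne_bot
    (show LinearMap.ker (sub1 (y : Matrix ι ι F) ∘ₗ ptr e P u) ≠ ⊥ from fun h => by
      rw [h, finrank_bot] at h2; omega)
  rw [LinearMap.mem_ker, LinearMap.comp_apply, ptr_apply, sub1_apply, sub_eq_zero, ← ap_def, hAB] at hw
  exact eigen_of_pt (fun h => hw0 (ap_injective B (h.trans (Matrix.mulVec_zero _).symm))) hw

/-- The same with the factors exchanged. -/
theorem right_scalar (hb : 0 < b) (y : GL ι F) (A : GL (Fin a) F) (B : GL (Fin b) F)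
    (hAB : ∀ u w, ap y (pt e P u w) = pt e P (ap A u) (ap B w)) (hrk : rk (y : Matrix ι ι F) < a) :
    ∃ c : F, (B : Matrix (Fin b) (Fin b) F) = c • 1 :=
  left_scalar (e := e.trans (Equiv.prodComm _ _)) (P := P) hb y B A
    (fun w u => by rw [pt_swap, hAB, pt_swap]) hrk

/-- The rank of `1 ⊗ B`. -/
theorem rk_right (y : GL ι F) (B : Matrix (Fin b) (Fin b) F)
    (h : ∀ u w, ap y (pt e P u w) = pt e P u (B *ᵥ w)) :
    rk (y : Matrix ι ι F) = a * rk B := by
  classical
  let T : (Fin a → Fin b → F) ≃ₗ[F] (ι → F) := (LinearEquiv.curry F F (Fin a) (Fin b)).symm.trans (coords e P)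
  let M : (Fin a → Fin b → F) →ₗ[F] (Fin a → Fin b → F) := LinearMap.pi fun i => sub1 B ∘ₗ LinearMap.proj i
  have hsingle : ∀ i w, T (Pi.single i w) = pt e P (Pi.single i 1) w := by
    intro i w
    refine congrArg (coords e P) (funext fun ⟨i', j⟩ => ?_)
    show (Pi.single i w : Fin a → Fin b → F) i' j = (Pi.single i 1 : Fin a → F) i' * w j
    by_cases hi : i' = i
    · subst hi; simp
    · simp [hi]
  have hLT : sub1 (y : Matrix ι ι F) ∘ₗ T.toLinearMap = T.toLinearMap ∘ₗ M := by
    refine LinearMap.pi_ext fun i w => ?_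
    have hM : M (Pi.single i w) = Pi.single i (sub1 B w) := by
      funext i'
      show sub1 B ((Pi.single i w : Fin a → Fin b → F) i') = _
      by_cases hi : i' = i
      · subst hi; rw [Pi.single_eq_same, Pi.single_eq_same]
      · rw [Pi.single_eq_of_ne hi, Pi.single_eq_of_ne hi, map_zero]
    simp only [LinearMap.comp_apply, LinearEquiv.coe_coe, hM, hsingle, sub1_apply]
    rw [← ap_def, h, ← ptr_apply, ← ptr_apply, ← ptr_apply, ← map_sub]
  have h3 := congrArg LinearMap.range hLT
  rw [LinearMap.range_comp_of_range_eq_top _ T.range, LinearMap.range_comp] at h3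
  rw [rk, h3, LinearEquiv.finrank_map_eq]
  let E : LinearMap.range M ≃ₗ[F] (Fin a → LinearMap.range (sub1 B)) :=
    { toFun := fun v i => ⟨v.1 i, by obtain ⟨x, hx⟩ := v.2; exact ⟨x i, congrFun hx i⟩⟩
      map_add' := fun _ _ => rfl
      map_smul' := fun _ _ => rfl
      invFun := fun f => ⟨fun i => f i, ⟨fun i => (f i).2.choose, funext fun i => (f i).2.choose_spec⟩⟩
      left_inv := fun _ => rfl
      right_inv := fun _ => rfl }
  rw [E.finrank_eq, Module.finrank_pi_fintype, Finset.sum_const, Finset.card_univ, Fintype.card_fin, smul_eq_mul,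
    rk]

/-- The rank of `A ⊗ 1`. -/
theorem rk_left (y : GL ι F) (A : Matrix (Fin a) (Fin a) F)
    (h : ∀ u w, ap y (pt e P u w) = pt e P (A *ᵥ u) w) : rk (y : Matrix ι ι F) = b * rk A :=
  rk_right (e := e.trans (Equiv.prodComm _ _)) (P := P) y A (fun w u => by rw [pt_swap, h, pt_swap])

/-- With at least three columns and two non-scalar factors the rank exceeds `a`. -/
theorem lt_rk (hb : 3 ≤ b) (y : GL ι F) (A : GL (Fin a) F) (B : GL (Fin b) F)
    (hAB : ∀ u w, ap y (pt e P u w) = pt e P (ap A u) (ap B w))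
    (hA : ∀ c : F, (A : Matrix (Fin a) (Fin a) F) ≠ c • 1) (hB : ∀ c : F, (B : Matrix (Fin b) (Fin b) F) ≠ c • 1) :
    a < rk (y : Matrix ι ι F) := by
  classical
  by_contra hle
  push Not at hle
  haveI : Nonempty (Fin b) := ⟨⟨0, by omega⟩⟩
  have ha : 0 < a := by
    by_contra h0
    have : IsEmpty (Fin a) := ⟨fun i => absurd i.2 (by omega)⟩
    exact hA 0 (Matrix.ext fun i => isEmptyElim i)
  haveI : Nonempty (Fin a) := ⟨⟨0, ha⟩⟩
  obtain ⟨w, hw⟩ : ∃ w : Fin b → F, ∀ c : F, ap B w ≠ c • w := by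
    by_contra hc
    push Not at hc
    obtain ⟨c, hc'⟩ := exists_scalar_of_forall_eigen (B : Matrix (Fin b) (Fin b) F) hc
    exact hB c hc'
  obtain ⟨u, hu⟩ : ∃ u : Fin a → F, ∀ c : F, ap A u ≠ c • u := by
    by_contra hc
    push Not at hc
    obtain ⟨c, hc'⟩ := exists_scalar_of_forall_eigen (A : Matrix (Fin a) (Fin a) F) hc
    exact hA c hc'
  have hw0 : w ≠ 0 := by
    rintro rfl
    exact hw 0 (by rw [ap_def, Matrix.mulVec_zero, smul_zero])
  let S : (Fin a → F) →ₗ[F] (ι → F) :=
    sub1 (y : Matrix ι ι F) ∘ₗ ptr (e.trans (Equiv.prodComm _ _)) P w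
  have hS : ∀ v, S v = pt e P (ap A v) (ap B w) - pt e P v w := fun v => by
    simp only [S, LinearMap.comp_apply, ptr_apply, pt_swap, sub1_apply, ← ap_def, hAB]
  have hSinj : Function.Injective S := by
    rw [injective_iff_map_eq_zero]
    intro v hv
    rw [hS, sub_eq_zero] at hv
    by_contra hv0
    obtain ⟨c, hc⟩ := eigen_of_pt (e := e.trans (Equiv.prodComm _ _)) (P := P) (u' := ap B w) (u := w)
      (w' := ap A v) (w := v) (fun h => hv0 (ap_injective A (h.trans (Matrix.mulVec_zero _).symm)))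
      (by rw [pt_swap, pt_swap]; exact hv)
    exact hw c hc
  have hSle : LinearMap.range S ≤ LinearMap.range (sub1 (y : Matrix ι ι F)) := LinearMap.range_comp_le_range _ _
  have hSeq : LinearMap.range S = LinearMap.range (sub1 (y : Matrix ι ι F)) :=
    Submodule.eq_of_le_of_finrank_le hSle (by
      rw [LinearMap.finrank_range_of_inj hSinj, Module.finrank_fin_fun]; exact hle)
  have hne : (Submodule.span F ({w, ap B w} : Set (Fin b → F))) < ⊤ := by
    refine lt_top_iff_ne_top.2 fun h => ?_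
    have h1 := finrank_span_finset_le_card (R := F) ({w, ap B w} : Finset (Fin b → F))
    rw [Finset.coe_insert, Finset.coe_singleton, Set.finrank, h, finrank_top, Module.finrank_fin_fun] at h1
    have := Finset.card_le_two (a := w) (b := ap B w)
    omega
  obtain ⟨φ, hφ0, hφ⟩ := Submodule.exists_le_ker_of_lt_top _ hne
  have hφw : φ w = 0 := hφ (Submodule.subset_span (by simp))
  have hφB : φ (ap B w) = 0 := hφ (Submodule.subset_span (by simp))
  let Φ : (ι → F) →ₗ[F] (Fin a → F) :=
    LinearMap.pi fun i => φ ∘ₗ LinearMap.pi (fun j => LinearMap.proj (i, j) ∘ₗ (coords e P).symm.toLinearMap)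
  have hΦ : ∀ x z, Φ (pt e P x z) = φ z • x := fun x z => funext fun i => by
    show φ (fun j => (coords e P).symm (coords e P fun q => x q.1 * z q.2) (i, j)) = _
    rw [LinearEquiv.symm_apply_apply]
    show φ (x i • z) = φ z * x i
    rw [map_smul, smul_eq_mul, mul_comm]
  have hΦS : ∀ v, Φ (S v) = 0 := fun v => by rw [hS, map_sub, hΦ, hΦ, hφw, hφB, zero_smul, zero_smul, sub_zero]
  have hkill : ∀ v, φ (ap B v) • ap A u - φ v • u = 0 := by
    intro v
    have hmem : sub1 (y : Matrix ι ι F) (pt e P u v) ∈ LinearMap.range S := hSeq ▸ LinearMap.mem_range_self _ _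
    obtain ⟨t, ht⟩ := hmem
    have := hΦS t
    rw [ht, sub1_apply, ← ap_def, hAB, map_sub, hΦ, hΦ] at this
    exact this
  refine hφ0 (LinearMap.ext fun v => ?_)
  by_cases hv : φ (ap B v) = 0
  · have := hkill v
    rw [hv, zero_smul, zero_sub, neg_eq_zero, smul_eq_zero] at this
    refine this.resolve_right ?_
    rintro rfl
    exact hu 0 (by rw [ap_def, Matrix.mulVec_zero, smul_zero])
  · refine absurd ?_ (hu ((φ (ap B v))⁻¹ * φ v))
    rw [mul_smul, ← sub_eq_zero.1 (hkill v), inv_smul_smul₀ hv]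

/-- Membership from the action on a product of two bases. -/
theorem mem_of_bases (g : GL ι F) (A : GL (Fin a) F) (B : GL (Fin b) F) (v : Basis (Fin a) F (Fin a → F))
    (w : Basis (Fin b) F (Fin b → F))
    (h : ∀ i j, ap g (pt e P (v i) (w j)) = pt e P (ap A (v i)) (ap B (w j))) :
    g ∈ Cfsg.Geo.tensorProductSubgroup a b e P := by
  refine (mem_iff e P g).2 ⟨A, B, fun x z => ?_⟩
  have h1 : ∀ i, (apEquiv g).toLinearMap ∘ₗ ptr e P (v i) = ptr e P (ap A (v i)) ∘ₗ (apEquiv B).toLinearMap :=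
    fun i => w.ext fun j => h i j
  have h2 : (apEquiv g).toLinearMap ∘ₗ ptr (e.trans (Equiv.prodComm _ _)) P z =
      ptr (e.trans (Equiv.prodComm _ _)) P (ap B z) ∘ₗ (apEquiv A).toLinearMap := v.ext fun i => by
    have := LinearMap.congr_fun (h1 i) z
    simp only [LinearMap.comp_apply, LinearEquiv.coe_coe, ptr_apply, apEquiv_apply, pt_swap] at this ⊢
    exact this
  have := LinearMap.congr_fun h2 x
  simp only [LinearMap.comp_apply, LinearEquiv.coe_coe, ptr_apply, apEquiv_apply, pt_swap] at this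
  exact this

end CfsgLib.Omega.TensorRank
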