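import Mathlib
import Cfsg.Agent.Lib.Geometric.ExtField.Normaliser
import Cfsg.Agent.Lib.Omega.IsometryParity
import Cfsg.Agent.Lib.Omega.SympForm
import Cfsg.Agent.Lib.Omega.TensorRank
import Cfsg.Agent.Lib.Forms.SympBridge

/-!
The standard symplectic space as a space over a field of self-adjoint operators: the form over the larger field,
the symplectic group over it inside the normaliser, and the rank of semilinear isometries of prime order.
-/

set_option autoImplicit false
set_option linter.unusedSectionVars false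

namespace CfsgLib.Omega.SympFieldExt

open Module CfsgLib.Geometric CfsgLib.Geometric.ExtF CfsgLib.Omega.TensorRank
open scoped Matrix

variable {F : Type*} [Field F] [Fintype F] {d : ℕ} {E : Type*} [Field E] [Algebra F E] [Finite E]
  [Module E (Fin d ⊕ Fin d → F)] [IsScalarTower F E (Fin d ⊕ Fin d → F)]

variable (F d E) in
/-- The operators of `E` are self-adjoint and alternate. -/
structure IsSympField : Prop where
  sa : ∀ (a : E) (x y : Fin d ⊕ Fin d → F), Cfsg.sympForm d F (a • x) y = Cfsg.sympForm d F x (a • y)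
  alt : ∀ (a : E) (x : Fin d ⊕ Fin d → F), Cfsg.sympForm d F (a • x) x = 0

/-- The form over `E`. -/
theorem exists_form (h : IsSympField F d E) :
    ∃ (T : E →ₗ[F] F) (φ : LinearMap.BilinForm E (Fin d ⊕ Fin d → F)),
      (∀ a x y, T (a * φ x y) = Cfsg.sympForm d F (a • x) y) ∧
      (∀ e e' : E, (∀ a, T (a * e) = T (a * e')) → e = e') ∧
      (∀ x, φ x x = 0) ∧ ∀ x, (∀ y, φ x y = 0) → x = 0 := by
  obtain ⟨T, hT⟩ := exists_functional_ne_zero (F := F) E
  let ψ : (Fin d ⊕ Fin d → F) → (Fin d ⊕ Fin d → F) → (E →ₗ[F] F) := fun x y =>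
    { toFun := fun a => Cfsg.sympForm d F (a • x) y
      map_add' := fun a b => by
        simp only [← sympBilin_apply, add_smul, map_add, LinearMap.add_apply]
      map_smul' := fun c a => by
        simp only [← sympBilin_apply, smul_assoc, map_smul, LinearMap.smul_apply, RingHom.id_apply] }
  choose φ hφ using fun x y => exists_mul_rep hT (ψ x y)
  have ext : ∀ e e' : E, (∀ a, T (a * e) = T (a * e')) → e = e' := by
    intro e e' h
    by_contra hne
    refine hT (LinearMap.ext fun a => ?_)
    have h1 := h (a / (e - e'))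
    rw [← sub_eq_zero, ← map_sub, ← mul_sub, div_mul_cancel₀ _ (sub_ne_zero.mpr hne)] at h1
    simpa using h1
  have hφ' : ∀ x y a, T (a * φ x y) = Cfsg.sympForm d F (a • x) y := fun x y a => hφ x y a
  refine ⟨T, LinearMap.mk₂ E φ (fun x y z => ext _ _ fun a => ?_) (fun b x y => ext _ _ fun a => ?_)
    (fun x y z => ext _ _ fun a => ?_) (fun b x y => ext _ _ fun a => ?_), fun a x y => hφ' x y a, ext,
    fun x => ext _ _ fun a => ?_, fun x hx => ?_⟩
  · rw [mul_add, map_add, hφ', hφ', hφ', smul_add]
    simp only [← sympBilin_apply, map_add, LinearMap.add_apply]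
  · rw [hφ', smul_eq_mul, ← mul_assoc, hφ', mul_smul]
  · rw [mul_add, map_add, hφ', hφ', hφ']
    simp only [← sympBilin_apply, map_add]
  · rw [hφ', smul_eq_mul, ← mul_assoc, hφ', ← h.sa b, smul_smul, mul_comm b a]
  · show T (a * φ x x) = T (a * 0)
    rw [hφ', h.alt, mul_zero, map_zero]
  · refine sympBilin_nondegenerate x fun y => ?_
    rw [sympBilin_apply, ← one_smul E x, ← hφ', show φ x y = 0 from hx y, mul_zero, map_zero]

theorem finiteDimensional_E : FiniteDimensional E (Fin d ⊕ Fin d → F) :=
  Module.Finite.of_restrictScalars_finite F E _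

/-- The dimension over `E` is even. -/
theorem exists_half (h : IsSympField F d E) :
    ∃ d' : ℕ, finrank E (Fin d ⊕ Fin d → F) = 2 * d' ∧ d = finrank F E * d' := by
  have := finiteDimensional_E (F := F) (d := d) (E := E)
  obtain ⟨T, φ, hφ, ext, halt, hnd⟩ := exists_form h
  obtain ⟨α, _, _, b, -, -, -, hli, hspan⟩ := exists_symplectic_family φ halt ⊤
    (fun w _ hw => hnd w fun y => hw y Submodule.mem_top)
  have h1 : finrank E (Fin d ⊕ Fin d → F) = 2 * Fintype.card α := by
    rw [← finrank_top, ← hspan, finrank_span_eq_card hli, Fintype.card_prod, Fintype.card_fin, mul_comm]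
  refine ⟨_, h1, ?_⟩
  have h2 := Module.finrank_mul_finrank F E (Fin d ⊕ Fin d → F)
  rw [h1, Module.finrank_fintype_fun_eq_card, Fintype.card_sum, Fintype.card_fin] at h2
  rw [mul_left_comm] at h2
  omega

/-- The symplectic group over `E` lies in the symplectic normaliser. -/
theorem card_sp_dvd (h : IsSympField F d E) (K : Subalgebra F (Matrix (Fin d ⊕ Fin d) (Fin d ⊕ Fin d) F))
    (hK : ∀ g : GL (Fin d ⊕ Fin d) F, g ∈ Cfsg.Geo.subalgebraNormalizer K ↔ IsSemi E g) :
    ∃ d' : ℕ, d = finrank F E * d' ∧
      Nat.card (Matrix.symplecticGroup (Fin d') E) ∣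
        Nat.card ↥(Cfsg.Geo.subalgebraNormalizer K ⊓ Cfsg.spGL d F) := by
  classical
  have := finiteDimensional_E (F := F) (d := d) (E := E)
  obtain ⟨T, φ, hφ, ext, halt, hnd⟩ := exists_form h
  obtain ⟨d', hd', hdd⟩ := exists_half h
  refine ⟨d', hdd, ?_⟩
  obtain ⟨α, _, _, b, hb0, hb1, -, hli, hspan⟩ := exists_symplectic_family φ halt ⊤
    (fun w _ hw => hnd w fun y => hw y Submodule.mem_top)
  have hα : Fintype.card α = d' := by
    have h1 : finrank E (Fin d ⊕ Fin d → F) = 2 * Fintype.card α := by
      rw [← finrank_top, ← hspan, finrank_span_eq_card hli, Fintype.card_prod, Fintype.card_fin, mul_comm]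
    omega
  let e : Fin d' ≃ α := (finCongr hα.symm).trans (Fintype.equivFin α).symm
  let w : Fin d' ⊕ Fin d' → (Fin d ⊕ Fin d → F) := Sum.elim (fun i => b (e i, 1)) (fun i => b (e i, 0))
  have hw : LinearIndependent E w := by
    let u : Fin d' ⊕ Fin d' → α × Fin 2 := Sum.elim (fun i => (e i, 1)) (fun i => (e i, 0))
    have hu : Function.Injective u := by
      rintro (i | i) (j | j) hij <;> simp [u] at hij ⊢ <;> exact hij
    have : w = b ∘ u := by funext x; rcases x with i | i <;> rfl
    rw [this]
    exact hli.comp u hu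
  let B : Basis (Fin d' ⊕ Fin d') E (Fin d ⊕ Fin d → F) :=
    Basis.mk hw (ge_of_eq (hw.span_eq_top_of_card_eq_finrank' (by
      rw [Fintype.card_sum, Fintype.card_fin, hd']; omega)))
  let C : (Fin d ⊕ Fin d → F) ≃ₗ[E] (Fin d' ⊕ Fin d' → E) := B.equivFun
  have hC : ∀ x y, φ x y = Cfsg.sympForm d' E (C x) (C y) := by
    intro x y
    rw [← sympBilin_apply]
    suffices h : φ = (sympBilin d' E).compl₁₂ C.toLinearMap C.toLinearMap by
      conv_lhs => rw [h]
      rfl
    refine LinearMap.BilinForm.ext_basis B fun i j => ?_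
    have hCB : ∀ i, C (B i) = Pi.single i 1 := fun i => funext fun j => by
      rw [show C (B i) = B.equivFun (B i) from rfl, Basis.equivFun_self, Pi.single_apply]
      exact if_congr eq_comm rfl rfl
    rw [LinearMap.compl₁₂_apply, LinearEquiv.coe_coe, hCB, hCB, sympBilin_apply, sympForm_eq_sum]
    simp only [B, Basis.mk_apply]
    rcases i with i | i <;> rcases j with j | j <;>
      simp [w, hb0, hb1, Finset.sum_sub_distrib, Pi.single_apply]
    · rw [alt_skew halt, hb1]
      simp [eq_comm]
    · exact if_congr eq_comm rfl rfl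
  let L : Matrix.symplecticGroup (Fin d') E → ((Fin d ⊕ Fin d → F) →ₗ[E] (Fin d ⊕ Fin d → F)) := fun g =>
    C.symm.toLinearMap ∘ₗ Matrix.toLin' (g : Matrix (Fin d' ⊕ Fin d') (Fin d' ⊕ Fin d') E) ∘ₗ C.toLinearMap
  let ψ : Matrix.symplecticGroup (Fin d') E →* GL (Fin d ⊕ Fin d) F :=
    (Matrix.GeneralLinearGroup.toLin (n := Fin d ⊕ Fin d) (R := F)).symm.toMonoidHom.comp
      ({ toFun := fun g => (L g).restrictScalars F
         map_one' := LinearMap.ext fun v => by simp [L]
         map_mul' := fun a b => LinearMap.ext fun v => by simp [L, Matrix.toLin'_mul] } :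
        Matrix.symplecticGroup (Fin d') E →* Module.End F (Fin d ⊕ Fin d → F)).toHomUnits
  have hψ : ∀ g v, ap (ψ g) v = L g v := fun g v => by
    have h1 : Matrix.GeneralLinearGroup.toLin (ψ g) = _ := MulEquiv.apply_symm_apply _ _
    exact congrArg (fun u : LinearMap.GeneralLinearGroup F (Fin d ⊕ Fin d → F) =>
      (u : Module.End F (Fin d ⊕ Fin d → F)) v) h1
  have hinj : Function.Injective ψ := fun g g' hgg => by
    refine Subtype.ext (Matrix.toLin'.injective (LinearMap.ext fun v => ?_))
    have h1 : L g (C.symm v) = L g' (C.symm v) := by rw [← hψ, ← hψ, hgg]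
    simpa [L] using h1
  rw [← Subgroup.card_top (G := Matrix.symplecticGroup (Fin d') E), ← Subgroup.card_map_of_injective hinj]
  refine Subgroup.card_dvd_of_le ?_
  rintro _ ⟨g, -, rfl⟩
  refine ⟨(hK _).2 (IsSemi.of_linear E fun a x => by rw [hψ, hψ, map_smul]), ?_⟩
  intro x y
  show Cfsg.sympForm d F (ap (ψ g) x) (ap (ψ g) y) = _
  rw [hψ, hψ, ← one_smul E (L g x), ← hφ, ← one_smul E x, ← hφ, one_mul, one_mul]
  congr 1
  rw [hC, hC, one_smul]
  simp only [L, LinearMap.comp_apply, LinearEquiv.coe_coe, LinearEquiv.apply_symm_apply, Matrix.toLin'_apply]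
  exact sympForm_mulVec_of_mem g.2 _ _

/-- The field automorphism of a semilinear map. -/
theorem exists_tau (hd : 0 < d) {y : GL (Fin d ⊕ Fin d) F} (hy : IsSemi E y) :
    ∃ τ : E ≃ₐ[F] E, ∀ (a : E) x, ap y (a • x) = τ a • ap y x := by
  choose τ hτ using hy
  let v : Fin d ⊕ Fin d → F := Pi.single (.inl ⟨0, hd⟩) 1
  have hv : ap y v ≠ 0 := ap_ne_zero y (by simp [v])
  let A : E →ₐ[F] E :=
    { toFun := τ
      map_one' := smul_left_injective E hv (by
        show τ 1 • _ = (1 : E) • _
        rw [← hτ, one_smul, one_smul])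
      map_mul' := fun a b => smul_left_injective E hv (by
        show τ (a * b) • _ = (τ a * τ b) • _
        rw [← hτ, mul_smul, mul_smul, hτ, hτ])
      map_zero' := smul_left_injective E hv (by
        show τ 0 • _ = (0 : E) • _
        rw [← hτ, zero_smul, zero_smul, ap_zero])
      map_add' := fun a b => smul_left_injective E hv (by
        show τ (a + b) • _ = (τ a + τ b) • _
        rw [← hτ, add_smul, add_smul, ap_add, hτ, hτ])
      commutes' := fun c => smul_left_injective E hv (by
        show τ (algebraMap F E c) • _ = algebraMap F E c • _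
        rw [← hτ, algebraMap_smul, algebraMap_smul, ap_smul]) }
  exact ⟨AlgEquiv.ofBijective A ⟨A.toRingHom.injective, (Finite.injective_iff_surjective).1 A.toRingHom.injective⟩,
    fun a x => hτ a x⟩

/-- Semilinear isometries of prime order: either linear, with the moved space constrained, or the degree is the
order and at most half of the space is fixed. -/
theorem semilinear_cases (h : IsSympField F d E) (hd : 0 < d) (hk : (finrank F E).Prime) {r : ℕ} [Fact r.Prime]
    {y : GL (Fin d ⊕ Fin d) F} (hy : y ∈ Cfsg.spGL d F) (hs : IsSemi E y) (hr : y ^ r = 1) :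
    (∃ w : ℕ, finrank F E * w = rk (y : Matrix (Fin d ⊕ Fin d) (Fin d ⊕ Fin d) F) ∧
      ((r : F) ≠ 0 → Even w ∧ orderOf ((Fintype.card F ^ finrank F E : ℕ) : ZMod r) ∣ w)) ∨
    (r = finrank F E ∧ d ≤ rk (y : Matrix (Fin d ⊕ Fin d) (Fin d ⊕ Fin d) F)) := by
  classical
  have := finiteDimensional_E (F := F) (d := d) (E := E)
  have : Module.Finite F E := Module.Finite.of_finite
  obtain ⟨τ, hτ⟩ := exists_tau hd hs
  have hit : ∀ (i : ℕ) (a : E) x, ap (y ^ i) (a • x) = (τ ^ i) a • ap (y ^ i) x := by
    intro i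
    induction i with
    | zero => intro a x; simp
    | succ i ih =>
      intro a x
      rw [pow_succ', ap_mul, ih, hτ, ← ap_mul, pow_succ']
      rfl
  by_cases hτ1 : τ = 1
  · left
    let Y : (Fin d ⊕ Fin d → F) →ₗ[E] (Fin d ⊕ Fin d → F) :=
      { toFun := ap y
        map_add' := ap_add y
        map_smul' := fun a x => by rw [hτ, hτ1]; rfl }
    refine ⟨finrank E (LinearMap.range (Y - LinearMap.id)), ?_, fun hrF => ?_⟩
    · rw [Module.finrank_mul_finrank F E (LinearMap.range (Y - LinearMap.id)), rk,
        show sub1 (y : Matrix (Fin d ⊕ Fin d) (Fin d ⊕ Fin d) F) = (Y - LinearMap.id).restrictScalars F from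
          LinearMap.ext fun v => rfl]
      rw [LinearMap.range_restrictScalars]
      rfl
    · obtain ⟨T, φ, hφ, ext, halt, hnd⟩ := exists_form h
      obtain ⟨d', hd', -⟩ := exists_half h
      have hYφ : ∀ u v, φ (Y u) (Y v) = φ u v := fun u v => ext _ _ fun a => by
        rw [hφ, hφ, ← map_smul]
        exact hy _ _
      have hYr : ∀ v, Y^[r] v = v := by
        have : ∀ (i : ℕ) v, Y^[i] v = ap (y ^ i) v := by
          intro i
          induction i with
          | zero => intro v; simp
          | succ i ih => intro v; rw [Function.iterate_succ_apply', ih, pow_succ', ap_mul]; rfl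
        intro v
        rw [this, hr, ap_one]
      have hrE : (r : E) ≠ 0 := by
        rw [← map_natCast (algebraMap F E) r]
        exact fun h => hrF ((algebraMap F E).injective (by rw [h, map_zero]))
      have hev := even_finrank_fixed_alt φ halt hnd hrE Y hYφ hYr
      have h1 := LinearMap.finrank_range_add_finrank_ker (Y - LinearMap.id)
      rw [hd'] at h1
      refine ⟨?_, ?_⟩
      · obtain ⟨j, hj⟩ := hev
        exact ⟨d' - j, by omega⟩
      · haveI : Fintype E := Fintype.ofFinite E
        have hcard : Fintype.card E = Fintype.card F ^ finrank F E := Module.card_eq_pow_finrank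
        have hqE : (Fintype.card E : ZMod r) ≠ 0 := by
          rw [hcard, Nat.cast_pow]
          refine pow_ne_zero _ fun h0 => hrF ?_
          obtain ⟨p, hp⟩ := CharP.exists F
          obtain ⟨m, hpp, hpm⟩ := FiniteField.card F p
          rw [ZMod.natCast_eq_zero_iff, hpm] at h0
          have := (Nat.prime_dvd_prime_iff_eq Fact.out hpp).1 ((Fact.out : r.Prime).dvd_of_dvd_pow h0)
          subst this
          exact CharP.cast_eq_zero F r
        have hdv := PrimeOrder.orderOf_dvd_sub_finrank hqE Y ⊤ (fun _ _ => trivial) (fun v _ => hYr v)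
        rw [finrank_top, PrimeOrder.fixedIn, top_inf_eq, hd', hcard] at hdv
        rwa [show finrank E (LinearMap.range (Y - LinearMap.id)) =
          2 * d' - finrank E (LinearMap.ker (Y - LinearMap.id)) by omega]
  · right
    have hτr : τ ^ r = 1 := AlgEquiv.ext fun a => by
      have h1 := hit r a (Pi.single (.inl ⟨0, hd⟩) 1)
      rw [hr, ap_one, ap_one] at h1
      exact (smul_left_injective E (by simp) h1).symm
    have hord : orderOf τ = r := orderOf_eq_prime hτr hτ1
    have hcard : Nat.card (E ≃ₐ[F] E) = finrank F E := IsGalois.card_aut_eq_finrank F E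
    have hdvd : r ∣ finrank F E := by
      rw [← hord, ← hcard]
      exact orderOf_dvd_natCard τ
    refine ⟨(Nat.prime_dvd_prime_iff_eq Fact.out hk).1 hdvd, ?_⟩
    obtain ⟨a, ha⟩ : ∃ a : E, τ a ≠ a := by
      by_contra hall
      push Not at hall
      exact hτ1 (AlgEquiv.ext hall)
    have ha0 : a ≠ 0 := fun h => ha (by rw [h, map_zero])
    set M := sub1 (y : Matrix (Fin d ⊕ Fin d) (Fin d ⊕ Fin d) F) with hM
    have hfix : ∀ v, v ∈ LinearMap.ker M ↔ ap y v = v := fun v => by
      rw [LinearMap.mem_ker, hM, sub1_apply, sub_eq_zero, ap_def]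
    let S : (Fin d ⊕ Fin d → F) →ₗ[F] (Fin d ⊕ Fin d → F) :=
      { toFun := fun v => a • v
        map_add' := smul_add a
        map_smul' := fun c v => smul_comm a c v }
    have hS : Function.Injective S := fun u v huv => by
      have h1 : a⁻¹ • (a • u) = a⁻¹ • (a • v) := congrArg (a⁻¹ • ·) huv
      rwa [inv_smul_smul₀ ha0, inv_smul_smul₀ ha0] at h1
    have hinf : LinearMap.ker M ⊓ (LinearMap.ker M).map S = ⊥ :=
      (Submodule.eq_bot_iff _).2 fun v ⟨hv, u, hu, huv⟩ => by
        have h1 := (hfix v).1 hv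
        rw [← huv, show S u = a • u from rfl, hτ, (hfix u).1 hu, ← sub_eq_zero, ← sub_smul, smul_eq_zero,
          sub_eq_zero] at h1
        rw [← huv, h1.resolve_left ha, map_zero]
    have h2 := Submodule.finrank_sup_add_finrank_inf_eq (LinearMap.ker M) ((LinearMap.ker M).map S)
    rw [hinf, finrank_bot, ← (Submodule.equivMapOfInjective S hS (LinearMap.ker M)).finrank_eq] at h2
    have h3 := (Submodule.finrank_le (LinearMap.ker M ⊔ (LinearMap.ker M).map S)).trans
      (Module.finrank_fintype_fun_eq_card F).le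
    have h4 := LinearMap.finrank_range_add_finrank_ker M
    rw [Module.finrank_fintype_fun_eq_card, Fintype.card_sum, Fintype.card_fin] at h4
    rw [Fintype.card_sum, Fintype.card_fin] at h3
    rw [show rk (y : Matrix (Fin d ⊕ Fin d) (Fin d ⊕ Fin d) F) = finrank F (LinearMap.range M) from rfl]
    omega

end CfsgLib.Omega.SympFieldExt
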