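import Mathlib
import Cfsg.Agent.Lib.Omega.SympFieldExt
import Cfsg.Agent.Lib.Omega.UnitaryEigen
import Cfsg.Agent.Lib.ClassicalForms.Unitary.Basic
import Cfsg.Agent.Lib.ClassicalForms.Unitary.Card

/-!
The standard symplectic space over a quadratic field of operators on which the adjoint is the conjugation: the
hermitian form, the unitary group inside the normaliser, and isometries of prime order commuting with the field.
-/

set_option autoImplicit false
set_option linter.unusedSectionVars false

namespace CfsgLib.Omega.SympHermField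

open Module CfsgLib.Geometric CfsgLib.Geometric.ExtF CfsgLib.Omega.TensorRank
open scoped Matrix

variable {F : Type*} [Field F] [Fintype F] {d : ℕ} {E : Type*} [Field E] [Algebra F E] [Finite E]
  [Module E (Fin d ⊕ Fin d → F)] [IsScalarTower F E (Fin d ⊕ Fin d → F)]

variable (d) in
/-- The generator `θ` with square `b` is skew for the form, and `σ` changes its sign. -/
structure IsHermField (θ : E) (b : F) (σ : E →+* E) : Prop where
  sq : θ * θ = algebraMap F E b
  neg : σ θ = -θ
  fix : ∀ c : F, σ (algebraMap F E c) = algebraMap F E c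
  invol : ∀ a, σ (σ a) = a
  ne : σ ≠ RingHom.id E
  span : ∀ a : E, ∃ c e : F, a = algebraMap F E c + algebraMap F E e * θ
  skew : ∀ u v : Fin d ⊕ Fin d → F, Cfsg.sympForm d F (θ • u) v = -Cfsg.sympForm d F u (θ • v)

variable {θ : E} {b : F} {σ : E →+* E}

theorem theta_ne_zero (h : IsHermField d θ b σ) : θ ≠ 0 := fun h0 => h.ne (RingHom.ext fun a => by
  obtain ⟨c, e, rfl⟩ := h.span a
  simp [h0, h.fix])

theorem two_ne_zero' (h : IsHermField d θ b σ) : (2 : E) ≠ 0 := fun h2 => h.ne (RingHom.ext fun a => by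
  obtain ⟨c, e, rfl⟩ := h.span a
  rw [map_add, map_mul, h.fix, h.fix, h.neg, RingHom.id_apply, neg_eq_of_add_eq_zero_left]
  rw [← two_mul, h2, zero_mul])

/-- The coefficients in the basis `1, θ`. -/
theorem coeff_inj (h : IsHermField d θ b σ) {c e c' e' : F}
    (he : algebraMap F E c + algebraMap F E e * θ = algebraMap F E c' + algebraMap F E e' * θ) : c = c' ∧ e = e' := by
  have h1 := congrArg σ he
  simp only [map_add, map_mul, h.fix, h.neg] at h1
  have h2 := two_ne_zero' h
  have hc : algebraMap F E c = algebraMap F E c' :=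
    mul_left_cancel₀ h2 (by linear_combination he + h1)
  refine ⟨(algebraMap F E).injective hc, (algebraMap F E).injective ?_⟩
  exact mul_right_cancel₀ (theta_ne_zero h) (by linear_combination he - hc)

variable (θ) in
/-- The hermitian form. -/
def hval (u v : Fin d ⊕ Fin d → F) : E :=
  algebraMap F E (Cfsg.sympForm d F (θ • u) v) - algebraMap F E (Cfsg.sympForm d F u v) * θ

theorem smul_eq (c e : F) (v : Fin d ⊕ Fin d → F) :
    (algebraMap F E c + algebraMap F E e * θ) • v = c • v + e • (θ • v) := by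
  rw [add_smul, mul_smul, algebraMap_smul, algebraMap_smul]

theorem hval_smul_right (h : IsHermField d θ b σ) (a : E) (u v : Fin d ⊕ Fin d → F) :
    hval θ u (a • v) = a * hval θ u v := by
  obtain ⟨c, e, rfl⟩ := h.span a
  have hb : ∀ w : Fin d ⊕ Fin d → F, θ • θ • w = b • w := fun w => by rw [smul_smul, h.sq, algebraMap_smul]
  have h1 : Cfsg.sympForm d F (θ • u) (θ • v) = -(b * Cfsg.sympForm d F u v) := by
    rw [h.skew, hb, ← sympBilin_apply, map_smul, sympBilin_apply, smul_eq_mul]
  have h2 : Cfsg.sympForm d F u (θ • v) = -Cfsg.sympForm d F (θ • u) v := by rw [h.skew, neg_neg]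
  rw [hval, hval, smul_eq]
  simp only [← sympBilin_apply, map_add, map_smul, smul_eq_mul]
  simp only [sympBilin_apply, h1, h2, map_mul, map_neg]
  linear_combination (algebraMap F E (Cfsg.sympForm d F u v) * algebraMap F E e) * h.sq

theorem hval_symm (h : IsHermField d θ b σ) (u v : Fin d ⊕ Fin d → F) : σ (hval θ u v) = hval θ v u := by
  have h1 : Cfsg.sympForm d F (θ • v) u = Cfsg.sympForm d F (θ • u) v := by
    rw [h.skew v u, ← sympBilin_apply, alt_skew sympBilin_self, sympBilin_apply, neg_neg]
  have h2 : Cfsg.sympForm d F v u = -Cfsg.sympForm d F u v := by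
    rw [← sympBilin_apply, alt_skew sympBilin_self, sympBilin_apply]
  simp only [hval, h1, h2, map_sub, map_mul, map_neg, h.fix, h.neg]
  ring

theorem hval_add_right (u v w : Fin d ⊕ Fin d → F) : hval θ u (v + w) = hval θ u v + hval θ u w := by
  simp only [hval, ← sympBilin_apply, map_add]
  ring

/-- The hermitian form, bundled. -/
def form (h : IsHermField d θ b σ) : (Fin d ⊕ Fin d → F) →ₛₗ[σ] (Fin d ⊕ Fin d → F) →ₗ[E] E :=
  LinearMap.mk₂'ₛₗ σ (RingHom.id E) (hval θ)
    (fun u v w => by rw [← hval_symm h w (u + v), hval_add_right, map_add, hval_symm h, hval_symm h])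
    (fun a u w => by
      rw [← hval_symm h w (a • u), hval_smul_right h, map_mul, hval_symm h, smul_eq_mul])
    hval_add_right (fun a u w => by rw [hval_smul_right h, RingHom.id_apply, smul_eq_mul])

theorem form_apply (h : IsHermField d θ b σ) (u v : Fin d ⊕ Fin d → F) : form h u v = hval θ u v := rfl

theorem form_symm (h : IsHermField d θ b σ) : (form h).IsSymm := ⟨fun u v => hval_symm h u v⟩

theorem form_nondeg (h : IsHermField d θ b σ) {u : Fin d ⊕ Fin d → F} (hu : ∀ v, form h u v = 0) : u = 0 := by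
  refine sympBilin_nondegenerate u fun v => ?_
  have h1 := hu v
  rw [form_apply, hval] at h1
  have h2 := (coeff_inj h (c := Cfsg.sympForm d F (θ • u) v) (e := -Cfsg.sympForm d F u v) (c' := 0) (e' := 0)
    (by rw [map_neg]; simp only [map_zero, zero_mul, add_zero]; linear_combination h1)).2
  rw [sympBilin_apply]
  exact neg_eq_zero.1 h2

theorem sympForm_eq_of_form (h : IsHermField d θ b σ) {u v u' v' : Fin d ⊕ Fin d → F}
    (he : form h u v = form h u' v') : Cfsg.sympForm d F u v = Cfsg.sympForm d F u' v' := by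
  simp only [form_apply, hval] at he
  exact neg_inj.1 (coeff_inj h (c := Cfsg.sympForm d F (θ • u) v) (e := -Cfsg.sympForm d F u v)
    (c' := Cfsg.sympForm d F (θ • u') v') (e' := -Cfsg.sympForm d F u' v')
    (by simp only [map_neg]; linear_combination he)).2

theorem finrank_eq (h : IsHermField d θ b σ) (hfk : finrank F E = 2) : finrank E (Fin d ⊕ Fin d → F) = d := by
  have h2 := Module.finrank_mul_finrank F E (Fin d ⊕ Fin d → F)
  rw [hfk, Module.finrank_fintype_fun_eq_card, Fintype.card_sum, Fintype.card_fin] at h2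
  omega

/-- An orthonormal basis. -/
theorem exists_basis (h : IsHermField d θ b σ) (hfk : finrank F E = 2) :
    ∃ e : Basis (Fin d) E (Fin d ⊕ Fin d → F), ∀ i j, form h (e i) (e j) = if i = j then 1 else 0 := by
  have := SympFieldExt.finiteDimensional_E (F := F) (d := d) (E := E)
  obtain ⟨v, -, hv⟩ := CfsgLib.Forms.exists_orthonormal_family σ h.ne h.invol (form h) (form_symm h) d ⊤
    (by rw [finrank_top]; exact finrank_eq h hfk) (fun w _ hw => form_nondeg h fun u => hw u Submodule.mem_top)
  have hli : LinearIndependent E v := by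
    rw [Fintype.linearIndependent_iff]
    intro g hg x
    have h1 := congrArg (form h (v x)) hg
    simpa [hv] using h1
  exact ⟨Basis.mk hli (ge_of_eq (hli.span_eq_top_of_card_eq_finrank' (by rw [Fintype.card_fin, finrank_eq h hfk]))),
    fun i j => by rw [Basis.mk_apply, Basis.mk_apply]; exact hv i j⟩

/-- Restricting to a non-degenerate subspace gives a unitary matrix. -/
theorem exists_gu {q w : ℕ} (h : IsHermField d θ b σ) (hσ : ∀ a, σ a = a ^ q)
    (W : Submodule E (Fin d ⊕ Fin d → F)) (v : Basis (Fin w) E W)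
    (hv : ∀ i j, form h (v i : Fin d ⊕ Fin d → F) (v j : Fin d ⊕ Fin d → F) = if i = j then 1 else 0)
    (L : W →ₗ[E] W) (hL : ∀ x y : W, form h (L x : Fin d ⊕ Fin d → F) (L y : Fin d ⊕ Fin d → F) =
      form h (x : Fin d ⊕ Fin d → F) (y : Fin d ⊕ Fin d → F)) :
    ∃ g ∈ Cfsg.GU w E q, (g : Matrix (Fin w) (Fin w) E) = LinearMap.toMatrix v v L := by
  classical
  have hinj : Function.Injective L := by
    rw [injective_iff_map_eq_zero]
    intro x hx
    refine (v.ext_elem fun i => ?_)
    have h1 := hL (v i) x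
    rw [hx, Submodule.coe_zero, map_zero] at h1
    have h2 : form h (v i : Fin d ⊕ Fin d → F) (x : Fin d ⊕ Fin d → F) = v.repr x i := by
      have hh := congrArg (fun z : W => form h (v i : Fin d ⊕ Fin d → F) (z : Fin d ⊕ Fin d → F)) (v.sum_repr x)
      simp only [Submodule.coe_sum, Submodule.coe_smul, map_sum, map_smul, hv, smul_eq_mul, mul_ite, mul_one,
        mul_zero, Finset.sum_ite_eq, Finset.mem_univ, if_true] at hh
      exact hh.symm
    rw [map_zero, Finsupp.zero_apply, ← h2]
    exact h1.symm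
  have hu : IsUnit (LinearMap.toMatrix v v L) := by
    rw [Matrix.isUnit_iff_isUnit_det, LinearMap.det_toMatrix]
    exact LinearEquiv.isUnit_det' (LinearEquiv.ofInjectiveEndo L hinj)
  refine ⟨hu.unit, mem_GU_of_orthonormal hσ (Pi.basisFun E (Fin w)) (fun i j => ?_) (fun i j => ?_), hu.unit_spec⟩
  · rw [Pi.basisFun_apply, Pi.basisFun_apply, CfsgLib.Forms.hermBundled_single, Pi.single_apply]
    by_cases hij : i = j
    · subst hij; simp
    · simp [hij, Ne.symm hij]
  · rw [Pi.basisFun_apply, Pi.basisFun_apply, hu.unit_spec, Matrix.mulVec_single_one, Matrix.mulVec_single_one]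
    have h1 := hL (v i) (v j)
    rw [← v.sum_repr (L (v i)), ← v.sum_repr (L (v j)), hv] at h1
    simp only [Submodule.coe_sum, Submodule.coe_smul, map_sum, map_smulₛₗ, LinearMap.sum_apply,
      LinearMap.smul_apply, map_smul, RingHom.id_apply, hv, smul_eq_mul, mul_ite, mul_one, mul_zero,
      Finset.sum_ite_eq, Finset.mem_univ, if_true] at h1
    rw [← h1]
    simp [CfsgLib.Forms.hermBundled, LinearMap.toMatrix_apply, mul_comm]

/-- The unitary group over the field lies in the symplectic normaliser. -/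
theorem card_gu_dvd {q : ℕ} (h : IsHermField d θ b σ) (hfk : finrank F E = 2) (hσ : ∀ a, σ a = a ^ q)
    (K : Subalgebra F (Matrix (Fin d ⊕ Fin d) (Fin d ⊕ Fin d) F))
    (hK : ∀ g : GL (Fin d ⊕ Fin d) F, g ∈ Cfsg.Geo.subalgebraNormalizer K ↔ IsSemi E g) :
    Nat.card (Cfsg.GU d E q) ∣ Nat.card ↥(Cfsg.Geo.subalgebraNormalizer K ⊓ Cfsg.spGL d F) := by
  classical
  obtain ⟨e, he⟩ := exists_basis h hfk
  let C : (Fin d ⊕ Fin d → F) ≃ₗ[E] (Fin d → E) := e.equivFun
  have hC : ∀ x y, form h x y = CfsgLib.Forms.hermBundled d σ (C x) (C y) := by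
    intro x y
    rw [show form h x y = form h (∑ i, e.repr x i • e i) (∑ i, e.repr y i • e i) by rw [e.sum_repr, e.sum_repr]]
    simp only [map_sum, map_smulₛₗ, LinearMap.sum_apply, LinearMap.smul_apply, map_smul, RingHom.id_apply, he,
      smul_eq_mul, mul_ite, mul_one, mul_zero, Finset.sum_ite_eq, Finset.mem_univ, if_true,
      Finset.sum_ite_eq', CfsgLib.Forms.hermBundled, LinearMap.mk₂'ₛₗ_apply, C, Basis.equivFun_apply]
  let L : Cfsg.GU d E q → ((Fin d ⊕ Fin d → F) →ₗ[E] (Fin d ⊕ Fin d → F)) := fun g =>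
    C.symm.toLinearMap ∘ₗ Matrix.toLin' ((g : GL (Fin d) E) : Matrix (Fin d) (Fin d) E) ∘ₗ C.toLinearMap
  let ψ : Cfsg.GU d E q →* GL (Fin d ⊕ Fin d) F :=
    (Matrix.GeneralLinearGroup.toLin (n := Fin d ⊕ Fin d) (R := F)).symm.toMonoidHom.comp
      ({ toFun := fun g => (L g).restrictScalars F
         map_one' := LinearMap.ext fun v => by simp [L]
         map_mul' := fun a b => LinearMap.ext fun v => by simp [L, Matrix.toLin'_mul] } :
        Cfsg.GU d E q →* Module.End F (Fin d ⊕ Fin d → F)).toHomUnits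
  have hψ : ∀ g v, ap (ψ g) v = L g v := fun g v => by
    have h1 : Matrix.GeneralLinearGroup.toLin (ψ g) = _ := MulEquiv.apply_symm_apply _ _
    exact congrArg (fun u : LinearMap.GeneralLinearGroup F (Fin d ⊕ Fin d → F) =>
      (u : Module.End F (Fin d ⊕ Fin d → F)) v) h1
  have hinj : Function.Injective ψ := fun g g' hgg => by
    refine Subtype.ext (Units.ext (Matrix.toLin'.injective (LinearMap.ext fun v => ?_)))
    have h1 : L g (C.symm v) = L g' (C.symm v) := by rw [← hψ, ← hψ, hgg]
    simpa [L] using h1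
  rw [← Subgroup.card_top (G := Cfsg.GU d E q), ← Subgroup.card_map_of_injective hinj]
  refine Subgroup.card_dvd_of_le ?_
  rintro _ ⟨g, -, rfl⟩
  refine ⟨(hK _).2 (IsSemi.of_linear E fun a x => by rw [hψ, hψ, map_smul]), ?_⟩
  intro x y
  show Cfsg.sympForm d F (ap (ψ g) x) (ap (ψ g) y) = _
  refine sympForm_eq_of_form h ?_
  rw [hψ, hψ, hC, hC]
  simp only [L, LinearMap.comp_apply, LinearEquiv.coe_coe, LinearEquiv.apply_symm_apply, Matrix.toLin'_apply]
  exact (mem_GU_iff_bundled hσ).1 g.2 _ _

/-- A linear isometry of prime order `r` prime to the characteristic: the moved space carries a unitary element of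
order `r`, so `r` divides a unitary group of that dimension. -/
theorem linear_case {q r : ℕ} [Fact r.Prime] (h : IsHermField d θ b σ) (hfk : finrank F E = 2)
    (hq : Fintype.card F = q) (hσ : ∀ a, σ a = a ^ q) (hrF : (r : F) ≠ 0) {y : GL (Fin d ⊕ Fin d) F}
    (hy : y ∈ Cfsg.spGL d F) (hlin : ∀ (a : E) x, ap y (a • x) = a • ap y x) (hr : y ^ r = 1) :
    ∃ w : ℕ, 2 * w = rk (y : Matrix (Fin d ⊕ Fin d) (Fin d ⊕ Fin d) F) ∧
      (w = 0 ∨ (orderOf ((q ^ 2 : ℕ) : ZMod r) ∣ w ∧ r ∣ Nat.card (Cfsg.GU w E q))) := by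
  classical
  have := SympFieldExt.finiteDimensional_E (F := F) (d := d) (E := E)
  haveI : Fintype E := Fintype.ofFinite E
  have : Module.Finite F E := Module.Finite.of_finite
  let Y : (Fin d ⊕ Fin d → F) →ₗ[E] (Fin d ⊕ Fin d → F) :=
    { toFun := ap y, map_add' := ap_add y, map_smul' := fun a x => hlin a x }
  have hYh : ∀ u v, form h (Y u) (Y v) = form h u v := fun u v => by
    simp only [form_apply, hval]
    rw [show Cfsg.sympForm d F (θ • Y u) (Y v) = Cfsg.sympForm d F (θ • u) v by
        show Cfsg.sympForm d F (θ • ap y u) (ap y v) = _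
        rw [← hlin]; exact hy _ _,
      show Cfsg.sympForm d F (Y u) (Y v) = Cfsg.sympForm d F u v from hy _ _]
  have hYr : ∀ v, Y^[r] v = v := by
    have : ∀ (i : ℕ) v, Y^[i] v = ap (y ^ i) v := by
      intro i
      induction i with
      | zero => intro v; simp
      | succ i ih => intro v; rw [Function.iterate_succ_apply', ih, pow_succ', ap_mul]; rfl
    intro v
    rw [this, hr, ap_one]
  set W := LinearMap.range (Y - LinearMap.id) with hW
  set w := finrank E W with hw
  refine ⟨w, ?_, ?_⟩
  · rw [hw, ← hfk, Module.finrank_mul_finrank F E W, rk,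
      show sub1 (y : Matrix (Fin d ⊕ Fin d) (Fin d ⊕ Fin d) F) = (Y - LinearMap.id).restrictScalars F from
        LinearMap.ext fun v => rfl, LinearMap.range_restrictScalars]
    rfl
  by_cases hw0 : w = 0
  · exact Or.inl hw0
  refine Or.inr ?_
  have hrE : (r : E) ≠ 0 := by
    rw [← map_natCast (algebraMap F E) r]
    exact fun h => hrF ((algebraMap F E).injective (by rw [h, map_zero]))
  have hcard : Fintype.card E = q ^ 2 := by rw [Module.card_eq_pow_finrank (K := F) (V := E), hfk, hq]
  have hqE : (Fintype.card E : ZMod r) ≠ 0 := by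
    intro h0
    rw [ZMod.natCast_eq_zero_iff] at h0
    obtain ⟨p, hp⟩ := CharP.exists E
    obtain ⟨m, hpp, hpm⟩ := FiniteField.card E p
    rw [hpm] at h0
    have := (Nat.prime_dvd_prime_iff_eq Fact.out hpp).1 ((Fact.out : r.Prime).dvd_of_dvd_pow h0)
    subst this
    exact hrE (CharP.cast_eq_zero E r)
  have hsum : ∀ v, (∑ i ∈ Finset.range r, Y^[i] v) ∈ LinearMap.ker (Y - LinearMap.id) := fun v => by
    rw [LinearMap.mem_ker, LinearMap.sub_apply, LinearMap.id_apply, sub_eq_zero, map_sum]
    have h1 := Finset.sum_range_succ' (fun i => Y^[i] v) r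
    rw [Finset.sum_range_succ, hYr] at h1
    simp only [Function.iterate_zero_apply, add_left_inj] at h1
    rw [h1]
    exact Finset.sum_congr rfl fun i _ => (Function.iterate_succ_apply' Y i v).symm
  have hWmap : ∀ v ∈ W, Y v ∈ W := by
    rintro _ ⟨u, rfl⟩
    exact ⟨Y u, by simp⟩
  have hfree : ∀ v ∈ W, Y v = v → v = 0 := by
    rintro _ ⟨u, rfl⟩ hfix
    have h1 : ∑ i ∈ Finset.range r, Y^[i] (((Y - LinearMap.id : (Fin d ⊕ Fin d → F) →ₗ[E] (Fin d ⊕ Fin d → F)) u)) = 0 := by
      have h2 : ∀ i, Y^[i] (((Y - LinearMap.id : (Fin d ⊕ Fin d → F) →ₗ[E] (Fin d ⊕ Fin d → F)) u)) = Y^[i + 1] u - Y^[i] u := fun i => by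
        rw [← Module.End.pow_apply, LinearMap.sub_apply, map_sub, Module.End.pow_apply, Module.End.pow_apply,
          Function.iterate_succ_apply]
        rfl
      rw [Finset.sum_congr rfl fun i _ => h2 i, Finset.sum_range_sub (fun i => Y^[i] u), hYr,
        Function.iterate_zero_apply, sub_self]
    have h3 : ∀ i, Y^[i] (((Y - LinearMap.id : (Fin d ⊕ Fin d → F) →ₗ[E] (Fin d ⊕ Fin d → F)) u)) = ((Y - LinearMap.id : (Fin d ⊕ Fin d → F) →ₗ[E] (Fin d ⊕ Fin d → F)) u) := fun i => by
      induction i with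
      | zero => rfl
      | succ i ih => rw [Function.iterate_succ_apply', ih]; exact hfix
    rw [Finset.sum_congr rfl fun i _ => h3 i, Finset.sum_const, Finset.card_range, ← Nat.cast_smul_eq_nsmul E,
      smul_eq_zero] at h1
    exact h1.resolve_left hrE
  -- the moved space is non-degenerate
  have hnd : ∀ v ∈ W, (∀ u ∈ W, form h v u = 0) → v = 0 := by
    intro v hv hall
    refine form_nondeg h fun t => ?_
    have hfix : form h v (∑ i ∈ Finset.range r, Y^[i] t) = 0 := by
      obtain ⟨u, rfl⟩ := hv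
      have hs := hsum t
      rw [LinearMap.mem_ker, LinearMap.sub_apply, LinearMap.id_apply, sub_eq_zero] at hs
      rw [LinearMap.sub_apply, LinearMap.id_apply, map_sub, LinearMap.sub_apply]
      conv_lhs => arg 1; rw [← hs]
      rw [hYh, sub_self]
    have hdiff : ∀ i, t - Y^[i] t ∈ W := fun i => by
      induction i with
      | zero => simp
      | succ i ih =>
        rw [show t - Y^[i + 1] t = (t - Y^[i] t) - (Y - LinearMap.id : (Fin d ⊕ Fin d → F) →ₗ[E] (Fin d ⊕ Fin d → F)) (Y^[i] t) by
          rw [Function.iterate_succ_apply', LinearMap.sub_apply, LinearMap.id_apply]; abel]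
        exact sub_mem ih ⟨_, rfl⟩
    have hk : form h v (∑ i ∈ Finset.range r, (t - Y^[i] t)) = 0 := hall _ (sum_mem fun i _ => hdiff i)
    rw [Finset.sum_sub_distrib, Finset.sum_const, Finset.card_range, map_sub, hfix, sub_zero,
      ← Nat.cast_smul_eq_nsmul E, map_smul, smul_eq_zero] at hk
    exact hk.resolve_left hrE
  refine ⟨?_, ?_⟩
  · have hdv := PrimeOrder.orderOf_dvd_finrank_of_free hqE Y W hWmap (fun v _ => hYr v) hfree
    rwa [hcard] at hdv
  · obtain ⟨v, hvW, hv⟩ := CfsgLib.Forms.exists_orthonormal_family σ h.ne h.invol (form h) (form_symm h) w W hw.symm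
      hnd
    have hli : LinearIndependent E (fun i => (⟨v i, hvW i⟩ : W)) := by
      rw [Fintype.linearIndependent_iff]
      intro g hg x
      have h0 := congrArg (fun z : W => form h (v x) (z : Fin d ⊕ Fin d → F)) hg
      simpa [hv] using h0
    let bW : Basis (Fin w) E W := Basis.mk hli (ge_of_eq (hli.span_eq_top_of_card_eq_finrank'
      (by rw [Fintype.card_fin])))
    obtain ⟨g, hg, hgL⟩ := exists_gu h hσ W bW (fun i j => by simp only [bW, Basis.mk_apply]; exact hv i j)
      (Y.restrict hWmap) (fun x y => hYh _ _)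
    have hgr : g ^ r = 1 := Units.ext (by
      rw [Units.val_pow_eq_pow_val, hgL, Units.val_one]
      have hp : (Y.restrict hWmap) ^ r = 1 := LinearMap.ext fun x => Subtype.ext (by
        rw [Module.End.pow_apply]
        have : ∀ i, (((Y.restrict hWmap)^[i] x : W) : Fin d ⊕ Fin d → F) = Y^[i] (x : Fin d ⊕ Fin d → F) := fun i => by
          induction i with
          | zero => rfl
          | succ i ih => rw [Function.iterate_succ_apply', Function.iterate_succ_apply', ← ih]; rfl
        rw [this, hYr]; rfl)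
      exact ((map_pow (LinearMap.toMatrixAlgEquiv bW) (Y.restrict hWmap) r).symm.trans (by rw [hp, map_one])))
    have hg1 : g ≠ 1 := fun h1 => by
      rw [h1, Units.val_one] at hgL
      have hone : Y.restrict hWmap = LinearMap.id :=
        (LinearMap.toMatrix bW bW).injective (by rw [LinearMap.toMatrix_id]; exact hgL.symm)
      obtain ⟨u, huW, hu0⟩ := Submodule.exists_mem_ne_zero_of_ne_bot (p := W) fun h0 => hw0 (by
        rw [hw, h0, finrank_bot])
      exact hu0 (hfree u huW (congrArg Subtype.val (LinearMap.congr_fun hone ⟨u, huW⟩)))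
    have hord : orderOf (⟨g, hg⟩ : Cfsg.GU w E q) = r :=
      orderOf_eq_prime (Subtype.ext hgr) fun h1 => hg1 (congrArg Subtype.val h1)
    rw [← hord]
    exact orderOf_dvd_natCard _

end CfsgLib.Omega.SympHermField
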