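import Cfsg.Agent.Lib.ClassicalLinear.SympCard
import Cfsg.Agent.Lib.Forms.Symplectic
import Cfsg.Agent.Lib.Omega.SympPieces

/-!
The number of totally isotropic subspaces of a symplectic space, up to its prime divisors.
-/

set_option autoImplicit false

open Module
open scoped Matrix

namespace CfsgLib.Omega.SympIso

open CfsgLib.Omega.SympPieces

universe u

variable {F : Type u} [Field F] {d : ℕ}

/-- The action of the symplectic group on vectors, as linear maps. -/
noncomputable def act (g : Matrix.symplecticGroup (Fin d) F) : Module.End F (Fin d ⊕ Fin d → F) :=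
  Matrix.toLin' (g : Matrix (Fin d ⊕ Fin d) (Fin d ⊕ Fin d) F)

theorem act_mul (g h : Matrix.symplecticGroup (Fin d) F) : act (g * h) = (act g).comp (act h) :=
  Matrix.toLin'_mul _ _

theorem act_one : act (1 : Matrix.symplecticGroup (Fin d) F) = LinearMap.id := Matrix.toLin'_one

theorem act_form (g : Matrix.symplecticGroup (Fin d) F) (u v : Fin d ⊕ Fin d → F) :
    sympBilin d F (act g u) (act g v) = sympBilin d F u v := by
  simp only [act, Matrix.toLin'_apply, sympBilin_apply]
  exact sympForm_mulVec_of_mem g.2 u v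

theorem act_injective (g : Matrix.symplecticGroup (Fin d) F) : Function.Injective (act g) :=
  Function.LeftInverse.injective (g := act g⁻¹) fun v => by
    rw [← LinearMap.comp_apply, ← act_mul, inv_mul_cancel, act_one]; rfl

/-- The stabiliser of a subspace. -/
noncomputable def stab (W : Submodule F (Fin d ⊕ Fin d → F)) : Subgroup (Matrix.symplecticGroup (Fin d) F) where
  carrier := {g | W.map (act g) = W}
  one_mem' := by show W.map (act 1) = W; rw [act_one, Submodule.map_id]
  mul_mem' := fun {a b} ha hb => by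
    show W.map (act (a * b)) = W
    rw [act_mul, Submodule.map_comp, hb, ha]
  inv_mem' := fun {a} ha => by
    show W.map (act a⁻¹) = W
    conv_lhs => rw [← show W.map (act a) = W from ha, ← Submodule.map_comp, ← act_mul, inv_mul_cancel, act_one]
    rw [Submodule.map_id]

theorem mem_stab {W : Submodule F (Fin d ⊕ Fin d → F)} {g : Matrix.symplecticGroup (Fin d) F} :
    g ∈ stab W ↔ W.map (act g) = W := Iff.rfl

/-- The totally isotropic `m`-spaces form one orbit. -/
theorem card_eq_index {m : ℕ} {W₀ : Submodule F (Fin d ⊕ Fin d → F)} (hd : finrank F W₀ = m)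
    (hiso : IsoOn (sympBilin d F) W₀) :
    Nat.card {W : Submodule F (Fin d ⊕ Fin d → F) // finrank F ↥W = m ∧
      (∀ u ∈ W, ∀ v ∈ W, Cfsg.sympForm d F u v = 0)} = (stab W₀).index := by
  symm
  refine Nat.card_congr (Equiv.ofBijective (Quotient.lift (fun g : Matrix.symplecticGroup (Fin d) F =>
    (⟨W₀.map (act g), by rw [← (Submodule.equivMapOfInjective (act g) (act_injective g) W₀).finrank_eq, hd], by
      rintro _ ⟨u, hu, rfl⟩ _ ⟨v, hv, rfl⟩
      rw [← sympBilin_apply, act_form]
      exact hiso u hu v hv⟩ :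
      {W : Submodule F (Fin d ⊕ Fin d → F) // finrank F ↥W = m ∧
        (∀ u ∈ W, ∀ v ∈ W, Cfsg.sympForm d F u v = 0)})) fun a b hab => ?_) ⟨?_, ?_⟩)
  · have hm : W₀.map (act (a⁻¹ * b)) = W₀ := QuotientGroup.leftRel_apply.1 hab
    refine Subtype.ext ?_
    show W₀.map (act a) = W₀.map (act b)
    conv_lhs => rw [← hm, ← Submodule.map_comp, ← act_mul, mul_inv_cancel_left]
  · intro x y
    induction x using Quotient.inductionOn with | _ a => ?_
    induction y using Quotient.inductionOn with | _ b => ?_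
    intro h
    refine Quotient.sound (QuotientGroup.leftRel_apply.2 ?_)
    show W₀.map (act (a⁻¹ * b)) = W₀
    rw [act_mul, Submodule.map_comp, ← show W₀.map (act a) = W₀.map (act b) from congrArg Subtype.val h,
      ← Submodule.map_comp, ← act_mul, inv_mul_cancel, act_one, Submodule.map_id]
  · rintro ⟨W, hWd, hWi⟩
    let ι : W₀ ≃ₗ[F] W := LinearEquiv.ofFinrankEq _ _ (by rw [hd, hWd])
    obtain ⟨g, hg, hgf⟩ := Forms.witt_extension_alt (sympBilin d F) (Forms.sympBilin_nondeg d F)
      (Forms.sympBilin_isAlt d F) W₀ (W.subtype ∘ₗ ι.toLinearMap) (W.injective_subtype.comp ι.injective)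
      (fun a b => (sympBilin_apply _ _).trans ((hWi _ (ι a).2 _ (ι b).2).trans (hiso a a.2 b b.2).symm))
    let gs : Matrix.symplecticGroup (Fin d) F := Forms.spOfEquiv g (fun u v => by
      rw [← sympBilin_apply, ← sympBilin_apply]; exact hg u v)
    have hgs : ∀ v, act gs v = g v := fun v => by
      simp only [act, Matrix.toLin'_apply]
      exact Forms.spOfEquiv_mulVec _ _ v
    refine ⟨Quotient.mk'' gs, Subtype.ext ?_⟩
    show W₀.map (act gs) = W
    ext v
    rw [Submodule.mem_map]
    constructor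
    · rintro ⟨u, hu, rfl⟩
      rw [hgs, show g u = g ((⟨u, hu⟩ : W₀) : _) from rfl, hgf]
      exact (ι ⟨u, hu⟩).2
    · intro hv
      refine ⟨(ι.symm ⟨v, hv⟩ : W₀), (ι.symm ⟨v, hv⟩).2, ?_⟩
      rw [hgs, hgf]
      simp

variable [Fintype F]

/-- A Sylow subgroup for the characteristic fixes a totally isotropic space of every dimension. -/
theorem exists_fixed_iso {p : ℕ} [Fact p.Prime] [CharP F p] (P : Sylow p (Matrix.symplecticGroup (Fin d) F)) :
    ∀ k ≤ d, ∃ W : Submodule F (Fin d ⊕ Fin d → F), finrank F W = k ∧ IsoOn (sympBilin d F) W ∧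
      ∀ g ∈ P, W.map (act g) = W := by
  intro k
  induction k with
  | zero => exact fun _ => ⟨⊥, finrank_bot _ _, fun u hu => by simp [(Submodule.mem_bot F).1 hu],
      fun g _ => Submodule.map_bot _⟩
  | succ k ih =>
    intro hk
    obtain ⟨W, hWd, hWi, hWP⟩ := ih (by omega)
    let π : (Fin d ⊕ Fin d → F) →ₗ[F] (W →ₗ[F] F) := (LinearMap.lcomp F F W.subtype) ∘ₗ (sympBilin d F).flip
    set Wp := LinearMap.ker π with hWpdef
    have hWp : ∀ v, v ∈ Wp ↔ ∀ w ∈ W, sympBilin d F w v = 0 := fun v => LinearMap.mem_ker.trans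
      ⟨fun h w hw => LinearMap.congr_fun h ⟨w, hw⟩, fun h => LinearMap.ext fun u => h u u.2⟩
    have hWle : W ≤ Wp := fun v hv => (hWp v).2 fun w hw => hWi w hw v hv
    have hWpP : ∀ g ∈ P, ∀ v ∈ Wp, act g v ∈ Wp := fun g hg v hv => (hWp _).2 fun w hw => by
      rw [← hWP g hg] at hw
      obtain ⟨u, hu, rfl⟩ := hw
      rw [act_form]
      exact (hWp v).1 hv u hu
    have hWpd : finrank F W + (k + 1) ≤ finrank F Wp + k := by
      have h2 := LinearMap.finrank_range_add_finrank_ker π
      have h3 := Submodule.finrank_le (LinearMap.range π)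
      rw [Subspace.dual_finrank_eq] at h3
      rw [Module.finrank_fintype_fun_eq_card, Fintype.card_sum, Fintype.card_fin, ← hWpdef] at h2
      omega
    let W' : Submodule F Wp := W.comap Wp.subtype
    have hstab : ∀ (g : P) v, v ∈ Wp → act (g : Matrix.symplecticGroup (Fin d) F) v ∈ Wp := fun g => hWpP g g.2
    let a : P → Module.End F Wp := fun g => (act (g : Matrix.symplecticGroup (Fin d) F)).restrict (hstab g)
    have hW' : ∀ g, W' ≤ W'.comap (a g) := fun g v hv => by
      show act (g : Matrix.symplecticGroup (Fin d) F) (v : Fin d ⊕ Fin d → F) ∈ W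
      exact hWP g g.2 ▸ Submodule.mem_map_of_mem hv
    letI : MulAction P (Wp ⧸ W') :=
      { smul := fun g x => W'.mapQ W' (a g) (hW' g) x
        one_smul := fun x => by
          induction x using Submodule.Quotient.induction_on with | _ v => ?_
          show W'.mapQ W' (a 1) (hW' 1) (Submodule.Quotient.mk v) = _
          rw [Submodule.mapQ_apply]
          congr 1
          exact Subtype.ext (LinearMap.congr_fun act_one (v : Fin d ⊕ Fin d → F))
        mul_smul := fun g h x => by
          induction x using Submodule.Quotient.induction_on with | _ v => ?_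
          show W'.mapQ W' (a (g * h)) (hW' _) (Submodule.Quotient.mk v) =
            W'.mapQ W' (a g) (hW' g) (W'.mapQ W' (a h) (hW' h) (Submodule.Quotient.mk v))
          rw [Submodule.mapQ_apply, Submodule.mapQ_apply, Submodule.mapQ_apply]
          congr 1
          exact Subtype.ext (LinearMap.congr_fun (act_mul (g : Matrix.symplecticGroup (Fin d) F) h)
            (v : Fin d ⊕ Fin d → F)) }
    have hW'd : finrank F W' = k := (Submodule.comapSubtypeEquivOfLe hWle).finrank_eq.trans hWd
    have hdvd : p ∣ Nat.card (Wp ⧸ W') := by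
      rw [Module.natCard_eq_pow_finrank (K := F), Nat.card_eq_fintype_card]
      obtain ⟨e, -, he⟩ := FiniteField.card F p
      refine dvd_pow (he ▸ dvd_pow_self p e.pos.ne') ?_
      have := Submodule.finrank_quotient_add_finrank W'
      omega
    have : Finite (Wp ⧸ W') := Finite.of_surjective _ (Submodule.Quotient.mk_surjective W')
    obtain ⟨b, hb, hb0⟩ := P.2.exists_fixed_point_of_prime_dvd_card_of_fixed_point (Wp ⧸ W') hdvd
      (a := (0 : Wp ⧸ W')) (fun g => map_zero (W'.mapQ W' (a g) (hW' g)))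
    obtain ⟨v, rfl⟩ := Submodule.Quotient.mk_surjective W' b
    have hv : (v : Fin d ⊕ Fin d → F) ∉ W := fun h => hb0 ((Submodule.Quotient.mk_eq_zero W').2 h).symm
    refine ⟨W ⊔ F ∙ (v : Fin d ⊕ Fin d → F), ?_, ?_, fun g hg => ?_⟩
    · have h := Submodule.finrank_sup_add_finrank_inf_eq W (F ∙ (v : Fin d ⊕ Fin d → F))
      have hv0 : (v : Fin d ⊕ Fin d → F) ≠ 0 := fun h => hv (h ▸ W.zero_mem)
      rw [(Submodule.disjoint_span_singleton' hv0).2 hv |>.eq_bot, finrank_bot, finrank_span_singleton hv0] at h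
      omega
    · intro x hx y hy
      obtain ⟨w, hw, _, hc, rfl⟩ := Submodule.mem_sup.1 hx
      obtain ⟨c, rfl⟩ := Submodule.mem_span_singleton.1 hc
      obtain ⟨w', hw', _, hc', rfl⟩ := Submodule.mem_sup.1 hy
      obtain ⟨c', rfl⟩ := Submodule.mem_span_singleton.1 hc'
      simp only [map_add, map_smul, LinearMap.add_apply, LinearMap.smul_apply, hWi w hw w' hw',
        (hWp _).1 v.2 w hw, sympBilin_self]
      rw [alt_skew sympBilin_self (v : Fin d ⊕ Fin d → F) w', (hWp _).1 v.2 w' hw']
      simp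
    · refine Submodule.eq_of_le_of_finrank_le ?_ (le_of_eq
        (Submodule.equivMapOfInjective (act g) (act_injective g) _).finrank_eq)
      rw [Submodule.map_sup, hWP g hg, sup_le_iff]
      refine ⟨le_sup_left, ?_⟩
      rw [Submodule.map_span, Set.image_singleton, Submodule.span_singleton_le_iff_mem]
      have h := hb ⟨g, hg⟩
      change W'.mapQ W' (a ⟨g, hg⟩) (hW' _) (Submodule.Quotient.mk v) = Submodule.Quotient.mk v at h
      rw [Submodule.mapQ_apply, Submodule.Quotient.eq] at h
      have h1 : act g (v : Fin d ⊕ Fin d → F) - v ∈ W := h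
      rw [← sub_add_cancel (act g (v : Fin d ⊕ Fin d → F)) v]
      exact Submodule.add_mem_sup h1 (Submodule.mem_span_singleton_self _)

/-- The characteristic does not divide the number of totally isotropic `m`-spaces. -/
theorem not_dvd_card {p : ℕ} [Fact p.Prime] [CharP F p] {m : ℕ} (hm : m ≤ d) :
    ¬ p ∣ Nat.card {W : Submodule F (Fin d ⊕ Fin d → F) // finrank F ↥W = m ∧
      (∀ u ∈ W, ∀ v ∈ W, Cfsg.sympForm d F u v = 0)} := by
  obtain ⟨P⟩ : Nonempty (Sylow p (Matrix.symplecticGroup (Fin d) F)) := inferInstance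
  obtain ⟨W, hWd, hWi, hWP⟩ := exists_fixed_iso P m hm
  rw [card_eq_index hWd hWi]
  intro h
  exact P.not_dvd_index (h.trans (Subgroup.index_dvd_of_le fun g hg => hWP g hg))

/-- A prime dividing the number of totally isotropic `k`-spaces of a `2(n+k)`-space has a multiplicative order
dividing one of the top exponents. -/
theorem exists_exponent (n k : ℕ) {r : ℕ} [Fact r.Prime] (hrq : (Fintype.card F : ZMod r) ≠ 0)
    (hr : r ∣ Nat.card {W : Submodule F (Fin (n + k) ⊕ Fin (n + k) → F) // finrank F ↥W = k ∧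
        (∀ u ∈ W, ∀ v ∈ W, Cfsg.sympForm (n + k) F u v = 0)}) :
    ∃ j, n < j ∧ j ≤ n + k ∧ orderOf (Fintype.card F : ZMod r) ∣ 2 * j := by
  classical
  let Bp : LinearMap.BilinForm F ((Fin n ⊕ Fin n → F) × (Fin k ⊕ Fin k → F)) :=
    (sympBilin n F).compl₁₂ (LinearMap.fst F _ _) (LinearMap.fst F _ _) +
      (sympBilin k F).compl₁₂ (LinearMap.snd F _ _) (LinearMap.snd F _ _)
  have hBp : ∀ u v, Bp u v = sympBilin n F u.1 v.1 + sympBilin k F u.2 v.2 := fun u v => rfl
  have hBpa : ∀ u, Bp u u = 0 := fun u => by rw [hBp, sympBilin_self, sympBilin_self, add_zero]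
  have hBpn : Bp.Nondegenerate := by
    have h : ∀ u, (∀ v, Bp u v = 0) → u = 0 := fun u hu =>
      Prod.ext (sympBilin_nondegenerate _ fun w => by simpa [hBp] using hu (w, 0))
        (sympBilin_nondegenerate _ fun w => by simpa [hBp] using hu (0, w))
    exact ⟨h, fun u hu => h u fun v => by
      rw [← LinearMap.IsAlt.neg (show Bp.IsAlt from hBpa) v u, hu v, neg_zero]⟩
  obtain ⟨e, he⟩ := Forms.alt_isometric Bp hBpn hBpa (sympBilin (n + k) F) (Forms.sympBilin_nondeg _ F)
    sympBilin_self (by rw [Module.finrank_prod]; simp; ring)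
  let E : (Fin k → F) →ₗ[F] (Fin (n + k) ⊕ Fin (n + k) → F) :=
    { toFun := fun a => e (0, Sum.elim a 0)
      map_add' := fun a b => by rw [← map_add]; congr 1; ext (i | i) <;> simp
      map_smul' := fun c a => by rw [RingHom.id_apply, ← map_smul]; congr 1; ext (i | i) <;> simp }
  have hEinj : Function.Injective E := fun a b h => funext fun i =>
    congrFun (congrArg Prod.snd (e.injective h)) (Sum.inl i)
  have hEd : finrank F (LinearMap.range E) = k := by
    rw [LinearMap.finrank_range_of_inj hEinj, Module.finrank_fin_fun]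
  have hEiso : IsoOn (sympBilin (n + k) F) (LinearMap.range E) := by
    rintro _ ⟨a, rfl⟩ _ ⟨b, rfl⟩
    show sympBilin (n + k) F (e (0, Sum.elim a 0)) (e (0, Sum.elim b 0)) = 0
    rw [he, hBp]
    simp [sympBilin_apply, sympForm_eq_sum]
  let conjP : Matrix.symplecticGroup (Fin n) F → Module.End F (Fin (n + k) ⊕ Fin (n + k) → F) := fun g =>
    e.toLinearMap ∘ₗ ((Matrix.toLin' (g : Matrix (Fin n ⊕ Fin n) (Fin n ⊕ Fin n) F)).prodMap LinearMap.id) ∘ₗ
      e.symm.toLinearMap
  have hP : ∀ g u, conjP g (e u) = e ((g : Matrix (Fin n ⊕ Fin n) (Fin n ⊕ Fin n) F) *ᵥ u.1, u.2) := fun g u => by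
    simp [conjP]
  have hmem : ∀ g, LinearMap.toMatrix' (conjP g) ∈ Matrix.symplecticGroup (Fin (n + k)) F :=
    fun g => Forms.mem_symplecticGroup_iff_form.2 fun u v => by
      rw [LinearMap.toMatrix'_mulVec, LinearMap.toMatrix'_mulVec]
      obtain ⟨u, rfl⟩ := e.surjective u
      obtain ⟨v, rfl⟩ := e.surjective v
      rw [hP, hP, ← sympBilin_apply, ← sympBilin_apply, he, he, hBp, hBp]
      congr 1
      simp only [sympBilin_apply]
      exact sympForm_mulVec_of_mem g.2 _ _
  have hLφ : ∀ g, act ⟨_, hmem g⟩ = conjP g := fun g => Matrix.toLin'_toMatrix' _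
  let φ : Matrix.symplecticGroup (Fin n) F →* stab (LinearMap.range E) :=
    { toFun := fun g => ⟨⟨_, hmem g⟩, by
        rw [mem_stab, hLφ, ← LinearMap.range_comp]
        congr 1
        refine LinearMap.ext fun a => ?_
        show conjP g (e (0, Sum.elim a 0)) = e (0, Sum.elim a 0)
        rw [hP]
        simp⟩
      map_one' := Subtype.ext (Subtype.ext (Matrix.toLin'.injective (LinearMap.ext fun v => by
        obtain ⟨v, rfl⟩ := e.surjective v
        show act ⟨_, hmem 1⟩ (e v) = act 1 (e v)
        rw [hLφ, hP, act_one]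
        simp)))
      map_mul' := fun g h => Subtype.ext (Subtype.ext (Matrix.toLin'.injective (LinearMap.ext fun v => by
        obtain ⟨v, rfl⟩ := e.surjective v
        show act ⟨_, hmem (g * h)⟩ (e v) = act (⟨_, hmem g⟩ * ⟨_, hmem h⟩) (e v)
        rw [act_mul, LinearMap.comp_apply, hLφ, hLφ, hLφ, hP, hP, hP, Matrix.mulVec_mulVec]
        rfl))) }
  have hφ : Function.Injective φ := fun g h hgh => Subtype.ext (Matrix.toLin'.injective (LinearMap.ext fun v => by
    have h1 := LinearMap.congr_fun (congrArg act (congrArg Subtype.val hgh)) (e (v, 0))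
    change act ⟨_, hmem g⟩ _ = act ⟨_, hmem h⟩ _ at h1
    rw [hLφ, hLφ, hP, hP] at h1
    exact congrArg Prod.fst (e.injective h1)))
  have h : r * Nat.card (Matrix.symplecticGroup (Fin n) F) ∣ Nat.card (Matrix.symplecticGroup (Fin (n + k)) F) := by
    rw [← Subgroup.index_mul_card (stab (LinearMap.range E)), ← card_eq_index hEd hEiso]
    exact mul_dvd_mul hr (Subgroup.card_dvd_of_injective φ hφ)
  rw [ClassicalLinear.card_sp, ClassicalLinear.card_sp, Finset.prod_range_add] at h
  have hq : 1 < Fintype.card F := Fintype.one_lt_card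
  have hpos : 0 < ∏ i ∈ Finset.range n, (Fintype.card F ^ (2 * (i + 1)) - 1) :=
    Finset.prod_pos fun i _ => Nat.sub_pos_of_lt (Nat.one_lt_pow (by omega) hq)
  have hnq : ¬ r ∣ Fintype.card F := fun hd => hrq ((ZMod.natCast_eq_zero_iff _ _).2 hd)
  have h2 : r ∣ Fintype.card F ^ ((n + k) ^ 2) *
      ∏ x ∈ Finset.range k, (Fintype.card F ^ (2 * (n + x + 1)) - 1) := by
    refine Nat.dvd_of_mul_dvd_mul_right hpos ((Dvd.intro (Fintype.card F ^ n ^ 2) ?_).trans (h.trans (dvd_of_eq ?_)))
    · ring
    · ring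
  rcases (Fact.out : r.Prime).dvd_mul.1 h2 with h3 | h3
  · exact absurd ((Fact.out : r.Prime).dvd_of_dvd_pow h3) hnq
  obtain ⟨x, hx, hx'⟩ := ((Fact.out : r.Prime).prime.dvd_finsetProd_iff _).1 h3
  rw [Finset.mem_range] at hx
  refine ⟨n + x + 1, by omega, by omega, orderOf_dvd_of_pow_eq_one ?_⟩
  rw [← ZMod.natCast_eq_zero_iff, Nat.cast_sub (Nat.one_le_pow _ _ (by omega)), sub_eq_zero] at hx'
  exact_mod_cast hx'

end CfsgLib.Omega.SympIso
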