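import Cfsg.Agent.Lib.ClassicalLinear.SympCard
import Cfsg.Agent.Lib.Forms.Symplectic
import Cfsg.Agent.Lib.Omega.SympForm

/-!
The number of non-degenerate subspaces of a symplectic space, up to its prime divisors.
-/

set_option autoImplicit false

open Module
open scoped Matrix

namespace CfsgLib.Omega.SympSubspace

universe u

variable {F : Type u} [Field F] [Fintype F]

omit [Fintype F] in
theorem sympBilin_nondeg' (d : ℕ) : (sympBilin d F).Nondegenerate :=
  ⟨sympBilin_nondegenerate, fun u hu => sympBilin_nondegenerate u fun v => by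
    rw [← LinearMap.IsAlt.neg (show (sympBilin d F).IsAlt from sympBilin_self) v u, hu v, neg_zero]⟩

omit [Fintype F] in
/-- The number of non-degenerate `2k`-spaces times the order of `Sp_{2n}` divides the order of `Sp_{2(n+k)}`. -/
theorem card_mul_card_sp_dvd (n k : ℕ) :
    Nat.card {W : Submodule F (Fin (n + k) ⊕ Fin (n + k) → F) // finrank F ↥W = 2 * k ∧
        (∀ u ∈ W, u ≠ 0 → ∃ v ∈ W, Cfsg.sympForm (n + k) F u v ≠ 0)} *
      Nat.card (Matrix.symplecticGroup (Fin n) F) ∣ Nat.card (Matrix.symplecticGroup (Fin (n + k)) F) := by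
  classical
  let B₁ := sympBilin n F
  let B₂ := sympBilin k F
  let Bp : LinearMap.BilinForm F ((Fin n ⊕ Fin n → F) × (Fin k ⊕ Fin k → F)) :=
    B₁.compl₁₂ (LinearMap.fst F _ _) (LinearMap.fst F _ _) + B₂.compl₁₂ (LinearMap.snd F _ _) (LinearMap.snd F _ _)
  have hBp : ∀ u v, Bp u v = B₁ u.1 v.1 + B₂ u.2 v.2 := fun u v => rfl
  have hBpa : ∀ u, Bp u u = 0 := fun u => by rw [hBp, sympBilin_self, sympBilin_self, add_zero]
  have hBpn : Bp.Nondegenerate := by
    have h : ∀ u, (∀ v, Bp u v = 0) → u = 0 := fun u hu =>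
      Prod.ext (sympBilin_nondegenerate _ fun w => by simpa [hBp, B₁, B₂] using hu (w, 0))
        (sympBilin_nondegenerate _ fun w => by simpa [hBp, B₁, B₂] using hu (0, w))
    exact ⟨h, fun u hu => h u fun v => by
      rw [← LinearMap.IsAlt.neg (show Bp.IsAlt from hBpa) v u, hu v, neg_zero]⟩
  obtain ⟨e, he⟩ := Forms.alt_isometric Bp hBpn hBpa (sympBilin (n + k) F) (sympBilin_nondeg' _) sympBilin_self
    (by rw [Module.finrank_prod]; simp; ring)
  set G := Matrix.symplecticGroup (Fin (n + k)) F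
  let L : G → Module.End F (Fin (n + k) ⊕ Fin (n + k) → F) := fun g =>
    Matrix.toLin' (g : Matrix (Fin (n + k) ⊕ Fin (n + k)) (Fin (n + k) ⊕ Fin (n + k)) F)
  have hLmul : ∀ g h : G, L (g * h) = (L g).comp (L h) := fun g h => Matrix.toLin'_mul _ _
  have hLone : L 1 = LinearMap.id := Matrix.toLin'_one
  have hLform : ∀ (g : G) u v, sympBilin (n + k) F (L g u) (L g v) = sympBilin (n + k) F u v := fun g u v => by
    simp only [L, Matrix.toLin'_apply, sympBilin_apply]
    exact sympForm_mulVec_of_mem g.2 u v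
  let W₀ : Submodule F (Fin (n + k) ⊕ Fin (n + k) → F) :=
    (LinearMap.range (LinearMap.inr F (Fin n ⊕ Fin n → F) (Fin k ⊕ Fin k → F))).map e.toLinearMap
  have hW₀ : ∀ v, v ∈ W₀ ↔ ∃ w, e (0, w) = v := fun v =>
    ⟨fun ⟨_, ⟨w, rfl⟩, h⟩ => ⟨w, h⟩, fun ⟨w, h⟩ => ⟨_, ⟨w, rfl⟩, h⟩⟩
  let S : Subgroup G :=
    { carrier := {g | W₀.map (L g) = W₀}
      one_mem' := by show W₀.map (L 1) = W₀; rw [hLone, Submodule.map_id]
      mul_mem' := fun {a b} ha hb => by
        show W₀.map (L (a * b)) = W₀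
        rw [hLmul, Submodule.map_comp, hb, ha]
      inv_mem' := fun {a} ha => by
        show W₀.map (L a⁻¹) = W₀
        conv_lhs => rw [← show W₀.map (L a) = W₀ from ha, ← Submodule.map_comp, ← hLmul, inv_mul_cancel, hLone]
        rw [Submodule.map_id] }
  -- the copy of the small group
  let conjP : Matrix.symplecticGroup (Fin n) F → Module.End F (Fin (n + k) ⊕ Fin (n + k) → F) := fun g =>
    e.toLinearMap ∘ₗ ((Matrix.toLin' (g : Matrix (Fin n ⊕ Fin n) (Fin n ⊕ Fin n) F)).prodMap LinearMap.id) ∘ₗ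
      e.symm.toLinearMap
  have hP : ∀ g u, conjP g (e u) = e ((g : Matrix (Fin n ⊕ Fin n) (Fin n ⊕ Fin n) F) *ᵥ u.1, u.2) := fun g u => by
    simp [conjP]
  have hmem : ∀ g, LinearMap.toMatrix' (conjP g) ∈ G := fun g => Forms.mem_symplecticGroup_iff_form.2 fun u v => by
    rw [LinearMap.toMatrix'_mulVec, LinearMap.toMatrix'_mulVec]
    obtain ⟨u, rfl⟩ := e.surjective u
    obtain ⟨v, rfl⟩ := e.surjective v
    rw [hP, hP, ← sympBilin_apply, ← sympBilin_apply, he, he, hBp, hBp]
    congr 1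
    simp only [B₁, sympBilin_apply]
    exact sympForm_mulVec_of_mem g.2 _ _
  have hLφ : ∀ g, L ⟨_, hmem g⟩ = conjP g := fun g => Matrix.toLin'_toMatrix' _
  let φ : Matrix.symplecticGroup (Fin n) F →* S :=
    { toFun := fun g => ⟨⟨_, hmem g⟩, by
        show W₀.map (L ⟨_, hmem g⟩) = W₀
        rw [hLφ]
        ext v
        simp only [Submodule.mem_map, hW₀]
        constructor
        · rintro ⟨_, ⟨w, rfl⟩, rfl⟩; exact ⟨w, by rw [hP]; simp⟩
        · rintro ⟨w, rfl⟩; exact ⟨_, ⟨w, rfl⟩, by rw [hP]; simp⟩⟩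
      map_one' := Subtype.ext (Subtype.ext (Matrix.toLin'.injective (LinearMap.ext fun v => by
        obtain ⟨v, rfl⟩ := e.surjective v
        show L ⟨_, hmem 1⟩ (e v) = L 1 (e v)
        rw [hLφ, hP, hLone]
        simp)))
      map_mul' := fun g h => Subtype.ext (Subtype.ext (Matrix.toLin'.injective (LinearMap.ext fun v => by
        obtain ⟨v, rfl⟩ := e.surjective v
        show L ⟨_, hmem (g * h)⟩ (e v) = L (⟨_, hmem g⟩ * ⟨_, hmem h⟩) (e v)
        rw [hLmul, LinearMap.comp_apply, hLφ, hLφ, hLφ, hP, hP, hP, Matrix.mulVec_mulVec]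
        rfl))) }
  have hφ : Function.Injective φ := fun g h hgh => Subtype.ext (Matrix.toLin'.injective (LinearMap.ext fun v => by
    have h1 := LinearMap.congr_fun (congrArg L (congrArg Subtype.val hgh)) (e (v, 0))
    change L ⟨_, hmem g⟩ _ = L ⟨_, hmem h⟩ _ at h1
    rw [hLφ, hLφ, hP, hP] at h1
    exact congrArg Prod.fst (e.injective h1)))
  have hdvd : Nat.card (Matrix.symplecticGroup (Fin n) F) ∣ Nat.card S :=
    Subgroup.card_dvd_of_injective φ hφ
  refine (mul_dvd_mul_left _ hdvd).trans (dvd_of_eq ?_)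
  rw [Subgroup.card_eq_card_quotient_mul_card_subgroup S]
  congr 1
  have hbase : finrank F W₀ = 2 * k ∧ ∀ u ∈ W₀, u ≠ 0 → ∃ v ∈ W₀, Cfsg.sympForm (n + k) F u v ≠ 0 := by
    refine ⟨?_, fun u hu hu0 => ?_⟩
    · rw [LinearEquiv.finrank_map_eq, LinearMap.finrank_range_of_inj LinearMap.inr_injective]
      simp
      ring
    · obtain ⟨w, rfl⟩ := (hW₀ _).1 hu
      have hw : w ≠ 0 := fun h => hu0 (by rw [h, Prod.mk_zero_zero, map_zero])
      obtain ⟨w', hw'⟩ := not_forall.1 (fun h => hw (sympBilin_nondegenerate w h))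
      exact ⟨_, (hW₀ _).2 ⟨w', rfl⟩, by rw [← sympBilin_apply, he, hBp]; simpa [B₁, B₂] using hw'⟩
  have hLinj : ∀ g : G, Function.Injective (L g) := fun g =>
    Function.LeftInverse.injective (g := L g⁻¹) fun v => by
      rw [← LinearMap.comp_apply, ← hLmul, inv_mul_cancel, hLone]; rfl
  symm
  refine Nat.card_congr (Equiv.ofBijective (Quotient.lift (fun g : G =>
    (⟨W₀.map (L g), by
      rw [← (Submodule.equivMapOfInjective (L g) (hLinj g) W₀).finrank_eq]; exact hbase.1, by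
      rintro _ ⟨u, hu, rfl⟩ hne
      obtain ⟨v, hv, hv'⟩ := hbase.2 u hu fun h => hne (by rw [h, map_zero])
      exact ⟨_, Submodule.mem_map_of_mem hv, by rw [← sympBilin_apply, hLform, sympBilin_apply]; exact hv'⟩⟩ :
      {W : Submodule F (Fin (n + k) ⊕ Fin (n + k) → F) // finrank F ↥W = 2 * k ∧
        (∀ u ∈ W, u ≠ 0 → ∃ v ∈ W, Cfsg.sympForm (n + k) F u v ≠ 0)}))
    fun a b hab => ?_) ⟨?_, ?_⟩)
  · have hm : W₀.map (L (a⁻¹ * b)) = W₀ := QuotientGroup.leftRel_apply.1 hab
    refine Subtype.ext ?_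
    show W₀.map (L a) = W₀.map (L b)
    conv_lhs => rw [← hm, ← Submodule.map_comp, ← hLmul, mul_inv_cancel_left]
  · intro x y
    induction x using Quotient.inductionOn with | _ a => ?_
    induction y using Quotient.inductionOn with | _ b => ?_
    intro h
    refine Quotient.sound (QuotientGroup.leftRel_apply.2 ?_)
    show W₀.map (L (a⁻¹ * b)) = W₀
    rw [hLmul, Submodule.map_comp, ← show W₀.map (L a) = W₀.map (L b) from congrArg Subtype.val h,
      ← Submodule.map_comp, ← hLmul, inv_mul_cancel, hLone, Submodule.map_id]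
  · rintro ⟨W, hWd, hWn⟩
    have hWn' : ((sympBilin (n + k) F).restrict W).Nondegenerate := by
      have h : ∀ u : W, (∀ v : W, sympBilin (n + k) F (u : _) v = 0) → u = 0 := fun u hu => by
        by_contra hne
        obtain ⟨v, hv, hv'⟩ := hWn u u.2 fun h => hne (Subtype.ext h)
        exact hv' (by rw [← sympBilin_apply]; exact hu ⟨v, hv⟩)
      exact ⟨h, fun u hu => h u fun v => by
        rw [← LinearMap.IsAlt.neg (show (sympBilin (n + k) F).IsAlt from sympBilin_self) (v : _) (u : _),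
          show sympBilin (n + k) F (v : _) (u : _) = 0 from hu v, neg_zero]⟩
    obtain ⟨ι, hι⟩ := Forms.alt_isometric ((sympBilin (n + k) F).restrict W) hWn' (fun u => sympBilin_self _)
      B₂ (sympBilin_nondeg' _) sympBilin_self (by rw [hWd]; simp; ring)
    obtain ⟨g, hg, hgf⟩ := Forms.witt_extension_alt (sympBilin (n + k) F) (sympBilin_nondeg' _) sympBilin_self W
      (e.toLinearMap ∘ₗ LinearMap.inr F _ _ ∘ₗ ι.toLinearMap)
      (e.injective.comp (LinearMap.inr_injective.comp ι.injective)) (fun a b => by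
        show sympBilin (n + k) F (e (0, ι a)) (e (0, ι b)) = _
        rw [he, hBp]
        simp only [map_zero, zero_add]
        exact hι a b)
    let gs : G := Forms.spOfEquiv g.symm (fun u v => by
      rw [← sympBilin_apply, ← sympBilin_apply, ← hg (g.symm u) (g.symm v), g.apply_symm_apply, g.apply_symm_apply])
    have hgs : ∀ v, L gs v = g.symm v := fun v => by
      simp only [L, Matrix.toLin'_apply]
      exact Forms.spOfEquiv_mulVec _ _ v
    refine ⟨Quotient.mk'' gs, Subtype.ext ?_⟩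
    show W₀.map (L gs) = W
    ext v
    rw [Submodule.mem_map]
    constructor
    · rintro ⟨_, hu, rfl⟩
      obtain ⟨w, rfl⟩ := (hW₀ _).1 hu
      rw [hgs, show e (0, w) = g ((ι.symm w : W) : _) by rw [hgf]; simp, g.symm_apply_apply]
      exact (ι.symm w).2
    · intro hv
      exact ⟨g v, (hW₀ _).2 ⟨ι ⟨v, hv⟩, by rw [show g v = g ((⟨v, hv⟩ : W) : _) from rfl, hgf]; rfl⟩,
        by rw [hgs, g.symm_apply_apply]⟩

/-- A prime dividing the number of non-degenerate `2k`-spaces has a multiplicative order dividing one of the top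
exponents. -/
theorem exists_exponent (n k : ℕ) {r : ℕ} [Fact r.Prime] (hrq : (Fintype.card F : ZMod r) ≠ 0)
    (hr : r ∣ Nat.card {W : Submodule F (Fin (n + k) ⊕ Fin (n + k) → F) // finrank F ↥W = 2 * k ∧
        (∀ u ∈ W, u ≠ 0 → ∃ v ∈ W, Cfsg.sympForm (n + k) F u v ≠ 0)}) :
    ∃ j, n < j ∧ j ≤ n + k ∧ orderOf (Fintype.card F : ZMod r) ∣ 2 * j := by
  have h := (mul_dvd_mul_right hr _).trans (card_mul_card_sp_dvd (F := F) n k)
  rw [ClassicalLinear.card_sp, ClassicalLinear.card_sp, Finset.prod_range_add] at h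
  have hq : 1 < Fintype.card F := Fintype.one_lt_card
  have hpos : 0 < ∏ i ∈ Finset.range n, (Fintype.card F ^ (2 * (i + 1)) - 1) :=
    Finset.prod_pos fun i _ => Nat.sub_pos_of_lt (Nat.one_lt_pow (by omega) hq)
  have hnq : ¬ r ∣ Fintype.card F := fun hd => hrq ((ZMod.natCast_eq_zero_iff _ _).2 hd)
  have h2 : r ∣ Fintype.card F ^ ((n + k) ^ 2) *
      ∏ x ∈ Finset.range k, (Fintype.card F ^ (2 * (n + x + 1)) - 1) := by
    refine Nat.dvd_of_mul_dvd_mul_right hpos ((Dvd.intro (Fintype.card F ^ n ^ 2) ?_).trans (h.trans (dvd_of_eq ?_)))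
    · ring
    · ring
  rcases (Fact.out : r.Prime).dvd_mul.1 h2 with h3 | h3
  · exact absurd ((Fact.out : r.Prime).dvd_of_dvd_pow h3) hnq
  obtain ⟨x, hx, hx'⟩ := ((Fact.out : r.Prime).prime.dvd_finsetProd_iff _).1 h3
  rw [Finset.mem_range] at hx
  refine ⟨n + x + 1, by omega, by omega, orderOf_dvd_of_pow_eq_one ?_⟩
  rw [← ZMod.natCast_eq_zero_iff, Nat.cast_sub (Nat.one_le_pow _ _ (by omega)), sub_eq_zero] at hx'
  exact_mod_cast hx'

end CfsgLib.Omega.SympSubspace
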