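import Cfsg.Agent.Lib.Omega.SelfDualFactor
import Cfsg.Agent.Lib.Omega.SympSubspaceCount

/-!
Totally isotropic invariant subspaces of a symplectic isometry of odd prime order: lower bounds from the pieces
and upper bounds for the test elements.
-/

set_option autoImplicit false

open Module Polynomial

namespace CfsgLib.Omega.SympIsoPieces

open CfsgLib.Omega.SympPieces CfsgLib.Omega.PrimeOrder

universe u v

variable {F : Type u} [Field F] {V : Type v} [AddCommGroup V] [Module F V]

section Planes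

variable {ι : Type} (b : ι × Fin 2 → V)

/-- The span of the planes in a set. -/
def planes (s : Finset ι) : Submodule F V := Submodule.span F (b '' {x | x.1 ∈ s})

variable (F) in
/-- An invariant totally isotropic subspace of dimension `k` inside some planes. -/
def IsoIn (B : LinearMap.BilinForm F V) (Y : Module.End F V) (s : Finset ι) (k : ℕ) : Prop :=
  ∃ W : Submodule F V, W ≤ planes b s ∧ finrank F W = k ∧ (∀ w ∈ W, Y w ∈ W) ∧ IsoOn B W

variable {b} {B : LinearMap.BilinForm F V} {Y : Module.End F V}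

theorem mem_planes {s : Finset ι} {i : ι} (hi : i ∈ s) (t : Fin 2) : b (i, t) ∈ planes (F := F) b s :=
  Submodule.subset_span ⟨(i, t), hi, rfl⟩

theorem planes_mono {s s' : Finset ι} (h : s ⊆ s') : planes (F := F) b s ≤ planes b s' :=
  Submodule.span_mono (Set.image_mono fun _ hx => h hx)

theorem isoIn_mono {s s' : Finset ι} (h : s ⊆ s') {k : ℕ} (hk : IsoIn F b B Y s k) : IsoIn F b B Y s' k := by
  obtain ⟨W, hW, h1, h2, h3⟩ := hk
  exact ⟨W, hW.trans (planes_mono h), h1, h2, h3⟩

theorem isoIn_zero (s : Finset ι) : IsoIn F b B Y s 0 :=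
  ⟨⊥, bot_le, finrank_bot _ _, fun w hw => by simp [(Submodule.mem_bot F).1 hw],
    fun u hu => by simp [(Submodule.mem_bot F).1 hu]⟩

variable [DecidableEq ι] (hB : ∀ v, B v v = 0) (h0 : ∀ i j t, B (b (i, t)) (b (j, t)) = 0)
  (h1 : ∀ i j, B (b (i, 0)) (b (j, 1)) = if i = j then 1 else 0)

include hB h0 h1

theorem linearIndependent_planes [Fintype ι] : LinearIndependent F b := by
  have hA : AdaptedFamily B (LinearMap.id : V →ₗ[F] V) 1 b 1 :=
    ⟨one_mul _, h0, h1, fun i => Or.inr ⟨rfl, fun t => ⟨1, by simp⟩⟩⟩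
  exact hA.linearIndependent hB

theorem planes_orth {s s' : Finset ι} (h : Disjoint s s') :
    ∀ u ∈ planes (F := F) b s, ∀ w ∈ planes (F := F) b s', B u w = 0 := by
  intro u hu w hw
  refine (Submodule.span_le (p := LinearMap.ker (B.flip w))).2 ?_ hu
  rintro _ ⟨⟨i, t⟩, hi, rfl⟩
  refine (Submodule.span_le (p := LinearMap.ker (B (b (i, t))))).2 ?_ hw
  rintro _ ⟨⟨j, t'⟩, hj, rfl⟩
  have hij : i ≠ j := fun e => Finset.disjoint_left.1 h hi (e ▸ hj)
  show B (b (i, t)) (b (j, t')) = 0
  fin_cases t <;> fin_cases t'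
  · exact h0 i j 0
  · exact (h1 i j).trans (if_neg hij)
  · rw [alt_skew hB]
    exact neg_eq_zero.2 ((h1 j i).trans (if_neg (Ne.symm hij)))
  · exact h0 i j 1

variable [FiniteDimensional F V] [Fintype ι]

theorem isoIn_union {s s' : Finset ι} (h : Disjoint s s') {k k' : ℕ} (hk : IsoIn F b B Y s k)
    (hk' : IsoIn F b B Y s' k') : IsoIn F b B Y (s ∪ s') (k + k') := by
  obtain ⟨W, hW, hd, hi, ho⟩ := hk
  obtain ⟨W', hW', hd', hi', ho'⟩ := hk'
  refine ⟨W ⊔ W', sup_le (hW.trans (planes_mono Finset.subset_union_left))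
    (hW'.trans (planes_mono Finset.subset_union_right)), ?_, fun w hw => ?_, fun u hu w hw => ?_⟩
  · have hdis : Disjoint W W' := by
      refine Disjoint.mono hW hW' ((linearIndependent_planes hB h0 h1).disjoint_span_image ?_)
      exact Set.disjoint_left.2 fun x hx hx' => Finset.disjoint_left.1 h hx hx'
    have := Submodule.finrank_sup_add_finrank_inf_eq W W'
    rw [hdis.eq_bot, finrank_bot, hd, hd', add_zero] at this
    exact this
  · obtain ⟨a, ha, c, hc, rfl⟩ := Submodule.mem_sup.1 hw
    rw [map_add]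
    exact Submodule.add_mem_sup (hi a ha) (hi' c hc)
  · obtain ⟨a, ha, c, hc, rfl⟩ := Submodule.mem_sup.1 hu
    obtain ⟨a', ha', c', hc', rfl⟩ := Submodule.mem_sup.1 hw
    have e1 := planes_orth hB h0 h1 h a (hW ha) c' (hW' hc')
    have e2 := planes_orth hB h0 h1 h a' (hW ha') c (hW' hc)
    simp only [map_add, LinearMap.add_apply, ho a ha a' ha', ho' c hc c' hc', e1, alt_skew hB c a', e2]
    simp

omit [FiniteDimensional F V] in
/-- Half of some planes on which the map is the identity. -/
theorem isoIn_fixed {s : Finset ι} (hfix : ∀ i ∈ s, ∀ t, Y (b (i, t)) = b (i, t)) {k : ℕ} (hk : k ≤ s.card) :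
    IsoIn F b B Y s k := by
  obtain ⟨s', hs', hc⟩ := Finset.exists_subset_card_eq hk
  let g : s' → V := fun i => b (i, 0)
  have hg : LinearIndependent F g :=
    (linearIndependent_planes hB h0 h1).comp (fun i : s' => ((i : ι), (0 : Fin 2)))
      fun i j hij => Subtype.ext (congrArg Prod.fst hij)
  refine ⟨Submodule.span F (Set.range g), Submodule.span_le.2 ?_, ?_, fun w hw => ?_, fun u hu w hw => ?_⟩
  · rintro _ ⟨i, rfl⟩
    exact mem_planes (hs' i.2) 0
  · rw [finrank_span_eq_card hg, Fintype.card_coe, hc]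
  · refine (Submodule.span_le (p := (Submodule.span F (Set.range g)).comap Y)).2 ?_ hw
    rintro _ ⟨i, rfl⟩
    rw [SetLike.mem_coe, Submodule.mem_comap, hfix _ (hs' i.2)]
    exact Submodule.subset_span ⟨i, rfl⟩
  · refine (Submodule.span_le (p := LinearMap.ker (B.flip w))).2 ?_ hu
    rintro _ ⟨i, rfl⟩
    refine (Submodule.span_le (p := LinearMap.ker (B (g i)))).2 ?_ hw
    rintro _ ⟨j, rfl⟩
    exact h0 _ _ _

omit [FiniteDimensional F V] in
theorem finrank_planes (s : Finset ι) : finrank F (planes (F := F) b s) = 2 * s.card := by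
  have hg : LinearIndependent F (fun x : s × Fin 2 => b (x.1, x.2)) :=
    (linearIndependent_planes hB h0 h1).comp (fun x : s × Fin 2 => ((x.1 : ι), x.2)) fun x y hxy => by
      simp only [Prod.mk.injEq] at hxy
      exact Prod.ext (Subtype.ext hxy.1) hxy.2
  have himg : b '' {x | x.1 ∈ s} = Set.range (fun x : s × Fin 2 => b (x.1, x.2)) := Set.ext fun v =>
    ⟨fun ⟨x, hx, hv⟩ => ⟨(⟨x.1, hx⟩, x.2), hv⟩, fun ⟨x, hv⟩ => ⟨(x.1, x.2), x.1.2, hv⟩⟩
  rw [planes, himg, finrank_span_eq_card hg, Fintype.card_prod, Fintype.card_coe, Fintype.card_fin]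
  ring

end Planes

section Decomposition

variable [Fintype F] {r : ℕ} [Fact r.Prime]

/-- The totally isotropic subspaces coming from the pieces. -/
theorem exists_iso_of_arith [Finite V] (hrq : (Fintype.card F : ZMod r) ≠ 0) (hr2 : r ≠ 2)
    {B : LinearMap.BilinForm F V} {Y : Module.End F V} (hB : ∀ v, B v v = 0)
    (hnd : ∀ v, (∀ w, B v w = 0) → v = 0) (hf : ∀ u w, B (Y u) (Y w) = B u w) (hy : ∀ v, Y^[r] v = v) {d e₀ m : ℕ}
    (hd : finrank F V = 2 * d) (hmd : m ≤ d)
    (he₀ : e₀ = if Even (orderOf (Fintype.card F : ZMod r)) then orderOf (Fintype.card F : ZMod r) / 2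
      else orderOf (Fintype.card F : ZMod r))
    (hl : m % orderOf (Fintype.card F : ZMod r) ≤ d % e₀)
    (hpar : Odd (orderOf (Fintype.card F : ZMod r)) ∨
      (r - 1) / orderOf (Fintype.card F : ZMod r) + 2 * (m / orderOf (Fintype.card F : ZMod r)) ≤ d / e₀) :
    ∃ W : Submodule F V, finrank F W = m ∧ IsoOn B W ∧ ∀ w ∈ W, Y w ∈ W := by
  classical
  set i := orderOf (Fintype.card F : ZMod r) with hi
  have hi0 : 0 < i := orderOf_pos_iff.2 (isOfFinOrder_iff_pow_eq_one.2
    ⟨r - 1, Nat.sub_pos_of_lt (Fact.out : r.Prime).one_lt, ZMod.pow_card_sub_one_eq_one hrq⟩)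
  have he0 : 0 < e₀ := by
    rw [he₀]; split_ifs with h
    · obtain ⟨k, hk⟩ := h; omega
    · exact hi0
  obtain ⟨M, h, b, hMh, hhe, hb0, hb1, hbl, hbr⟩ :=
    exists_sp_pieces hrq hr2 he₀ (2 * d) V hd B Y hB hnd hf hy
  have hdM : d = e₀ * M + h := by rw [mul_comm e₀]; omega
  have hmod : d % e₀ = h := by rw [hdM, Nat.mul_add_mod, Nat.mod_eq_of_lt hhe]
  have hdiv : d / e₀ = M := by
    rw [hdM, Nat.mul_add_div he0, Nat.div_eq_of_lt hhe, add_zero]
  rw [hmod] at hl
  rw [hdiv] at hpar
  let blk : Finset (Fin M) → Finset ((Fin M × Fin e₀) ⊕ Fin h) := fun S =>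
    (S ×ˢ (Finset.univ : Finset (Fin e₀))).map Function.Embedding.inl
  have hblk : ∀ S x, x ∈ blk S ↔ ∃ a u, a ∈ S ∧ x = .inl (a, u) := fun S x => by
    simp only [blk, Finset.mem_map, Finset.mem_product, Finset.mem_univ, and_true, Function.Embedding.inl_apply]
    exact ⟨fun ⟨⟨a, u⟩, ha, hx⟩ => ⟨a, u, ha, hx.symm⟩, fun ⟨a, u, ha, hx⟩ => ⟨(a, u), ha, hx.symm⟩⟩
  have hcard : ∀ S, (blk S).card = S.card * e₀ := fun S => by simp [blk]
  have hinv : ∀ S, ∀ w ∈ planes (F := F) b (blk S), Y w ∈ planes (F := F) b (blk S) := by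
    intro S w hw
    refine (Submodule.span_le (p := (planes (F := F) b (blk S)).comap Y)).2 ?_ hw
    rintro _ ⟨⟨x, t⟩, hx, rfl⟩
    obtain ⟨a, u, ha, rfl⟩ := (hblk S x).1 hx
    refine (Submodule.span_le (p := planes (F := F) b (blk S))).2 ?_ (hbl a u t)
    rintro _ ⟨⟨u', t'⟩, rfl⟩
    exact mem_planes ((hblk S _).2 ⟨a, u', ha, rfl⟩) t'
  have hYr : Y ^ r = 1 := pow_eq_one_of_iterate hy
  have hdisj : ∀ {S S' : Finset (Fin M)}, Disjoint S S' → Disjoint (blk S) (blk S') := fun {S S'} hSS' =>
    Finset.disjoint_left.2 fun x hx hx' => by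
      obtain ⟨a, u, ha, rfl⟩ := (hblk S x).1 hx
      obtain ⟨a', u', ha', he⟩ := (hblk S' _).1 hx'
      simp only [Sum.inl.injEq, Prod.mk.injEq] at he
      exact Finset.disjoint_left.1 hSS' ha (he.1 ▸ ha')
  let fixd : Finset ((Fin M × Fin e₀) ⊕ Fin h) := Finset.univ.map Function.Embedding.inr
  have hfixd : ∀ x ∈ fixd, ∃ j, x = .inr j := fun x hx => by
    obtain ⟨j, -, rfl⟩ := Finset.mem_map.1 hx
    exact ⟨j, rfl⟩
  have hdisj' : ∀ S, Disjoint (blk S) fixd := fun S => Finset.disjoint_left.2 fun x hx hx' => by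
    obtain ⟨a, u, -, rfl⟩ := (hblk S x).1 hx
    obtain ⟨j, hj⟩ := hfixd _ hx'
    exact absurd hj (by simp)
  have hrest : ∀ {k : ℕ}, k ≤ h → IsoIn F b B Y fixd k := fun {k} hk => isoIn_fixed hB hb0 hb1 (fun x hx t => by
    obtain ⟨j, rfl⟩ := hfixd x hx
    exact hbr j t) (by simpa [fixd] using hk)
  have finish : ∀ {s : Finset ((Fin M × Fin e₀) ⊕ Fin h)}, IsoIn F b B Y s m →
      ∃ W : Submodule F V, finrank F W = m ∧ IsoOn B W ∧ ∀ w ∈ W, Y w ∈ W :=
    fun {s} ⟨W, _, h1, h2, h3⟩ => ⟨W, h1, h3, h2⟩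
  -- a piece is fixed or fixed-point-free, or contains half of itself
  by_cases hev : Even i
  swap
  · rw [if_neg hev] at he₀
    have hone : ∀ a, IsoIn F b B Y (blk {a}) i := by
      intro a
      by_cases hfixa : ∀ w ∈ planes (F := F) b (blk {a}), Y w = w
      · exact isoIn_fixed hB hb0 hb1 (fun x hx t => hfixa _ (mem_planes hx t)) (by simp [hcard, he₀])
      push Not at hfixa
      obtain ⟨v, hv, hv'⟩ := hfixa
      set P := planes (F := F) b (blk {a}) with hP
      let f : Module.End F P := Y.restrict (hinv {a})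
      have hit : ∀ (j : ℕ) (x : P), ((f^[j] x : P) : V) = Y^[j] x := by
        intro j
        induction j with
        | zero => intro x; rfl
        | succ j ih =>
          intro x
          rw [Function.iterate_succ_apply', Function.iterate_succ_apply', ← ih x]
          rfl
      have hfr : ∀ x, f^[r] x = x := fun x => Subtype.ext (by rw [hit, hy])
      obtain ⟨W, -, -, hWi, -, hWd, hWf⟩ := exists_piece hrq f hfr ⟨⟨v, hv⟩, fun h => hv' (congrArg Subtype.val h)⟩
      rcases nondegOn_or_isoOn hrq (B := B.restrict P) (fun x => hB _) (fun x y => hf _ _) hfr hWi hWf hWd.le with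
        hn | hiso
      · have := even_finrank_of_nondegOn (B := B.restrict P) (fun x => hB _) hn
        rw [hWd, ← hi] at this
        exact absurd this hev
      · refine ⟨W.map P.subtype, Submodule.map_subtype_le _ _, by rw [Submodule.finrank_map_subtype_eq, hWd], ?_, ?_⟩
        · rintro _ ⟨w, hw, rfl⟩
          exact ⟨f w, hWi w hw, rfl⟩
        · rintro _ ⟨u, hu, rfl⟩ _ ⟨w, hw, rfl⟩
          exact hiso u hu w hw
    have hmany : ∀ S : Finset (Fin M), IsoIn F b B Y (blk S) (i * S.card) := by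
      intro S
      induction S using Finset.induction_on with
      | empty => simpa using isoIn_zero (B := B) (Y := Y) (b := b) (blk ∅)
      | @insert a S ha ih =>
        have hsub : blk {a} ∪ blk S ⊆ blk (insert a S) := fun x hx => by
          rcases Finset.mem_union.1 hx with hx | hx <;> obtain ⟨a', u, ha', rfl⟩ := (hblk _ _).1 hx <;>
            refine (hblk _ _).2 ⟨a', u, ?_, rfl⟩
          · rw [Finset.mem_singleton.1 ha']; exact Finset.mem_insert_self _ _
          · exact Finset.mem_insert_of_mem ha'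
        rw [Finset.card_insert_of_notMem ha, show i * (S.card + 1) = i + i * S.card by ring]
        exact isoIn_mono hsub (isoIn_union hB hb0 hb1 (hdisj (Finset.disjoint_singleton_left.2 ha)) (hone a) ih)
    have hle : m / i ≤ M := by
      rw [← hdiv, he₀]
      exact Nat.div_le_div_right hmd
    obtain ⟨S, -, hS⟩ := Finset.exists_subset_card_eq (s := (Finset.univ : Finset (Fin M))) (n := m / i)
      (by simpa using hle)
    have := isoIn_union hB hb0 hb1 (hdisj' S) (hmany S) (hrest hl)
    rw [hS, Nat.div_add_mod] at this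
    exact finish this
  · rw [if_pos hev] at he₀
    have hie : i = 2 * e₀ := by rw [he₀, Nat.mul_div_cancel' hev.two_dvd]
    have hpar' : (r - 1) / i + 2 * (m / i) ≤ M := hpar.resolve_left (Nat.not_odd_iff_even.2 hev)
    set t := (r - 1) / i with ht
    let free : Fin M → Prop := fun a => ∀ w ∈ planes (F := F) b (blk {a}), Y w = w → w = 0
    have hdim : ∀ S, finrank F (planes (F := F) b (blk S)) = S.card * i := fun S => by
      rw [finrank_planes hB hb0 hb1, hcard, hie]; ring
    have hnot : ∀ a, ¬ free a → ∀ u t, Y (b (.inl (a, u), t)) = b (.inl (a, u), t) := by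
      intro a ha u t
      set P := planes (F := F) b (blk {a}) with hP
      have hdvd := orderOf_dvd_sub_finrank hrq Y P (hinv {a}) (fun x _ => hy x)
      rw [← hi, hdim, Finset.card_singleton, one_mul] at hdvd
      have hne : fixedIn Y P ≠ ⊥ := fun h0 => ha fun w hw hfix =>
        (Submodule.eq_bot_iff _).1 h0 w (mem_fixedIn.2 ⟨hw, hfix⟩)
      have hpos : 0 < finrank F (fixedIn Y P) := by
        rw [Module.finrank_pos_iff, Submodule.nontrivial_iff_ne_bot]; exact hne
      have hPd : finrank F P = i := by rw [hdim, Finset.card_singleton, one_mul]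
      have hge : finrank F P ≤ finrank F (fixedIn Y P) := by
        rw [hPd]
        by_contra hlt
        have := Nat.le_of_dvd (by omega) hdvd
        omega
      have heq := Submodule.eq_of_le_of_finrank_le (fixedIn_le Y P) hge
      have hmem : b (.inl (a, u), t) ∈ fixedIn Y P := by
        rw [heq]; exact mem_planes ((hblk _ _).2 ⟨a, u, Finset.mem_singleton_self a, rfl⟩) t
      exact (mem_fixedIn.1 hmem).2
    have hfac : ∀ a, free a → ∃ g ∈ SelfDual.factors F r, ∀ w ∈ planes (F := F) b (blk {a}), aeval Y g w = 0 :=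
      fun a ha => SelfDual.exists_factor hrq Y hYr (hinv {a}) ha (by rw [hdim, Finset.card_singleton, one_mul])
    have hpair : ∀ x y : Fin M, x ≠ y → (∃ g ∈ SelfDual.factors F r,
        (∀ w ∈ planes (F := F) b (blk {x}), aeval Y g w = 0) ∧ ∀ w ∈ planes (F := F) b (blk {y}), aeval Y g w = 0) →
        IsoIn F b B Y (blk {x, y}) i := by
      rintro x y hxy ⟨g, hg, hgx, hgy⟩
      set P := planes (F := F) b (blk {x, y}) with hP
      have hkill : ∀ w ∈ P, aeval Y g w = 0 := by
        intro w hw
        refine (Submodule.span_le (p := LinearMap.ker (aeval Y g))).2 ?_ hw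
        rintro _ ⟨⟨z, t⟩, hz, rfl⟩
        obtain ⟨a, u, ha, rfl⟩ := (hblk _ z).1 hz
        rcases Finset.mem_insert.1 ha with rfl | ha
        · exact hgx _ (mem_planes ((hblk _ _).2 ⟨a, u, Finset.mem_singleton_self a, rfl⟩) t)
        · exact hgy _ (mem_planes ((hblk _ _).2 ⟨a, u, ha, rfl⟩) t)
      obtain ⟨W, hWd, hWi, hWo⟩ := SelfDual.exists_iso_of_killed hrq hev hg (B.restrict P) (fun x => hB _)
        (Y.restrict (hinv {x, y})) (fun u w => hf _ _)
        (LinearMap.ext fun w => Subtype.ext (by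
          rw [aeval_restrict_apply (hinv {x, y}), hkill w w.2]; rfl))
        (by rw [hP, hdim, Finset.card_pair hxy, ← hi]; omega)
      refine ⟨W.map P.subtype, Submodule.map_subtype_le _ _, by rw [Submodule.finrank_map_subtype_eq, hWd], ?_, ?_⟩
      · rintro _ ⟨w, hw, rfl⟩
        exact ⟨_, hWi w hw, rfl⟩
      · rintro _ ⟨u, hu, rfl⟩ _ ⟨w, hw, rfl⟩
        exact hWo u hu w hw
    have hmany : ∀ (a : ℕ) (S : Finset (Fin M)), (∀ x ∈ S, free x) → (a = 0 ∨ t + 2 * a ≤ S.card + 1) →
        IsoIn F b B Y (blk S) (i * a) := by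
      intro a
      induction a with
      | zero => intro S _ _; simpa using isoIn_zero (B := B) (Y := Y) (b := b) (blk S)
      | succ a ih =>
        intro S hS hle
        have hle' : t + 2 * (a + 1) ≤ S.card + 1 := hle.resolve_left (Nat.succ_ne_zero a)
        have hmap : ∀ x : Fin M, x ∈ S → ∃ g : F[X], g ∈ SelfDual.factors F r ∧
            ∀ w ∈ planes (F := F) b (blk {x}), aeval Y g w = 0 := fun x hx => by
          obtain ⟨g, hg, hg'⟩ := hfac x (hS x hx)
          exact ⟨g, hg, hg'⟩
        choose! G hG hG' using hmap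
        obtain ⟨x, hx, y, hy', hxy, hGxy⟩ := Finset.exists_ne_map_eq_of_card_lt_of_maps_to
          (t := SelfDual.factors F r) (s := S) (f := G) (by rw [SelfDual.card_factors hrq, ← hi, ← ht]; omega) hG
        have hsub : ({x, y} : Finset (Fin M)) ⊆ S := Finset.insert_subset hx (Finset.singleton_subset_iff.2 hy')
        have hc := Finset.card_sdiff_of_subset hsub
        rw [Finset.card_pair hxy] at hc
        have h2 := ih (S \ {x, y}) (fun z hz => hS z (Finset.mem_sdiff.1 hz).1) (Or.inr (by omega))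
        have h3 := isoIn_union hB hb0 hb1 (hdisj Finset.disjoint_sdiff)
          (hpair x y hxy ⟨G x, hG x hx, hG' x hx, hGxy ▸ hG' y hy'⟩) h2
        rw [show i + i * a = i * (a + 1) by ring] at h3
        refine isoIn_mono (fun z hz => ?_) h3
        rcases Finset.mem_union.1 hz with hz | hz <;> obtain ⟨a', u, ha', rfl⟩ := (hblk _ _).1 hz <;>
          refine (hblk _ _).2 ⟨a', u, ?_, rfl⟩
        · exact hsub ha'
        · exact (Finset.mem_sdiff.1 ha').1
    let S := Finset.univ.filter fun a => free a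
    let N := Finset.univ.filter fun a => ¬ free a
    have hSN : S.card + N.card = M := by
      rw [Finset.card_filter_add_card_filter_not, Finset.card_univ, Fintype.card_fin]
    obtain ⟨a, ha1, ha2, ha3⟩ : ∃ a, (a = 0 ∨ t + 2 * a ≤ S.card + 1) ∧ a ≤ m / i ∧
        2 * (m / i - a) ≤ N.card := by
      by_cases hc : t + 2 * (m / i) ≤ S.card + 1
      · exact ⟨m / i, Or.inr hc, le_rfl, by omega⟩
      · exact ⟨(S.card + 1 - t) / 2, by omega, by omega, by omega⟩
    have hfixN : IsoIn F b B Y (blk N ∪ fixd) (m - i * a) := by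
      refine isoIn_fixed hB hb0 hb1 (fun x hx t => ?_) ?_
      · rcases Finset.mem_union.1 hx with hx | hx
        · obtain ⟨c, u, hc, rfl⟩ := (hblk N x).1 hx
          exact hnot c (Finset.mem_filter.1 hc).2 u t
        · obtain ⟨j, rfl⟩ := hfixd x hx
          exact hbr j t
      · rw [Finset.card_union_of_disjoint (hdisj' N), hcard]
        have h1 := Nat.div_add_mod m i
        have h4 : 2 * (m / i - a) * e₀ ≤ N.card * e₀ := Nat.mul_le_mul_right _ ha3
        have h5 : i * (m / i) = i * a + i * (m / i - a) := by rw [← mul_add]; congr 1; omega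
        have h6 : i * (m / i - a) = 2 * (m / i - a) * e₀ := by rw [hie]; ring
        have h7 : fixd.card = h := by simp [fixd]
        omega
    have hSN' : Disjoint S N := Finset.disjoint_filter.2 fun _ _ h1 h2 => h2 h1
    have hfin := isoIn_union hB hb0 hb1 (Finset.disjoint_union_right.2 ⟨hdisj hSN', hdisj' S⟩)
      (hmany a S (fun x hx => (Finset.mem_filter.1 hx).2) ha1) hfixN
    rw [Nat.add_sub_cancel' ((Nat.mul_le_mul_left i ha2).trans (Nat.mul_div_le m i))] at hfin
    exact finish hfin

end Decomposition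

section Bounds

theorem two_mul_finrank_le [FiniteDimensional F V] {B : LinearMap.BilinForm F V}
    (hnd : ∀ v, (∀ w, B v w = 0) → v = 0) {W : Submodule F V} (hW : IsoOn B W) :
    2 * finrank F W ≤ finrank F V := by
  let π : W →ₗ[F] (V →ₗ[F] F) := B ∘ₗ W.subtype
  have hinj : Function.Injective π := by
    rw [injective_iff_map_eq_zero]
    exact fun w hw => Subtype.ext (hnd w fun v => LinearMap.congr_fun hw v)
  obtain ⟨C, hC⟩ := Submodule.exists_isCompl W
  let ρ : W →ₗ[F] (C →ₗ[F] F) := (LinearMap.lcomp F F C.subtype) ∘ₗ π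
  have hρ : Function.Injective ρ := by
    rw [injective_iff_map_eq_zero]
    intro w hw
    refine Subtype.ext (hnd w fun v => ?_)
    obtain ⟨a, ha, c, hc, rfl⟩ := Submodule.mem_sup.1 (hC.sup_eq_top ▸ Submodule.mem_top (x := v))
    rw [map_add, hW w w.2 a ha, zero_add]
    exact LinearMap.congr_fun hw ⟨c, hc⟩
  have h1 := LinearMap.finrank_le_finrank_of_injective hρ
  rw [Subspace.dual_finrank_eq] at h1
  have := Submodule.finrank_add_eq_of_isCompl hC
  omega

/-- The kernel of a product of pairwise coprime polynomials is at most the sum. -/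
theorem finrank_ker_prod_le [FiniteDimensional F V] (T : Module.End F V) {ι : Type*} (p : ι → F[X])
    (s : Finset ι) (hs : (s : Set ι).Pairwise fun a b => IsCoprime (p a) (p b)) :
    finrank F (LinearMap.ker (aeval T (∏ a ∈ s, p a))) ≤ ∑ a ∈ s, finrank F (LinearMap.ker (aeval T (p a))) := by
  classical
  induction s using Finset.induction_on with
  | empty =>
    rw [Finset.prod_empty, map_one, Module.End.one_eq_id, LinearMap.ker_id, finrank_bot]
    exact Nat.zero_le _
  | @insert a s ha ih =>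
    rw [Finset.prod_insert ha, Finset.sum_insert ha, ← sup_ker_aeval_eq_ker_aeval_mul_of_coprime T
      (IsCoprime.prod_right fun b hb => hs (Finset.mem_insert_self a s) (Finset.mem_insert_of_mem hb)
        fun h => ha (h ▸ hb))]
    refine (Submodule.finrank_add_le_finrank_add_finrank _ _).trans (Nat.add_le_add_left (ih ?_) _)
    exact hs.mono (by simp)

end Bounds

end CfsgLib.Omega.SympIsoPieces
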