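import Mathlib
import Cfsg.Prelude.Def_GeometricClasses
import Cfsg.Agent.Lib.Omega.SympForm
import Cfsg.Agent.Lib.Omega.NonsingularPoint
import Cfsg.Agent.Lib.Classes.QuadSpace
import Cfsg.Agent.Lib.Classes.QuadDisc
import Cfsg.Agent.Lib.ClassicalForms.Ortho.Standard
import Cfsg.Agent.Lib.Forms.Symplectic

/-!
Quadratic forms with a given alternating polar form in characteristic two: their two types, the forms fixed by
an involution and the change of type along a fixed non-singular vector.
-/

set_option autoImplicit false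

open Module QuadraticMap
open scoped Matrix

namespace CfsgLib.Omega

universe u v

variable {F : Type u} [Field F] [Fintype F] {V : Type v} [AddCommGroup V] [Module F V] [FiniteDimensional F V]

/-- `Q` has a totally singular subspace of half the dimension. -/
def HasMaxSingular (Q : QuadraticForm F V) (m : ℕ) : Prop :=
  ∃ U : Submodule F V, (∀ v ∈ U, Q v = 0) ∧ finrank F U = m

theorem hasMaxSingular_of_plus {Q : QuadraticForm F V} {m : ℕ} (E : V ≃ₗ[F] (Fin m ⊕ Fin m → F))
    (hE : ∀ x, Q x = Cfsg.quadFormPlus m F (E x)) : HasMaxSingular Q m := by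
  let ex : (Fin m → F) →ₗ[F] (Fin m ⊕ Fin m → F) :=
    { toFun := fun c => Sum.elim c fun _ => 0
      map_add' := fun u v => by ext (i | i) <;> simp
      map_smul' := fun c v => by ext (i | i) <;> simp }
  have hex : Function.Injective ex := fun u v h => funext fun i => congrFun h (.inl i)
  refine ⟨LinearMap.range (E.symm.toLinearMap ∘ₗ ex), ?_, ?_⟩
  · rintro _ ⟨c, rfl⟩
    simp [hE, ex, Cfsg.quadFormPlus]
  · rw [LinearMap.finrank_range_of_inj (f := E.symm.toLinearMap ∘ₗ ex) (E.symm.injective.comp hex),
      Module.finrank_fin_fun]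

theorem not_hasMaxSingular_of_minus {Q : QuadraticForm F V} {m : ℕ} {a b : F} (hab : ClassicalForms.Aniso a b)
    (E : V ≃ₗ[F] ((Fin m ⊕ Fin m) ⊕ Fin 2 → F)) (hE : ∀ x, Q x = Cfsg.quadFormMinus m F a b (E x)) :
    ¬ HasMaxSingular Q (m + 1) := by
  rintro ⟨U, hU, hUd⟩
  have h := finrank_singular_qMinus_le hab m (U.map (E : V →ₗ[F] _)) (by
    rintro _ ⟨v, hv, rfl⟩
    rw [ClassicalForms.qMinus_apply, LinearEquiv.coe_coe, ← hE, hU v hv])
  rw [LinearEquiv.finrank_map_eq, hUd] at h
  omega

/-- Two forms of one type and one dimension are isometric. -/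
theorem exists_isometry_of_type {W : Type*} [AddCommGroup W] [Module F W] [FiniteDimensional F W] {m : ℕ}
    (hm : 1 ≤ m) (hV : finrank F V = 2 * m) (hW : finrank F W = 2 * m) (Q : QuadraticForm F V)
    (hQ : (polarBilin Q).Nondegenerate) (Q' : QuadraticForm F W) (hQ' : (polarBilin Q').Nondegenerate)
    (htype : HasMaxSingular Q m ↔ HasMaxSingular Q' m) :
    ∃ E : V ≃ₗ[F] W, ∀ v, Q v = Q' (E v) := by
  have hno : ∀ {X : Type _} [AddCommGroup X] [Module F X] [FiniteDimensional F X] (R : QuadraticForm F X)
      (E : X ≃ₗ[F] ((Fin (m - 1) ⊕ Fin (m - 1)) ⊕ Fin 2 → F)) (ζ : F), (∀ t : F, t ^ 2 + t + ζ ≠ 0) →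
      (∀ x, R x = Cfsg.quadFormMinus (m - 1) F 1 ζ (E x)) → ¬ HasMaxSingular R m := by
    intro X _ _ _ R E ζ hζ hE
    have := not_hasMaxSingular_of_minus (fun z₁ z₂ h => Classes.anisotropic_of_noroot hζ z₁ z₂ (by simpa using h)) E hE
    rwa [show m - 1 + 1 = m by omega] at this
  rcases Classes.exists_equiv_even hm hV Q hQ with ⟨E, hE⟩ | ⟨E, ζ, hζ, hE⟩ <;>
    rcases Classes.exists_equiv_even hm hW Q' hQ' with ⟨E', hE'⟩ | ⟨E', ζ', hζ', hE'⟩
  · exact ⟨E.trans E'.symm, fun v => by simp [hE, hE']⟩
  · exact absurd (htype.1 (hasMaxSingular_of_plus E hE)) (hno Q' E' ζ' hζ' hE')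
  · by_contra
    have h1 : HasMaxSingular Q m := htype.2 (hasMaxSingular_of_plus E' hE')
    have := not_hasMaxSingular_of_minus (fun z₁ z₂ h => Classes.anisotropic_of_noroot hζ z₁ z₂ (by simpa using h)) E hE
    rw [show m - 1 + 1 = m by omega] at this
    exact this h1
  · obtain ⟨g, hg⟩ := Classes.minus_isometric (m - 1) hζ hζ'
    exact ⟨E.trans (g.trans E'.symm), fun v => by simp [hE, hE', hg]⟩

variable [CharP F 2]

theorem exists_sqrt (x : F) : ∃ y : F, y ^ 2 = x := by
  obtain ⟨y, hy⟩ := (PerfectRing.bijective_frobenius (R := F) (p := 2)).2 x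
  exact ⟨y, hy⟩

/-- Adding the square of a linear functional. -/
noncomputable def addSq (Q : QuadraticForm F V) (φ : V →ₗ[F] F) : QuadraticForm F V :=
  Q + QuadraticMap.linMulLin φ φ

omit [Fintype F] [FiniteDimensional F V] [CharP F 2] in
theorem addSq_apply (Q : QuadraticForm F V) (φ : V →ₗ[F] F) (v : V) : addSq Q φ v = Q v + φ v ^ 2 := by
  simp [addSq, QuadraticMap.linMulLin_apply, pow_two]

omit [Fintype F] [FiniteDimensional F V] in
theorem polar_addSq (Q : QuadraticForm F V) (φ : V →ₗ[F] F) (u v : V) :
    polar (addSq Q φ) u v = polar Q u v := by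
  simp only [polar, addSq_apply, map_add, CharTwo.add_sq]
  ring

omit [Fintype F] [FiniteDimensional F V] in
theorem polar_self_eq_zero (Q : QuadraticForm F V) (v : V) : polar Q v v = 0 := by
  rw [polar_self, two_nsmul, CharTwo.add_self_eq_zero]

/-- An involutory isometry of the polar form fixes a quadratic form with that polar form. -/
theorem exists_invariant_form (Q : QuadraticForm F V) (hQ : (polarBilin Q).Nondegenerate) (X : Module.End F V)
    (hXX : ∀ v, X (X v) = v) (hX : ∀ u v, polar Q (X u) (X v) = polar Q u v) :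
    ∃ a : V, ∀ v, addSq Q (polarBilin Q a) (X v) = addSq Q (polarBilin Q a) v := by
  classical
  -- the defect is the square of a functional
  choose sq hsq using exists_sqrt (F := F)
  have hinj : ∀ a b : F, a ^ 2 = b ^ 2 → a = b := fun a b h => frobenius_inj F 2 (by simpa [frobenius_def] using h)
  let δ : V →ₗ[F] F :=
    { toFun := fun v => sq (Q (X v) + Q v)
      map_add' := fun u v => by
        refine hinj _ _ ?_
        rw [CharTwo.add_sq, hsq, hsq, hsq, map_add, QuadraticMap.map_add Q, QuadraticMap.map_add Q, hX]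
        linear_combination CharTwo.add_self_eq_zero (polar Q u v)
      map_smul' := fun c v => by
        refine hinj _ _ ?_
        rw [RingHom.id_apply, smul_eq_mul, mul_pow, hsq, hsq, map_smul, QuadraticMap.map_smul,
          QuadraticMap.map_smul, smul_eq_mul, smul_eq_mul]
        ring }
  let Φ := LinearMap.BilinForm.toDual (polarBilin Q) hQ
  let T : Module.End F V := X + 1
  have hT : ∀ v, T v = X v + v := fun v => rfl
  let S : V →ₗ[F] Module.Dual F V := (Φ : V →ₗ[F] Module.Dual F V) ∘ₗ T
  have hsymm : ∀ a v, polar Q (T a) v = polar Q a (T v) := by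
    intro a v
    rw [hT, hT, polar_add_left, polar_add_right]
    conv_lhs => arg 1; rw [show v = X (X v) from (hXX v).symm, hX]
  -- solve `polar Q a ∘ T = δ`
  have hle : LinearMap.range S ≤ (LinearMap.ker T).dualAnnihilator := by
    rintro _ ⟨a, rfl⟩
    rw [Submodule.mem_dualAnnihilator]
    intro v hv
    show polar Q (T a) v = 0
    rw [hsymm, LinearMap.mem_ker.1 hv, polar_zero_right]
  have heq : LinearMap.range S = (LinearMap.ker T).dualAnnihilator := by
    refine Submodule.eq_of_le_of_finrank_eq hle ?_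
    have h1 := LinearMap.finrank_range_add_finrank_ker T
    have h2 := Subspace.finrank_add_finrank_dualAnnihilator_eq (LinearMap.ker T)
    have h3 : finrank F (LinearMap.range S) = finrank F (LinearMap.range T) := by
      rw [LinearMap.range_comp, LinearEquiv.finrank_map_eq]
    omega
  have hδ : δ ∈ LinearMap.range S := by
    rw [heq, Submodule.mem_dualAnnihilator]
    intro v hv
    rw [LinearMap.mem_ker, hT] at hv
    refine hinj _ _ ?_
    show sq (Q (X v) + Q v) ^ 2 = 0 ^ 2
    rw [hsq, eq_neg_of_add_eq_zero_left hv, QuadraticMap.map_neg, CharTwo.add_self_eq_zero]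
    ring
  obtain ⟨a, ha⟩ := hδ
  refine ⟨a, fun v => ?_⟩
  have h1 : δ v = polar Q a (X v) + polar Q a v := by
    rw [← ha]
    show polar Q (T a) v = _
    rw [hsymm, hT, polar_add_right]
  have h2 : Q (X v) + Q v = polar Q a (X v) ^ 2 + polar Q a v ^ 2 := by
    rw [← CharTwo.add_sq, ← h1]
    exact (hsq _).symm
  rw [addSq_apply, addSq_apply, polarBilin_apply_apply, polarBilin_apply_apply]
  linear_combination h2 - CharTwo.add_self_eq_zero (Q v) + CharTwo.add_self_eq_zero (polar Q a (X v) ^ 2)

/-- Along a non-singular vector both types occur. -/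
theorem exists_addSq_type {m : ℕ} (hm : 2 ≤ m) (hV : finrank F V = 2 * m) (Q : QuadraticForm F V)
    (hQ : (polarBilin Q).Nondegenerate) (w : V) (hw : Q w ≠ 0) :
    (∃ l : F, HasMaxSingular (addSq Q (l • polarBilin Q w)) m) ∧
      ∃ l : F, ¬ HasMaxSingular (addSq Q (l • polarBilin Q w)) m := by
  classical
  obtain ⟨c, hc⟩ := exists_sqrt ((Q w)⁻¹)
  have hc0 : c ≠ 0 := fun h => inv_ne_zero hw (by rw [← hc, h]; ring)
  suffices h : ∀ w₁ : V, Q w₁ = 1 → (∃ l : F, HasMaxSingular (addSq Q (l • polarBilin Q w₁)) m) ∧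
      ∃ l : F, ¬ HasMaxSingular (addSq Q (l • polarBilin Q w₁)) m by
    obtain ⟨⟨l, hl⟩, ⟨l', hl'⟩⟩ := h (c • w) (by rw [QuadraticMap.map_smul, smul_eq_mul, ← pow_two, hc, inv_mul_cancel₀ hw])
    rw [map_smul, smul_smul] at hl hl'
    exact ⟨⟨_, hl⟩, ⟨_, hl'⟩⟩
  intro w hw1
  have hw0 : w ≠ 0 := fun h => by rw [h, QuadraticMap.map_zero] at hw1; exact zero_ne_one hw1
  obtain ⟨u', hu'⟩ := Classes.exists_polar_ne_zero Q hQ hw0
  set u := (polar Q w u')⁻¹ • u' with hu
  have hwu : polar Q w u = 1 := by rw [hu, polar_smul_right, smul_eq_mul, inv_mul_cancel₀ hu']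
  have huw : polar Q u w = 1 := by rw [polar_comm, hwu]
  -- the plane and its complement
  let π : V →ₗ[F] (Fin 2 → F) := LinearMap.pi ![polarBilin Q u, polarBilin Q w]
  set W₀ := LinearMap.ker π with hW₀
  have hπ0 : ∀ v, π v 0 = polar Q u v := fun v => rfl
  have hπ1 : ∀ v, π v 1 = polar Q w v := fun v => rfl
  have hmemW : ∀ v, v ∈ W₀ ↔ polar Q u v = 0 ∧ polar Q w v = 0 := fun v => by
    rw [hW₀, LinearMap.mem_ker, ← hπ0 v, ← hπ1 v]
    constructor
    · intro h; rw [h]; exact ⟨rfl, rfl⟩
    · intro h; funext i; fin_cases i <;> simp [h.1, h.2]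
  let proj : V →ₗ[F] W₀ := (LinearMap.id - (polarBilin Q u).smulRight w - (polarBilin Q w).smulRight u).codRestrict W₀
    fun v => by
      rw [hmemW]
      constructor <;>
        simp only [LinearMap.sub_apply, LinearMap.id_apply, LinearMap.smulRight_apply, polarBilin_apply_apply,
          polar_sub_right, polar_smul_right, hwu, huw, polar_self_eq_zero, smul_eq_mul] <;> ring
  have hproj : ∀ v, (proj v : V) = v - polar Q u v • w - polar Q w v • u := fun v => rfl
  let E : V ≃ₗ[F] (F × F) × W₀ :=
    { toFun := fun v => ((polar Q u v, polar Q w v), proj v)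
      invFun := fun z => z.1.1 • w + z.1.2 • u + (z.2 : V)
      map_add' := fun a b => by simp [polar_add_right]
      map_smul' := fun c a => by simp [polar_smul_right]
      left_inv := fun v => by
        show polar Q u v • w + polar Q w v • u + (proj v : V) = v
        rw [hproj]; abel
      right_inv := by
        rintro ⟨⟨x, y⟩, z⟩
        obtain ⟨hz0, hz1⟩ := (hmemW _).1 z.2
        have e0 : polar Q u (x • w + y • u + (z : V)) = x := by
          simp only [polar_add_right, polar_smul_right, huw, polar_self_eq_zero, hz0, smul_eq_mul]; ring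
        have e1 : polar Q w (x • w + y • u + (z : V)) = y := by
          simp only [polar_add_right, polar_smul_right, hwu, polar_self_eq_zero, hz1, smul_eq_mul]; ring
        refine Prod.ext (Prod.ext e0 e1) (Subtype.ext ?_)
        show (proj (x • w + y • u + (z : V)) : V) = z
        rw [hproj, e0, e1]; abel }
  let Q₀ : QuadraticForm F W₀ := Q.comp W₀.subtype
  have hEsymm : ∀ v, v = (E v).1.1 • w + (E v).1.2 • u + ((E v).2 : V) := fun v => (E.symm_apply_apply v).symm
  -- the value in the coordinates
  have hval : ∀ s : F, ∃ l : F, ∀ v, addSq Q (l • polarBilin Q w) v =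
      (E v).1.1 ^ 2 + (E v).1.1 * (E v).1.2 + s * (E v).1.2 ^ 2 + Q₀ (E v).2 := by
    intro s
    obtain ⟨l, hl⟩ := exists_sqrt (s + Q u)
    refine ⟨l, fun v => ?_⟩
    obtain ⟨hz0, hz1⟩ := (hmemW _).1 (E v).2.2
    rw [addSq_apply, LinearMap.smul_apply, polarBilin_apply_apply, smul_eq_mul, mul_pow, hl,
      show polar Q w v = (E v).1.2 from rfl]
    conv_lhs => arg 1; rw [hEsymm v]
    rw [QuadraticMap.map_add Q, QuadraticMap.map_add Q, QuadraticMap.map_smul, QuadraticMap.map_smul,
      polar_smul_left, polar_smul_right, polar_add_left, polar_smul_left, polar_smul_left, hwu, hz1,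
      hz0, hw1, show Q ((E v).2 : V) = Q₀ (E v).2 from rfl]
    simp only [smul_eq_mul]
    linear_combination (E v).1.2 ^ 2 * CharTwo.add_self_eq_zero (Q u)
  have hQ₀ : (polarBilin Q₀).Nondegenerate := by
    have hl : ∀ z : W₀, (∀ z' : W₀, polar Q₀ z z' = 0) → z = 0 := by
      intro z hz
      refine Subtype.ext (hQ.1 _ fun v => ?_)
      obtain ⟨hz0, hz1⟩ := (hmemW _).1 z.2
      show polar Q (z : V) v = 0
      rw [hEsymm v, polar_add_right, polar_add_right, polar_smul_right, polar_smul_right, polar_comm (⇑Q) (z : V) w,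
        polar_comm (⇑Q) (z : V) u, hz0, hz1, smul_zero, smul_zero, zero_add, zero_add]
      exact hz (E v).2
    exact ⟨hl, fun z hz => hl z fun z' => (polar_comm (⇑Q₀) z z').trans (hz z')⟩
  have hdim : finrank F W₀ = 2 * (m - 1) := by
    have := E.finrank_eq
    rw [hV, Module.finrank_prod, Module.finrank_prod, Module.finrank_self] at this
    omega
  obtain ⟨k, rfl⟩ : ∃ k, m = k + 2 := ⟨m - 2, by omega⟩
  rcases Classes.exists_equiv_even (show 1 ≤ k + 1 by omega) (hdim.trans (by omega)) Q₀ hQ₀ with
    ⟨E₀, hE₀⟩ | ⟨E₀, ζ, hζ, hE₀⟩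
  · constructor
    · obtain ⟨l, hl⟩ := hval 0
      let ex : (F × (Fin (k + 1) → F)) →ₗ[F] (F × F) × W₀ :=
        { toFun := fun p => ((0, p.1), E₀.symm (Sum.elim p.2 fun _ => 0))
          map_add' := fun p p' => by
            simp only [Prod.fst_add, Prod.snd_add, Prod.mk_add_mk, zero_add, ← map_add]
            congr 2
            ext (i | i) <;> simp
          map_smul' := fun c p => by
            simp only [Prod.smul_fst, Prod.smul_snd, Prod.smul_mk, smul_zero, RingHom.id_apply, ← map_smul]
            congr 2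
            ext (i | i) <;> simp }
      have hex : Function.Injective ex := fun p p' h => by
        simp only [ex, LinearMap.coe_mk, AddHom.coe_mk, Prod.mk.injEq, EmbeddingLike.apply_eq_iff_eq] at h
        exact Prod.ext h.1.2 (funext fun i => congrFun h.2 (.inl i))
      refine ⟨l, LinearMap.range (E.symm.toLinearMap ∘ₗ ex), ?_, ?_⟩
      · rintro _ ⟨p, rfl⟩
        rw [hl]
        simp [ex, hE₀, Cfsg.quadFormPlus]
      · rw [LinearMap.finrank_range_of_inj (f := E.symm.toLinearMap ∘ₗ ex) (E.symm.injective.comp hex),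
          Module.finrank_prod, Module.finrank_self, Module.finrank_fin_fun]
        omega
    · obtain ⟨ζ, hζ⟩ : ∃ ζ : F, ∀ t : F, t ^ 2 + t + ζ ≠ 0 := by
        by_contra h
        push Not at h
        have hsurj : Function.Surjective (fun t : F => t ^ 2 + t) := fun z => by
          obtain ⟨t, ht⟩ := h z
          exact ⟨t, by linear_combination ht - CharTwo.add_self_eq_zero z⟩
        have := (Finite.injective_iff_surjective.2 hsurj) (show (fun t : F => t ^ 2 + t) 0 = (fun t : F => t ^ 2 + t) 1 by
          show (0 : F) ^ 2 + 0 = 1 ^ 2 + 1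
          rw [zero_pow two_ne_zero, add_zero, one_pow, CharTwo.add_self_eq_zero])
        exact zero_ne_one this
      obtain ⟨l, hl⟩ := hval ζ
      let L : V →ₗ[F] ((Fin (k + 1) ⊕ Fin (k + 1)) ⊕ Fin 2 → F) :=
        { toFun := fun v => Sum.elim (E₀ (E v).2) ![(E v).1.1, (E v).1.2]
          map_add' := fun v v' => by
            ext ((i | i) | i) <;> simp
            fin_cases i <;> simp
          map_smul' := fun c v => by
            ext ((i | i) | i) <;> simp
            fin_cases i <;> simp }
      have hL : Function.Injective L := fun v v' h => E.injective <| Prod.ext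
        (Prod.ext (congrFun h (.inr 0)) (congrFun h (.inr 1)))
        (E₀.injective (funext fun i => congrFun h (.inl i)))
      refine ⟨l, not_hasMaxSingular_of_minus (a := 1) (b := ζ) (m := k + 1)
        (fun z₁ z₂ h => Classes.anisotropic_of_noroot hζ z₁ z₂ (by simpa using h))
        (LinearMap.linearEquivOfInjective L hL (by simp [hV, Fintype.card_sum]; omega)) fun v => ?_⟩
      rw [hl, hE₀, LinearMap.linearEquivOfInjective_apply]
      simp only [L, LinearMap.coe_mk, AddHom.coe_mk, Cfsg.quadFormMinus, Cfsg.quadFormPlus, Sum.elim_inl,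
        Sum.elim_inr, Matrix.cons_val_zero, Matrix.cons_val_one]
      ring
  · constructor
    · obtain ⟨l, hl⟩ := hval ζ
      let ex : ((F × F) × (Fin k → F)) →ₗ[F] (F × F) × W₀ :=
        { toFun := fun p => (p.1, E₀.symm (Sum.elim (Sum.elim p.2 fun _ => 0) ![p.1.1, p.1.2]))
          map_add' := fun p p' => by
            simp only [Prod.mk_add_mk, ← map_add]
            refine Prod.ext rfl (congrArg E₀.symm ?_)
            ext ((i | i) | i) <;> simp
            fin_cases i <;> simp
          map_smul' := fun c p => by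
            simp only [Prod.smul_mk, RingHom.id_apply, ← map_smul]
            refine Prod.ext rfl (congrArg E₀.symm ?_)
            ext ((i | i) | i) <;> simp
            fin_cases i <;> simp }
      have hex : Function.Injective ex := fun p p' h => by
        simp only [ex, LinearMap.coe_mk, AddHom.coe_mk, Prod.mk.injEq, EmbeddingLike.apply_eq_iff_eq] at h
        exact Prod.ext h.1 (funext fun i => congrFun h.2 (.inl (.inl i)))
      refine ⟨l, LinearMap.range (E.symm.toLinearMap ∘ₗ ex), ?_, ?_⟩
      · rintro _ ⟨p, rfl⟩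
        rw [hl]
        simp [ex, hE₀, Cfsg.quadFormMinus]
        linear_combination CharTwo.add_self_eq_zero (p.1.1 ^ 2 + p.1.1 * p.1.2 + ζ * p.1.2 ^ 2)
      · rw [LinearMap.finrank_range_of_inj (f := E.symm.toLinearMap ∘ₗ ex) (E.symm.injective.comp hex),
          Module.finrank_prod, Module.finrank_prod, Module.finrank_self, Module.finrank_fin_fun]
        omega
    · obtain ⟨l, hl⟩ := hval 0
      let G : ((F × F) × ((Fin k ⊕ Fin k) ⊕ Fin 2 → F)) →ₗ[F] ((Fin (k + 1) ⊕ Fin (k + 1)) ⊕ Fin 2 → F) :=
        { toFun := fun p => Sum.elim (Sum.elim (Fin.cons p.1.1 fun i => p.2 (.inl (.inl i)))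
            (Fin.cons (p.1.1 + p.1.2) fun i => p.2 (.inl (.inr i)))) (fun i => p.2 (.inr i))
          map_add' := fun p p' => by
            ext ((i | i) | i)
            · induction i using Fin.cases <;> simp
            · induction i using Fin.cases <;> simp
              ring
            · simp
          map_smul' := fun c p => by
            ext ((i | i) | i)
            · induction i using Fin.cases <;> simp
            · induction i using Fin.cases <;> simp
              ring
            · simp }
      have hG : Function.Injective G := fun p p' h => by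
        have h1 : p.1.1 = p'.1.1 := by simpa [G] using congrFun h (.inl (.inl 0))
        have h2 : p.1.1 + p.1.2 = p'.1.1 + p'.1.2 := by simpa [G] using congrFun h (.inl (.inr 0))
        refine Prod.ext (Prod.ext h1 (by rw [h1] at h2; exact add_left_cancel h2)) (funext ?_)
        rintro ((i | i) | i)
        · simpa [G] using congrFun h (.inl (.inl i.succ))
        · simpa [G] using congrFun h (.inl (.inr i.succ))
        · simpa [G] using congrFun h (.inr i)
      let L : V →ₗ[F] ((Fin (k + 1) ⊕ Fin (k + 1)) ⊕ Fin 2 → F) :=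
        G ∘ₗ ((LinearEquiv.refl F (F × F)).prodCongr E₀).toLinearMap ∘ₗ E.toLinearMap
      have hL : Function.Injective L :=
        hG.comp (((LinearEquiv.refl F (F × F)).prodCongr E₀).injective.comp E.injective)
      refine ⟨l, not_hasMaxSingular_of_minus (a := 1) (b := ζ) (m := k + 1)
        (fun z₁ z₂ h => Classes.anisotropic_of_noroot hζ z₁ z₂ (by simpa using h))
        (LinearMap.linearEquivOfInjective L hL (by simp [hV, Fintype.card_sum]; omega)) fun v => ?_⟩
      rw [hl, hE₀, LinearMap.linearEquivOfInjective_apply]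
      simp [L, G, Cfsg.quadFormMinus, Fin.sum_univ_succ]
      ring

end CfsgLib.Omega
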