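import Mathlib
import Cfsg.Agent.S5980

/-!
Elements of prime order of the symplectic group moving as little as possible: transvections, reflections in a
plane and elements of odd order with a moved space of the least possible dimension.
-/

set_option autoImplicit false

namespace CfsgLib.Omega.SympTest

open Module CfsgLib CfsgLib.Geometric CfsgLib.Omega CfsgLib.Omega.TensorRank Cfsg.Agent.S5980
open scoped Matrix

variable {F : Type*} [Field F] {d : ℕ}

/-- A scalar symplectic matrix has square one. -/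
theorem scalar_mul_self (hd : 0 < d) {x : GL (Fin d ⊕ Fin d) F} (hx : x ∈ Cfsg.spGL d F) {z : F}
    (hz : (x : Matrix (Fin d ⊕ Fin d) (Fin d ⊕ Fin d) F) = z • 1) : z * z = 1 := by
  let u : Fin d ⊕ Fin d → F := Pi.single (.inr ⟨0, hd⟩) 1
  let v : Fin d ⊕ Fin d → F := Pi.single (.inl ⟨0, hd⟩) 1
  have huv : Cfsg.sympForm d F u v = 1 := by simp [u, v, sympForm_eq_sum, Pi.single_apply]
  have h1 := mem_spGL_iff.1 hx u v
  rw [ap_def, ap_def, hz, Matrix.smul_mulVec, Matrix.smul_mulVec, Matrix.one_mulVec, Matrix.one_mulVec,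
    ← sympBilin_apply, ← sympBilin_apply] at h1
  simp only [map_smul, LinearMap.smul_apply, smul_eq_mul, sympBilin_apply, huv, mul_one] at h1
  exact h1

/-- An element moving a proper non-zero subspace is not scalar. -/
theorem not_scalar_of_rk {x : GL (Fin d ⊕ Fin d) F}
    (h0 : 0 < rk (x : Matrix (Fin d ⊕ Fin d) (Fin d ⊕ Fin d) F))
    (hlt : rk (x : Matrix (Fin d ⊕ Fin d) (Fin d ⊕ Fin d) F) < 2 * d) (z : F) :
    (x : Matrix (Fin d ⊕ Fin d) (Fin d ⊕ Fin d) F) ≠ z • 1 := by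
  intro hz
  by_cases hz1 : z = 1
  · have : sub1 (x : Matrix (Fin d ⊕ Fin d) (Fin d ⊕ Fin d) F) = 0 := LinearMap.ext fun v => by
      simp [hz, hz1]
    rw [rk, this, LinearMap.range_zero, finrank_bot] at h0
    omega
  · have h : LinearMap.range (sub1 (x : Matrix (Fin d ⊕ Fin d) (Fin d ⊕ Fin d) F)) = ⊤ :=
      LinearMap.range_eq_top.2 fun v => ⟨(z - 1)⁻¹ • v, by
        rw [sub1_apply, hz, Matrix.smul_mulVec, Matrix.one_mulVec]
        have : z • (z - 1)⁻¹ • v - (z - 1)⁻¹ • v = ((z - 1) * (z - 1)⁻¹) • v := by module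
        rw [this, mul_inv_cancel₀ (sub_ne_zero.2 hz1), one_smul]⟩
    rw [rk, h, finrank_top, Module.finrank_fintype_fun_eq_card, Fintype.card_sum, Fintype.card_fin] at hlt
    omega

theorem sympForm_one (u v : Fin 1 ⊕ Fin 1 → F) :
    Cfsg.sympForm 1 F u v = u (.inr 0) * v (.inl 0) - u (.inl 0) * v (.inr 0) := by
  rw [sympForm_eq_sum, Fin.sum_univ_one]

/-- A symplectic transvection. -/
theorem exists_transvection (p : ℕ) [CharP F p] (hd : 0 < d) :
    ∃ x ∈ Cfsg.spGL d F, x ^ p = 1 ∧ rk (x : Matrix (Fin d ⊕ Fin d) (Fin d ⊕ Fin d) F) = 1 := by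
  let N : (Fin 1 ⊕ Fin 1 → F) →ₗ[F] (Fin 1 ⊕ Fin 1 → F) :=
    { toFun := fun v => Sum.elim (fun _ => v (.inr 0)) 0
      map_add' := fun u v => by ext (i | i) <;> simp
      map_smul' := fun c v => by ext (i | i) <;> simp }
  have hNN : ∀ v, N (N v) = 0 := fun v => by ext (i | i) <;> rfl
  have hit : ∀ (i : ℕ) v,
      (LinearMap.id + N : (Fin 1 ⊕ Fin 1 → F) →ₗ[F] (Fin 1 ⊕ Fin 1 → F))^[i] v = v + (i : F) • N v := by
    intro i v
    induction i with
    | zero => simp
    | succ i ih =>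
      rw [Function.iterate_succ_apply', ih, LinearMap.add_apply, LinearMap.id_apply, map_add, map_smul, hNN,
        smul_zero, add_zero, Nat.cast_succ, add_smul, one_smul, add_assoc]
  obtain ⟨x, hx, hxr, hrk⟩ := exists_embed (d := d) (fun _ : Fin 1 => (⟨0, hd⟩ : Fin d))
    (fun i j _ => Subsingleton.elim i j) (LinearMap.id + N) (fun u v => by
      rw [sympForm_one, sympForm_one]; simp [N]; ring)
  refine ⟨x, hx, hxr p fun v => by rw [hit, CharP.cast_eq_zero, zero_smul, add_zero], ?_⟩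
  rw [hrk, add_sub_cancel_left]
  have : LinearMap.range N = F ∙ (Sum.elim (fun _ => 1) 0 : Fin 1 ⊕ Fin 1 → F) := by
    ext w
    rw [LinearMap.mem_range, Submodule.mem_span_singleton]
    constructor
    · rintro ⟨v, rfl⟩
      exact ⟨v (.inr 0), by ext (i | i) <;> simp [N]⟩
    · rintro ⟨k, rfl⟩
      exact ⟨fun _ => k, by ext (i | i) <;> simp [N]⟩
  rw [this, finrank_span_singleton fun h => one_ne_zero (α := F) (congrFun h (.inl 0))]

/-- Minus one on a plane. -/
theorem exists_neg_plane (h2 : (2 : F) ≠ 0) (hd : 0 < d) :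
    ∃ x ∈ Cfsg.spGL d F, x ^ 2 = 1 ∧ rk (x : Matrix (Fin d ⊕ Fin d) (Fin d ⊕ Fin d) F) = 2 := by
  obtain ⟨x, hx, hxr, hrk⟩ := exists_embed (d := d) (fun _ : Fin 1 => (⟨0, hd⟩ : Fin d))
    (fun i j _ => Subsingleton.elim i j) (-LinearMap.id : (Fin 1 ⊕ Fin 1 → F) →ₗ[F] (Fin 1 ⊕ Fin 1 → F)) (fun u v => by rw [sympForm_one, sympForm_one]; simp)
  refine ⟨x, hx, hxr 2 fun v => by simp, ?_⟩
  rw [hrk, LinearMap.range_eq_top.2 fun v => ⟨(-(2 : F))⁻¹ • v, by
      simp only [LinearMap.sub_apply, LinearMap.neg_apply, LinearMap.id_apply]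
      have : -((-(2 : F))⁻¹ • v) - (-(2 : F))⁻¹ • v = ((-(2 : F)) * (-(2 : F))⁻¹) • v := by module
      rw [this, mul_inv_cancel₀ (neg_ne_zero.2 h2), one_smul]⟩,
    finrank_top, Module.finrank_fintype_fun_eq_card, Fintype.card_sum, Fintype.card_fin]

/-- An element of odd order `r` prime to the characteristic moving as little as possible. -/
theorem exists_odd [Fintype F] (hd : 0 < d) {r : ℕ} [Fact r.Prime] (hr : Odd r) (hrF : (r : F) ≠ 0)
    (hrq : (Fintype.card F : ZMod r) ≠ 0) (hdvd : r ∣ Nat.card (Cfsg.spGL d F)) :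
    ∃ c : ℕ, c = (if Even (orderOf (Fintype.card F : ZMod r)) then orderOf (Fintype.card F : ZMod r)
        else 2 * orderOf (Fintype.card F : ZMod r)) ∧ 0 < c ∧ c ≤ 2 * d ∧ c < r ∧
      ∃ x ∈ Cfsg.spGL d F, x ^ r = 1 ∧ rk (x : Matrix (Fin d ⊕ Fin d) (Fin d ⊕ Fin d) F) = c ∧
        ∀ z : F, (x : Matrix (Fin d ⊕ Fin d) (Fin d ⊕ Fin d) F) ≠ z • 1 := by
  classical
  have hrp : r.Prime := Fact.out
  set o := orderOf (Fintype.card F : ZMod r) with ho
  have ho0 : 0 < o := orderOf_pos_iff.2 (isOfFinOrder_iff_pow_eq_one.2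
    ⟨r - 1, Nat.sub_pos_of_lt hrp.one_lt, ZMod.pow_card_sub_one_eq_one hrq⟩)
  have hor : o ∣ r - 1 := orderOf_dvd_of_pow_eq_one (ZMod.pow_card_sub_one_eq_one hrq)
  set e₀ := if Even o then o / 2 else o with he₀
  have hc : (if Even o then o else 2 * o) = 2 * e₀ := by
    rw [he₀]; split_ifs with h
    · rw [Nat.mul_div_cancel' h.two_dvd]
    · rfl
  have he0 : 0 < e₀ := by
    rw [he₀]; split_ifs with h
    · obtain ⟨k, hk⟩ := h; omega
    · exact ho0
  have hcd : o ∣ 2 * e₀ := by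
    rw [he₀]; split_ifs with h
    · rw [Nat.mul_div_cancel' h.two_dvd]
    · exact dvd_mul_left _ _
  have h2e : ∀ k, o ∣ k → Even k → 2 * e₀ ∣ k := by
    intro k hk hke
    rw [he₀]; split_ifs with h
    · rwa [Nat.mul_div_cancel' h.two_dvd]
    · exact Nat.Coprime.mul_dvd_of_dvd_of_dvd
        ((Nat.prime_two.coprime_iff_not_dvd).2 fun h' => h (even_iff_two_dvd.2 h')) hke.two_dvd hk
  have hlt : 2 * e₀ < r := by
    have h2 : Even (r - 1) := by obtain ⟨k, hk⟩ := hr; exact ⟨k, by omega⟩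
    have := Nat.le_of_dvd (by have := hrp.two_le; omega) (h2e _ hor h2)
    have := hrp.two_le
    omega
  have hed : e₀ ≤ d := by
    have hcard : r ∣ Nat.card (Matrix.symplecticGroup (Fin d) F) := by
      rwa [Nat.card_congr (MonoidHom.ofInjective (Forms.spToGL_injective (m := d) (F := F))).toEquiv,
        Forms.spToGL_range]
    rw [ClassicalLinear.card_sp] at hcard
    rcases hrp.dvd_mul.1 hcard with h | h
    · exact absurd ((ZMod.natCast_eq_zero_iff _ _).2 (hrp.dvd_of_dvd_pow h)) hrq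
    obtain ⟨i, hi, hi'⟩ := (hrp.prime.dvd_finsetProd_iff _).1 h
    rw [Finset.mem_range] at hi
    rw [← ZMod.natCast_eq_zero_iff, Nat.cast_sub (Nat.one_le_pow _ _ Fintype.card_pos)] at hi'
    push_cast at hi'
    rw [sub_eq_zero] at hi'
    have := Nat.le_of_dvd (by omega) (h2e _ (orderOf_dvd_of_pow_eq_one hi') (even_two_mul _))
    omega
  obtain ⟨X, hXsp, hXr, hXrk⟩ := exists_free hrF hrq he0 h2e hcd
  obtain ⟨x, hx, hxr, hrk⟩ := exists_embed (d := d) (Fin.castLE hed) (Fin.castLE_injective hed) X hXsp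
  rw [hXrk] at hrk
  refine ⟨2 * e₀, hc.symm, by omega, by omega, hlt, x, hx, hxr r hXr, hrk, fun z hz => ?_⟩
  have hz2 := scalar_mul_self hd hx hz
  have hzr : z ^ r = 1 := by
    have h1 := congrArg (fun g : GL (Fin d ⊕ Fin d) F => ap g (Pi.single (.inl ⟨0, hd⟩) 1)) (hxr r hXr)
    simp only [ap_one, ap_def, Units.val_pow_eq_pow_val, hz, smul_pow, one_pow, Matrix.smul_mulVec,
      Matrix.one_mulVec] at h1
    simpa using congrFun h1 (.inl ⟨0, hd⟩)
  obtain ⟨k, rfl⟩ := hr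
  rw [pow_succ, pow_mul, pow_two, hz2, one_pow, one_mul] at hzr
  have h0 : rk (x : Matrix (Fin d ⊕ Fin d) (Fin d ⊕ Fin d) F) = 0 := by
    have : sub1 (x : Matrix (Fin d ⊕ Fin d) (Fin d ⊕ Fin d) F) = 0 := LinearMap.ext fun v => by
      simp [hz, hzr]
    rw [rk, this, LinearMap.range_zero, finrank_bot]
  omega

end CfsgLib.Omega.SympTest
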