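import Mathlib
import Cfsg.Agent.Lib.Forms.HermFrames
import Cfsg.Agent.Lib.SemisimpleClasses.Unitary

/-!
Invariant non-degenerate subspaces of unitary matrices as block decompositions, and the number of
non-degenerate subspaces.
-/

set_option autoImplicit false

open scoped Matrix

namespace CfsgLib.Omega.UnitaryNondeg

open CfsgLib.Generators CfsgLib.SemisimpleClasses.Unitary CfsgLib.ClassicalForms CfsgLib.Forms

variable {F : Type*} [Field F] {q n : ℕ}

/-- Non-degenerate subspaces, as in the statements. -/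
def NdSub (q : ℕ) (W : Submodule F (Fin n → F)) : Prop :=
  ∀ u ∈ W, u ≠ 0 → ∃ v ∈ W, Cfsg.hermForm n F q u v ≠ 0

/-- Having an invariant non-degenerate subspace of dimension `m`. -/
def Fixes (q m : ℕ) (A : Matrix (Fin n) (Fin n) F) : Prop :=
  ∃ W : Submodule F (Fin n → F), Module.finrank F W = m ∧ NdSub q W ∧ W.map (Matrix.toLin' A) ≤ W

/-- The coordinate embedding. -/
def emb (m t : ℕ) : (Fin m → F) →ₗ[F] (Fin (m + t) → F) where
  toFun v := Fin.append v 0
  map_add' u v := by
    funext i; refine Fin.addCases (fun a => ?_) (fun b => ?_) i <;> simp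
  map_smul' a v := by
    funext i; refine Fin.addCases (fun a => ?_) (fun b => ?_) i <;> simp

theorem emb_injective (m t : ℕ) : Function.Injective (emb (F := F) m t) := fun u v h => by
  funext i
  have := congrFun h (Fin.castAdd t i)
  simpa [emb] using this

theorem blk_mulVec {m t : ℕ} (A : Matrix (Fin m) (Fin m) F) (B : Matrix (Fin t) (Fin t) F)
    (u : Fin m → F) (v : Fin t → F) : blk A B *ᵥ Fin.append u v = Fin.append (A *ᵥ u) (B *ᵥ v) := by
  funext i
  refine Fin.addCases (fun a => ?_) (fun b => ?_) i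
  · simp [blk, Matrix.mulVec, dotProduct, Fin.sum_univ_add]
  · simp [blk, Matrix.mulVec, dotProduct, Fin.sum_univ_add]

variable [Fintype F]

theorem hermForm_emb (hq : Fintype.card F = q ^ 2) {m t : ℕ} (u v : Fin m → F) :
    Cfsg.hermForm (m + t) F q (emb m t u) (emb m t v) = Cfsg.hermForm m F q u v := by
  have hq0 : q ≠ 0 := (zero_lt_one.trans (one_lt_of_card_eq_sq hq)).ne'
  simp [Cfsg.hermForm, emb, Fin.sum_univ_add, zero_pow hq0]

theorem ndSub_range_emb (hq : Fintype.card F = q ^ 2) (m t : ℕ) :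
    NdSub q (LinearMap.range (emb (F := F) m t)) := by
  have hq0 : q ≠ 0 := (zero_lt_one.trans (one_lt_of_card_eq_sq hq)).ne'
  rintro _ ⟨u, rfl⟩ hu
  obtain ⟨i, hi⟩ : ∃ i, u i ≠ 0 := by
    by_contra h
    push Not at h
    exact hu (by rw [show u = 0 from funext h, map_zero])
  refine ⟨emb m t (Pi.single i 1), ⟨_, rfl⟩, ?_⟩
  rw [hermForm_emb hq]
  simpa [Cfsg.hermForm, Pi.single_apply, apply_ite (fun x : F => x ^ q), zero_pow hq0] using hi

theorem finrank_range_emb (m t : ℕ) :
    Module.finrank F (LinearMap.range (emb (F := F) m t)) = m := by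
  rw [LinearMap.finrank_range_of_inj (emb_injective m t), Module.finrank_fin_fun]

/-- A non-degenerate subspace is the image of a coordinate one. -/
theorem exists_gu_map_std (hq : Fintype.card F = q ^ 2) {m t : ℕ} {W : Submodule F (Fin (m + t) → F)}
    (hd : Module.finrank F W = m) (hW : NdSub q W) :
    ∃ g ∈ Cfsg.GU (m + t) F q, (LinearMap.range (emb (F := F) m t)).map
      (Matrix.toLin' (g : Matrix (Fin (m + t)) (Fin (m + t)) F)) = W := by
  classical
  obtain ⟨c⟩ := exists_conj (F := F) (q := q) (by rw [Nat.card_eq_fintype_card, hq])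
  set B := hermBundled (m + t) c.σ (F := F) with hB
  obtain ⟨v, hvW, hv⟩ := exists_orthonormal_family c.σ c.ne c.invol B (hermBundled_isSymm c.invol) m W hd
    (fun w hw h => by
      by_contra hne
      obtain ⟨u, hu, hu'⟩ := hW w hw hne
      refine hu' ?_
      have h1 := h u hu
      rw [hB, hermBundled_eq c] at h1
      rw [c.herm_symm, h1, map_zero])
  let e : (Fin m → F) ≃ₗ[F] LinearMap.range (emb (F := F) m t) :=
    LinearEquiv.ofInjective _ (emb_injective m t)
  let f : LinearMap.range (emb (F := F) m t) →ₗ[F] (Fin (m + t) → F) :=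
    Fintype.linearCombination F v ∘ₗ e.symm.toLinearMap
  have hfe : ∀ x, f (e x) = ∑ i, x i • v i := fun x => by simp [f, Fintype.linearCombination_apply]
  have hpres : ∀ x x', B (f (e x)) (f (e x')) = B (emb m t x) (emb m t x') := fun x x' => by
    simp only [hfe, map_sum, map_smulₛₗ, LinearMap.sum_apply, LinearMap.smul_apply, RingHom.id_apply,
      smul_eq_mul, hv, mul_ite, mul_one, mul_zero, Finset.sum_ite_eq', Finset.mem_univ, if_true]
    rw [hB, hermBundled_eq c, hermForm_emb hq, c.herm_apply]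
  have hinj : Function.Injective f := by
    rw [injective_iff_map_eq_zero]
    intro y hy
    obtain ⟨x, rfl⟩ := e.surjective y
    have h0 : ∀ x', B (f (e x)) (f (e x')) = 0 := fun x' => by rw [hy, map_zero, LinearMap.zero_apply]
    have hx : x = 0 := funext fun i => by
      have h1 := h0 (Pi.single i 1)
      rw [hpres, hB, hermBundled_eq c, hermForm_emb hq, c.herm_apply] at h1
      simpa [Pi.single_apply] using h1
    rw [hx, map_zero]
  obtain ⟨g, hg, hgx⟩ := witt_extension_hermitian c.σ c.ne c.invol B (hermBundled_isSymm c.invol)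
    (hermBundled_nondegenerate c.invol) _ f hinj (fun x x' => by
      obtain ⟨a, rfl⟩ := e.surjective x
      obtain ⟨b, rfl⟩ := e.surjective x'
      exact hpres a b)
  let G := guOfEquiv g fun x y => by rw [← hermBundled_eq c, ← hermBundled_eq c]; exact hg y x
  refine ⟨(G : GL (Fin (m + t)) F), G.2, ?_⟩
  have hGg : ∀ x, Matrix.toLin' ((G : GL (Fin (m + t)) F) : Matrix (Fin (m + t)) (Fin (m + t)) F) x = g x :=
    fun x => by rw [Matrix.toLin'_apply, ← Geometric.ap_def, ap_guOfEquiv]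
  refine Submodule.eq_of_le_of_finrank_eq ?_ ?_
  · rintro _ ⟨_, ⟨x, rfl⟩, rfl⟩
    rw [hGg, show emb m t x = ((e x : LinearMap.range (emb (F := F) m t)) : Fin (m + t) → F) from rfl, hgx, hfe]
    exact W.sum_mem fun i _ => W.smul_mem _ (hvW i)
  · have hinjG : Function.Injective
        (Matrix.toLin' ((G : GL (Fin (m + t)) F) : Matrix (Fin (m + t)) (Fin (m + t)) F)) :=
      fun x y hxy => g.injective (by rw [← hGg, ← hGg, hxy])
    rw [← LinearEquiv.finrank_eq (Submodule.equivMapOfInjective _ hinjG _), finrank_range_emb, hd]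

theorem map_map_mem {n : ℕ} (g x : GL (Fin n) F) {W : Submodule F (Fin n → F)}
    (h : (W.map (Matrix.toLin' (g : Matrix (Fin n) (Fin n) F))).map (Matrix.toLin' (x : Matrix (Fin n) (Fin n) F)) ≤
      W.map (Matrix.toLin' (g : Matrix (Fin n) (Fin n) F))) :
    W.map (Matrix.toLin' ((g⁻¹ * x * g : GL (Fin n) F) : Matrix (Fin n) (Fin n) F)) ≤ W := by
  rintro _ ⟨w, hw, rfl⟩
  obtain ⟨u, hu, hu'⟩ := h ⟨_, ⟨w, hw, rfl⟩, rfl⟩
  rw [Matrix.toLin'_apply, Units.val_mul, Units.val_mul, ← Matrix.mulVec_mulVec, ← Matrix.mulVec_mulVec]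
  simp only [Matrix.toLin'_apply] at hu'
  rw [← hu', Matrix.mulVec_mulVec, ← Units.val_mul, inv_mul_cancel, Units.val_one, Matrix.one_mulVec]
  exact hu

theorem ndSub_map {n : ℕ} {g : GL (Fin n) F} (hg : g ∈ Cfsg.GU n F q) {W : Submodule F (Fin n → F)}
    (hW : NdSub q W) : NdSub q (W.map (Matrix.toLin' (g : Matrix (Fin n) (Fin n) F))) := by
  rintro _ ⟨u, hu, rfl⟩ hne
  obtain ⟨v, hv, h⟩ := hW u hu (fun h0 => hne (by rw [h0, map_zero]))
  exact ⟨_, ⟨v, hv, rfl⟩, fun h' => h (((hg u v).symm).trans h')⟩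

/-- An element preserving the coordinate subspace is a block sum of unitary matrices. -/
theorem exists_blk_of_invariant_std (hq : Fintype.card F = q ^ 2) {m t : ℕ} {x : GL (Fin (m + t)) F}
    (hx : x ∈ Cfsg.GU (m + t) F q)
    (h : (LinearMap.range (emb (F := F) m t)).map (Matrix.toLin' (x : Matrix (Fin (m + t)) (Fin (m + t)) F)) ≤
      LinearMap.range (emb (F := F) m t)) :
    ∃ A B, qAdjoint q A * A = 1 ∧ qAdjoint q B * B = 1 ∧
      (x : Matrix (Fin (m + t)) (Fin (m + t)) F) = blk (a := m) (b := t) A B := by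
  classical
  have hq0 : q ≠ 0 := (zero_lt_one.trans (one_lt_of_card_eq_sq hq)).ne'
  set X := (x : Matrix (Fin (m + t)) (Fin (m + t)) F) with hX
  have hzero : ∀ (M : Matrix (Fin (m + t)) (Fin (m + t)) F),
      (LinearMap.range (emb (F := F) m t)).map (Matrix.toLin' M) ≤ LinearMap.range (emb (F := F) m t) →
      ∀ (j : Fin m) (i : Fin t), M (Fin.natAdd m i) (Fin.castAdd t j) = 0 := by
    intro M hM j i
    obtain ⟨u, hu⟩ := hM ⟨_, ⟨Pi.single j 1, rfl⟩, rfl⟩
    have h1 := congrFun hu (Fin.natAdd m i)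
    rw [Matrix.toLin'_apply] at h1
    simpa [emb, Matrix.mulVec, dotProduct, Fin.sum_univ_add, Pi.single_apply] using h1.symm
  have hinv : (LinearMap.range (emb (F := F) m t)).map
      (Matrix.toLin' ((x⁻¹ : GL (Fin (m + t)) F) : Matrix (Fin (m + t)) (Fin (m + t)) F)) ≤
      LinearMap.range (emb (F := F) m t) := by
    have heq : (LinearMap.range (emb (F := F) m t)).map (Matrix.toLin' X) = LinearMap.range (emb (F := F) m t) := by
      refine Submodule.eq_of_le_of_finrank_eq h ?_
      rw [← LinearEquiv.finrank_eq (Submodule.equivMapOfInjective _ (fun a b hab => by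
        simp only [Matrix.toLin'_apply] at hab
        exact Matrix.mulVec_injective_of_isUnit x.isUnit hab) _)]
    conv_lhs => rw [← heq, ← Submodule.map_comp, ← Matrix.toLin'_mul, hX, ← Units.val_mul, inv_mul_cancel,
      Units.val_one, Matrix.toLin'_one, Submodule.map_id]
  have hXadj : qAdjoint q X = ((x⁻¹ : GL (Fin (m + t)) F) : Matrix (Fin (m + t)) (Fin (m + t)) F) := by
    have h1 := (mem_GU_iff_qAdjoint hq x).1 hx
    calc qAdjoint q X = qAdjoint q X * (X * ((x⁻¹ : GL (Fin (m + t)) F) : Matrix _ _ F)) := by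
          rw [hX, Units.mul_inv, mul_one]
      _ = _ := by rw [← mul_assoc, h1, one_mul]
  let A : Matrix (Fin m) (Fin m) F := fun i j => X (Fin.castAdd t i) (Fin.castAdd t j)
  let B : Matrix (Fin t) (Fin t) F := fun i j => X (Fin.natAdd m i) (Fin.natAdd m j)
  have hXblk : X = blk A B := by
    ext i j
    refine Fin.addCases (fun a => ?_) (fun b => ?_) i <;> refine Fin.addCases (fun a' => ?_) (fun b' => ?_) j
    · simp [blk, A, Matrix.fromBlocks]
    · have h1 := hzero _ hinv a b'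
      rw [← hXadj] at h1
      simp only [qAdjoint, Matrix.transpose_apply, Matrix.map_apply] at h1
      simpa [blk] using pow_eq_zero_iff hq0 |>.1 h1
    · simpa [blk] using hzero X h a' b
    · simp [blk, B, Matrix.fromBlocks]
  have h1 := (mem_GU_iff_qAdjoint hq x).1 hx
  rw [← hX, hXblk, qAdjoint_blk hq0, blk_mul, ← blk_one] at h1
  have h2 := (Matrix.reindexAlgEquiv F F finSumFinEquiv).injective h1
  rw [Matrix.fromBlocks_inj] at h2
  exact ⟨A, B, h2.1, h2.2.2.2, hXblk⟩

/-- A unitary matrix as an element of `GL`. -/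
noncomputable def toGLU {A : Matrix (Fin n) (Fin n) F} (hA : qAdjoint q A * A = 1) : GL (Fin n) F :=
  ⟨A, qAdjoint q A, mul_eq_one_comm.1 hA, hA⟩

theorem toGLU_mem (hq : Fintype.card F = q ^ 2) {A : Matrix (Fin n) (Fin n) F}
    (hA : qAdjoint q A * A = 1) : toGLU hA ∈ Cfsg.GU n F q :=
  (mem_GU_iff_qAdjoint hq _).2 hA

theorem blk_unitary (hq : Fintype.card F = q ^ 2) {m t : ℕ} {A : Matrix (Fin m) (Fin m) F}
    {B : Matrix (Fin t) (Fin t) F} (hA : qAdjoint q A * A = 1) (hB : qAdjoint q B * B = 1) :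
    qAdjoint q (blk A B) * blk A B = 1 := by
  rw [qAdjoint_blk (zero_lt_one.trans (one_lt_of_card_eq_sq hq)).ne', blk_mul, hA, hB, blk_one]

/-- A non-degenerate invariant subspace gives a block decomposition. -/
theorem exists_blk_of_fixes (hq : Fintype.card F = q ^ 2) {m t : ℕ} {x : GL (Fin (m + t)) F}
    (hx : x ∈ Cfsg.GU (m + t) F q) (h : Fixes q m (x : Matrix (Fin (m + t)) (Fin (m + t)) F)) :
    ∃ (g : GL (Fin (m + t)) F) (A : Matrix (Fin m) (Fin m) F) (B : Matrix (Fin t) (Fin t) F),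
      g ∈ Cfsg.GU (m + t) F q ∧ qAdjoint q A * A = 1 ∧ qAdjoint q B * B = 1 ∧
      ((g⁻¹ * x * g : GL (Fin (m + t)) F) : Matrix (Fin (m + t)) (Fin (m + t)) F) = blk A B := by
  obtain ⟨W, hd, hW, hinv⟩ := h
  obtain ⟨g, hg, rfl⟩ := exists_gu_map_std hq hd hW
  obtain ⟨A, B, hA, hB, hAB⟩ := exists_blk_of_invariant_std hq
    (Subgroup.mul_mem _ (Subgroup.mul_mem _ (Subgroup.inv_mem _ hg) hx) hg) (map_map_mem g x hinv)
  exact ⟨g, A, B, hg, hA, hB, hAB⟩

/-- A unitary matrix linearly conjugate to a block sum of unitary matrices fixes a non-degenerate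
subspace. -/
theorem fixes_of_conj (hq : Fintype.card F = q ^ 2) {m t : ℕ} {x : GL (Fin (m + t)) F}
    (hx : x ∈ Cfsg.GU (m + t) F q) {A : Matrix (Fin m) (Fin m) F} {B : Matrix (Fin t) (Fin t) F}
    (hA : qAdjoint q A * A = 1) (hB : qAdjoint q B * B = 1)
    (h : IsConj (toGLU (blk_unitary hq hA hB)) x) :
    Fixes q m (x : Matrix (Fin (m + t)) (Fin (m + t)) F) := by
  have hy := toGLU_mem hq (blk_unitary hq hA hB)
  obtain ⟨g, hg⟩ := isConj_iff.1 ((CfsgLib.Classes.isConj_gu_iff hq ⟨_, hy⟩ ⟨x, hx⟩).2 h)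
  have hg' : (g : GL (Fin (m + t)) F) * toGLU (blk_unitary hq hA hB) * (g : GL (Fin (m + t)) F)⁻¹ = x :=
    congrArg Subtype.val hg
  refine ⟨(LinearMap.range (emb (F := F) m t)).map
      (Matrix.toLin' ((g : GL (Fin (m + t)) F) : Matrix (Fin (m + t)) (Fin (m + t)) F)), ?_,
    ndSub_map g.2 (ndSub_range_emb hq m t), ?_⟩
  · rw [← LinearEquiv.finrank_eq (Submodule.equivMapOfInjective _ (fun a b hab => by
      simp only [Matrix.toLin'_apply] at hab
      exact Matrix.mulVec_injective_of_isUnit (g : GL (Fin (m + t)) F).isUnit hab) _), finrank_range_emb]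
  · rintro _ ⟨_, ⟨_, ⟨u, rfl⟩, rfl⟩, rfl⟩
    refine ⟨emb m t (A *ᵥ u), ⟨_, rfl⟩, ?_⟩
    simp only [Matrix.toLin'_apply]
    rw [← hg', Matrix.mulVec_mulVec (emb m t u), ← Units.val_mul,
      inv_mul_cancel_right, Units.val_mul, ← Matrix.mulVec_mulVec]
    congr 1
    show Fin.append (A *ᵥ u) 0 = blk A B *ᵥ Fin.append u 0
    rw [blk_mulVec, Matrix.mulVec_zero]

/-- An invariant non-degenerate subspace has an invariant complement. -/
theorem exists_compl_of_fixes (hq : Fintype.card F = q ^ 2) {m t : ℕ} {x : GL (Fin (m + t)) F}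
    (hx : x ∈ Cfsg.GU (m + t) F q) (h : Fixes q m (x : Matrix (Fin (m + t)) (Fin (m + t)) F)) :
    ∃ U W : Submodule F (Fin (m + t) → F), IsCompl U W ∧ Module.finrank F U = m ∧
      U.map (Matrix.toLin' (x : Matrix (Fin (m + t)) (Fin (m + t)) F)) ≤ U ∧
      W.map (Matrix.toLin' (x : Matrix (Fin (m + t)) (Fin (m + t)) F)) ≤ W := by
  obtain ⟨g, A, B, hg, -, -, hgx⟩ := exists_blk_of_fixes hq hx h
  let emb' : (Fin t → F) →ₗ[F] (Fin (m + t) → F) :=
    { toFun := fun v => Fin.append 0 v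
      map_add' := fun u v => by funext i; refine Fin.addCases (fun a => ?_) (fun b => ?_) i <;> simp
      map_smul' := fun a v => by funext i; refine Fin.addCases (fun a => ?_) (fun b => ?_) i <;> simp }
  let L := Matrix.toLin' ((g : GL (Fin (m + t)) F) : Matrix (Fin (m + t)) (Fin (m + t)) F)
  have hLinj : Function.Injective L := fun a b hab => by
    simp only [L, Matrix.toLin'_apply] at hab
    exact Matrix.mulVec_injective_of_isUnit g.isUnit hab
  have hLsurj : Function.Surjective L := (LinearMap.injective_iff_surjective).1 hLinj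
  have hxg : ∀ v, (x : Matrix (Fin (m + t)) (Fin (m + t)) F) *ᵥ ((g : Matrix (Fin (m + t)) (Fin (m + t)) F) *ᵥ v) =
      (g : Matrix (Fin (m + t)) (Fin (m + t)) F) *ᵥ (blk A B *ᵥ v) := fun v => by
    rw [← hgx, Matrix.mulVec_mulVec, Matrix.mulVec_mulVec, ← Units.val_mul, ← Units.val_mul]
    congr 2
    group
  have hcompl : IsCompl (LinearMap.range (emb (F := F) m t)) (LinearMap.range emb') := by
    refine ⟨?_, ?_⟩
    · rw [Submodule.disjoint_def]
      rintro _ ⟨u, rfl⟩ ⟨v, hv⟩
      have hu : u = 0 := funext fun i => by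
        have := congrFun hv (Fin.castAdd t i)
        simpa [emb, emb'] using this.symm
      rw [hu, map_zero]
    · rw [codisjoint_iff, eq_top_iff]
      intro w _
      refine Submodule.mem_sup.2 ⟨_, ⟨fun i => w (Fin.castAdd t i), rfl⟩, _, ⟨fun i => w (Fin.natAdd m i), rfl⟩, ?_⟩
      funext i
      refine Fin.addCases (fun a => ?_) (fun b => ?_) i <;> simp [emb, emb']
  refine ⟨(LinearMap.range (emb (F := F) m t)).map L, (LinearMap.range emb').map L,
    ⟨?_, ?_⟩, ?_, ?_, ?_⟩
  · exact Submodule.disjoint_map hLinj hcompl.disjoint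
  · rw [codisjoint_iff, ← Submodule.map_sup, hcompl.sup_eq_top, Submodule.map_top, LinearMap.range_eq_top.2 hLsurj]
  · rw [← LinearEquiv.finrank_eq (Submodule.equivMapOfInjective _ hLinj _), finrank_range_emb]
  · rintro _ ⟨_, ⟨_, ⟨u, rfl⟩, rfl⟩, rfl⟩
    refine ⟨emb m t (A *ᵥ u), ⟨_, rfl⟩, ?_⟩
    simp only [L, Matrix.toLin'_apply, hxg]
    congr 1
    show Fin.append (A *ᵥ u) 0 = blk A B *ᵥ Fin.append u 0
    rw [blk_mulVec, Matrix.mulVec_zero]
  · rintro _ ⟨_, ⟨_, ⟨u, rfl⟩, rfl⟩, rfl⟩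
    refine ⟨emb' (B *ᵥ u), ⟨_, rfl⟩, ?_⟩
    simp only [L, Matrix.toLin'_apply, hxg]
    congr 1
    show Fin.append 0 (B *ᵥ u) = blk A B *ᵥ Fin.append 0 u
    rw [blk_mulVec, Matrix.mulVec_zero]

/-- The number of non-degenerate subspaces divides the order of the unitary group. -/
theorem card_ndSub_dvd (hq : Fintype.card F = q ^ 2) {m k : ℕ} (hmk : m ≤ k) :
    Nat.card {W : Submodule F (Fin k → F) // Module.finrank F W = m ∧ NdSub q W} ∣
      Nat.card (Cfsg.GU k F q) := by
  classical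
  obtain ⟨t, rfl⟩ := Nat.exists_eq_add_of_le hmk
  let Ω := {W : Submodule F (Fin (m + t) → F) // Module.finrank F W = m ∧ NdSub q W}
  let W₀ := LinearMap.range (emb (F := F) m t)
  let L : Cfsg.GU (m + t) F q → ((Fin (m + t) → F) →ₗ[F] (Fin (m + t) → F)) := fun g =>
    Matrix.toLin' ((g : GL (Fin (m + t)) F) : Matrix (Fin (m + t)) (Fin (m + t)) F)
  have hinj : ∀ g, Function.Injective (L g) := fun g a b hab => by
    simp only [L, Matrix.toLin'_apply] at hab
    exact Matrix.mulVec_injective_of_isUnit (g : GL (Fin (m + t)) F).isUnit hab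
  let f : Cfsg.GU (m + t) F q → Ω := fun g => ⟨W₀.map (L g), by
    rw [← LinearEquiv.finrank_eq (Submodule.equivMapOfInjective _ (hinj g) _), finrank_range_emb],
    ndSub_map g.2 (ndSub_range_emb hq m t)⟩
  have hLmul : ∀ a b, L (a * b) = L a ∘ₗ L b := fun a b => by
    simp only [L, Subgroup.coe_mul, Units.val_mul, Matrix.toLin'_mul]
  have hfib : ∀ W : Ω, Nat.card {g // f g = W} = Nat.card {g // f g = f 1} := by
    intro W
    obtain ⟨g₀, hg₀, hW⟩ := exists_gu_map_std hq W.2.1 W.2.2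
    set g₁ : Cfsg.GU (m + t) F q := ⟨g₀, hg₀⟩
    have hW' : W = f g₁ := Subtype.ext hW.symm
    have hmul : ∀ a b c, f b = f c → f (a * b) = f (a * c) := fun a b c h => Subtype.ext (by
      show W₀.map (L (a * b)) = W₀.map (L (a * c))
      rw [hLmul, hLmul, Submodule.map_comp, Submodule.map_comp, show W₀.map (L b) = W₀.map (L c) from
        congrArg Subtype.val h])
    rw [hW']
    refine Nat.card_congr ((Equiv.mulLeft g₁⁻¹).subtypeEquiv fun g => ⟨fun h => ?_, fun h => ?_⟩)
    · have := hmul g₁⁻¹ g g₁ h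
      rwa [inv_mul_cancel] at this
    · have := hmul g₁ (g₁⁻¹ * g) 1 h
      rwa [mul_inv_cancel_left, mul_one] at this
  haveI : Finite Ω := Subtype.finite
  haveI : Fintype Ω := Fintype.ofFinite Ω
  rw [Nat.card_congr (Equiv.sigmaFiberEquiv f).symm, Nat.card_sigma, Finset.sum_congr rfl (fun W _ => hfib W),
    Finset.sum_const, Finset.card_univ, smul_eq_mul, ← Nat.card_eq_fintype_card]
  exact dvd_mul_right _ _

end CfsgLib.Omega.UnitaryNondeg
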