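import Mathlib
import Cfsg.Agent.Lib.Omega.UnitaryNondegSplit
import Cfsg.Agent.Lib.Omega.SubfieldPrime

/-!
Characteristic roots of semisimple unitary matrices: the multisets stable under `a ↦ (a ^ q)⁻¹`, and the
invariant non-degenerate subspaces in terms of stable sub-multisets.
-/

set_option autoImplicit false

open Polynomial
open scoped Matrix

namespace CfsgLib.Omega.UnitaryNondeg

open CfsgLib.Generators CfsgLib.SemisimpleClasses.Unitary
open CfsgLib.Classes.SympSemi (rev rev_mul rev_monic natDegree_rev)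

/-- Stable multisets split into orbits. -/
theorem exists_sub_invariant {α : Type*} [DecidableEq α] (f : α → α) {c : ℕ} (hc : 0 < c) :
    ∀ (N : ℕ) (S : Multiset α), Multiset.card S = N → S.map f = S → (∀ a ∈ S, f^[c] a = a) →
      (∀ a ∈ S, ∀ u < c, ∀ v < c, f^[u] a = f^[v] a → u = v) →
      c ∣ N ∧ ∀ j, j * c ≤ N → ∃ T ≤ S, T.map f = T ∧ Multiset.card T = j * c := by
  intro N
  induction N using Nat.strong_induction_on with
  | _ N ih =>
    intro S hN hS hper hfree
    rcases Multiset.empty_or_exists_mem S with rfl | ⟨a, ha⟩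
    · rw [Multiset.card_zero] at hN
      subst hN
      exact ⟨dvd_zero c, fun j hj => ⟨0, le_rfl, Multiset.map_zero f, by rw [Multiset.card_zero]; omega⟩⟩
    set O : Multiset α := (Multiset.range c).map fun u => f^[u] a with hO
    have hOc : Multiset.card O = c := by rw [hO, Multiset.card_map, Multiset.card_range]
    have hmem : ∀ u, f^[u] a ∈ S := fun u => by
      induction u with
      | zero => exact ha
      | succ u ih' =>
        rw [Function.iterate_succ_apply', ← hS]
        exact Multiset.mem_map_of_mem f ih'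
    have hOS : O ≤ S := by
      refine (Multiset.le_iff_subset ?_).2 fun b hb => ?_
      · exact Multiset.Nodup.map_on (fun u hu v hv h => hfree a ha u (Multiset.mem_range.1 hu) v
          (Multiset.mem_range.1 hv) h) (Multiset.nodup_range c)
      · obtain ⟨u, -, rfl⟩ := Multiset.mem_map.1 hb
        exact hmem u
    have hOf : O.map f = O := by
      rw [hO, Multiset.map_map]
      simp only [Function.comp_def, ← Function.iterate_succ_apply' f]
      have h1 : (Multiset.range (c + 1)).map (fun u => f^[u] a) =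
          f^[c] a ::ₘ (Multiset.range c).map fun u => f^[u] a := by
        rw [Multiset.range_succ, Multiset.map_cons]
      have h2 : (Multiset.range (c + 1)).map (fun u => f^[u] a) =
          f^[0] a ::ₘ (Multiset.range c).map fun u => f^[u + 1] a := by
        rw [← Multiset.coe_range, ← Multiset.coe_range, List.range_succ_eq_map, Multiset.map_coe,
          Multiset.map_coe, List.map_cons, List.map_map, ← Multiset.cons_coe]
        rfl
      rw [h1, hper a ha, Function.iterate_zero_apply, Multiset.cons_inj_right] at h2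
      exact h2.symm
    obtain ⟨S', rfl⟩ := Multiset.le_iff_exists_add.1 hOS
    rw [Multiset.card_add, hOc] at hN
    have hS' : S'.map f = S' := by
      rw [Multiset.map_add, hOf] at hS
      exact add_left_cancel hS
    obtain ⟨hdvd, hsub⟩ := ih (Multiset.card S') (by omega) S' rfl hS'
      (fun b hb => hper b (Multiset.mem_add.2 (Or.inr hb))) (fun b hb => hfree b (Multiset.mem_add.2 (Or.inr hb)))
    refine ⟨hN ▸ (dvd_refl c).add hdvd, fun j hj => ?_⟩
    rcases j with - | j
    · exact ⟨0, Multiset.zero_le _, Multiset.map_zero f, by simp⟩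
    obtain ⟨T, hT, hTf, hTc⟩ := hsub j (by rw [add_mul, one_mul] at hj; omega)
    refine ⟨O + T, add_le_add_right hT O, by rw [Multiset.map_add, hOf, hTf], ?_⟩
    rw [Multiset.card_add, hOc, hTc, add_mul, one_mul, add_comm]

section Rev

variable {F K : Type*} [Field F] [Field K]

theorem rev_map_hom (ψ : F →+* K) (f : F[X]) : (rev f).map ψ = rev (f.map ψ) := by
  ext k
  simp only [rev, Polynomial.map_mul, map_C, coeff_C_mul, coeff_map, coeff_reverse,
    natDegree_map_eq_of_injective ψ.injective, map_inv₀]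

theorem rev_X_sub_C {a : K} (ha : a ≠ 0) : rev (X - C a) = X - C a⁻¹ := by
  have h0 : (X - C a).coeff 0 = -a := by simp
  have hm : (rev (X - C a)).Monic := rev_monic (by rw [h0]; exact neg_ne_zero.2 ha)
  have hd : (rev (X - C a)).natDegree = 1 := by
    rw [natDegree_rev (by rw [h0]; exact neg_ne_zero.2 ha), natDegree_X_sub_C]
  rw [hm.eq_X_add_C hd, rev, coeff_C_mul, coeff_zero_reverse, (monic_X_sub_C a).leadingCoeff, mul_one, h0,
    inv_neg, map_neg, sub_eq_add_neg]

theorem rev_prod_X_sub_C {R : Multiset K} (hR : ∀ a ∈ R, a ≠ 0) :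
    rev (R.map fun a => X - C a).prod = (R.map fun a => X - C a⁻¹).prod := by
  rw [CfsgLib.Classes.SympSemi.rev_prod, Multiset.map_map]
  exact congrArg Multiset.prod (Multiset.map_congr rfl fun a ha => rev_X_sub_C (hR a ha))

end Rev

variable {F : Type*} [Field F] [Fintype F] {q n : ℕ} {K : Type*} [Field K] (ψ : F →+* K)

/-- The map on eigenvalues. -/
def conjInv (q : ℕ) (a : K) : K := (a ^ q)⁻¹

theorem exists_frob (ψ : F →+* K) (hq : Fintype.card F = q ^ 2) :
    ∃ Φ : K →+* K, ∀ a, Φ a = a ^ q := by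
  obtain ⟨p, hp⟩ := CharP.exists F
  haveI := Fact.mk (CharP.char_is_prime F p)
  haveI : CharP K p := (RingHom.charP_iff ψ ψ.injective p).1 hp
  obtain ⟨⟨e, he⟩, -, hc⟩ := FiniteField.card F p
  obtain ⟨f, -, hf⟩ := (Nat.dvd_prime_pow (Fact.out : p.Prime)).1
    (show q ∣ p ^ e from ⟨q, by rw [← PNat.mk_coe e he, ← hc, hq, sq]⟩)
  exact ⟨iterateFrobenius K p f, fun a => by rw [iterateFrobenius_def, hf]⟩

/-- The roots of a unitary matrix are stable. -/
theorem roots_invariant [IsAlgClosed K] (hq : Fintype.card F = q ^ 2) {A : Matrix (Fin n) (Fin n) F}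
    (hA : qAdjoint q A * A = 1) :
    ((A.charpoly.map ψ).roots).map (conjInv q) = (A.charpoly.map ψ).roots ∧
      ∀ a ∈ (A.charpoly.map ψ).roots, a ≠ 0 := by
  obtain ⟨φ, hφ, -⟩ := exists_frobenius_half hq
  obtain ⟨Φ, hΦ⟩ := exists_frob ψ hq
  obtain ⟨-, h0, hrev⟩ := uPoly_charpoly φ hφ hA
  set R := (A.charpoly.map ψ).roots with hR
  have hne : ∀ a ∈ R, a ≠ 0 := by
    rintro _ ha rfl
    have := (isRoot_of_mem_roots ha)
    rw [IsRoot.def, ← coeff_zero_eq_eval_zero, coeff_map] at this
    exact h0 ((map_eq_zero_iff ψ ψ.injective).1 this)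
  refine ⟨?_, hne⟩
  have hsplit := (IsAlgClosed.splits (A.charpoly.map ψ)).eq_prod_roots_of_monic ((Matrix.charpoly_monic A).map ψ)
  have h1 : (A.charpoly.map ψ).map Φ = rev (A.charpoly.map ψ) := by
    rw [← rev_map_hom, ← hrev, map_map, map_map]
    congr 1
    ext a
    simp [hΦ, hφ]
  rw [hsplit, ← hR, rev_prod_X_sub_C hne, Polynomial.map_multiset_prod, Multiset.map_map] at h1
  have h2 := congrArg roots h1
  rw [show (Polynomial.map Φ ∘ fun a => X - C a) = (fun b => X - C b) ∘ Φ from funext fun a => by simp,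
    ← Multiset.map_map, roots_multiset_prod_X_sub_C,
    show (fun a : K => X - C a⁻¹) = (fun b => X - C b) ∘ (fun a => a⁻¹) from rfl,
    ← Multiset.map_map, roots_multiset_prod_X_sub_C] at h2
  have h3 := congrArg (Multiset.map fun a : K => a⁻¹) h2
  rw [Multiset.map_map, Multiset.map_map] at h3
  simp only [Function.comp_def, inv_inv, Multiset.map_id', hΦ] at h3
  exact h3

/-- A unitary matrix of order prime to `p` with prescribed roots. -/
theorem exists_unitary_of_roots {p : ℕ} [Fact p.Prime] [CharP F p] (hq : Fintype.card F = q ^ 2)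
    {R : Multiset K} (hn : Multiset.card R = n) (hne : ∀ a ∈ R, a ≠ 0) (hR : R.map (conjInv q) = R) :
    ∃ (A : Matrix (Fin n) (Fin n) F) (N : ℕ), qAdjoint q A * A = 1 ∧ N.Coprime p ∧ 0 < N ∧ A ^ N = 1 ∧
      A.charpoly.map ψ = (R.map fun a => X - C a).prod := by
  obtain ⟨φ, hφ, -⟩ := exists_frobenius_half hq
  obtain ⟨Φ, hΦ⟩ := exists_frob ψ hq
  set P := (R.map fun a => X - C a).prod with hP
  have hfun : ∀ g : K →+* K, P.map g = ((R.map g).map fun a => X - C a).prod := fun g => by
    rw [hP, Polynomial.map_multiset_prod, Multiset.map_map, Multiset.map_map]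
    exact congrArg Multiset.prod (Multiset.map_congr rfl fun a _ => by simp)
  have hPP : P.map (Φ.comp Φ) = P := by
    rw [hfun]
    have h2 : (R.map (conjInv q)).map (conjInv q) = R := by rw [hR, hR]
    rw [Multiset.map_map] at h2
    rw [show R.map (Φ.comp Φ) = R from (Multiset.map_congr rfl fun a _ => by
      simp [conjInv, hΦ, inv_pow]).trans h2]
  obtain ⟨Q, hQ⟩ := Omega.exists_map_eq_of_frobenius ψ (Φ.comp Φ)
    (fun a => by rw [RingHom.comp_apply, hΦ, hΦ, Nat.card_eq_fintype_card, hq, ← pow_mul, sq]) P hPP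
  have hQm : Q.Monic := monic_of_injective ψ.injective
    (hQ ▸ monic_multiset_prod_of_monic _ _ fun a _ => monic_X_sub_C a)
  have hQd : Q.natDegree = n := by
    rw [← natDegree_map_eq_of_injective ψ.injective Q, hQ, hP, natDegree_multiset_prod_X_sub_C_eq_card, hn]
  have hQ0 : Q.coeff 0 ≠ 0 := fun h => by
    have h' : P.eval 0 = 0 := by rw [← coeff_zero_eq_eval_zero, ← hQ, coeff_map, h, map_zero]
    rw [hP, eval_multiset_prod, Multiset.prod_eq_zero_iff, Multiset.map_map] at h'
    obtain ⟨a, ha, h'⟩ := Multiset.mem_map.1 h'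
    exact hne a ha (by simpa using h')
  have hU : UPoly φ Q := by
    refine ⟨hQm, hQ0, map_injective ψ ψ.injective ?_⟩
    have hcomp : (Q.map φ).map ψ = P.map Φ := by
      rw [← hQ, map_map, map_map]
      congr 1
      ext a
      simp [hΦ, hφ]
    rw [hcomp, rev_map_hom, hQ, hfun, hP, rev_prod_X_sub_C hne]
    have h2 := congrArg (Multiset.map fun a : K => a⁻¹) hR
    rw [Multiset.map_map] at h2
    rw [show R.map Φ = R.map fun a => a⁻¹ from (Multiset.map_congr rfl fun a _ => by
      simp [conjInv, hΦ]).trans h2, Multiset.map_map]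
    rfl
  obtain ⟨A, ⟨hA, N, hN, hN0, hAN⟩, hAc⟩ := exists_umat (p := p) φ hq hφ hU hQd
  exact ⟨A, N, hA, hN, hN0, hAN, by rw [hAc, hQ]⟩

/-- A semisimple matrix whose roots are `r`-th roots of a scalar. -/
theorem pow_eq_of_roots {p r : ℕ} [Fact p.Prime] [CharP F p] [IsAlgClosed K] (hr0 : 0 < r)
    {A : Matrix (Fin n) (Fin n) F} {N : ℕ} (hN : N.Coprime p) (hAN : A ^ N = 1) {z : F} (hz : z ≠ 0)
    (hroots : ∀ a ∈ (A.charpoly.map ψ).roots, a ^ r = ψ z) :
    A ^ r = z • (1 : Matrix (Fin n) (Fin n) F) := by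
  rcases Nat.eq_zero_or_pos n with rfl | hn
  · exact Subsingleton.elim _ _
  haveI : NeZero n := ⟨hn.ne'⟩
  have hdvd : A.charpoly ∣ (X ^ r - C z) ^ n := by
    rw [← map_dvd_map' ψ, (IsAlgClosed.splits (A.charpoly.map ψ)).eq_prod_roots_of_monic
      ((Matrix.charpoly_monic A).map ψ)]
    have hcard : Multiset.card (A.charpoly.map ψ).roots = n := by
      rw [← (IsAlgClosed.splits (A.charpoly.map ψ)).natDegree_eq_card_roots,
        natDegree_map_eq_of_injective ψ.injective, Matrix.charpoly_natDegree_eq_dim, Fintype.card_fin]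
    refine (Multiset.prod_dvd_prod_of_dvd (fun a => X - C a) (fun _ => (X ^ r - C (ψ z) : K[X])) ?_).trans ?_
    · intro a ha
      rw [dvd_iff_isRoot, IsRoot.def, eval_sub, eval_pow, eval_X, eval_C, hroots a ha, sub_self]
    · rw [Multiset.map_const', Multiset.prod_replicate, hcard]
      simp
  obtain ⟨B, hB⟩ := hdvd
  have h0 : (A ^ r - z • 1) ^ n = 0 := by
    have := congrArg (aeval A) hB
    rw [map_mul, Matrix.aeval_self_charpoly, zero_mul, map_pow, map_sub, map_pow, aeval_X, aeval_C,
      Algebra.algebraMap_eq_smul_one] at this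
    exact this
  have h1 : (A ^ r - z • 1) ^ (p ^ n) = 0 := by
    rw [← Nat.sub_add_cancel (Nat.lt_pow_self (Fact.out : p.Prime).one_lt).le, pow_add, h0, mul_zero]
  rw [sub_pow_char_pow_of_commute _ _ ((Commute.one_right _).smul_right z), sub_eq_zero, _root_.smul_pow,
    one_pow] at h1
  set M := z⁻¹ • A ^ r with hM
  have hM1 : M ^ (p ^ n) = 1 := by
    rw [hM, _root_.smul_pow, h1, smul_smul, inv_pow, inv_mul_cancel₀ (pow_ne_zero _ hz), one_smul]
  have hM2 : M ^ (N * (Fintype.card F - 1)) = 1 := by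
    rw [hM, _root_.smul_pow, ← pow_mul A, show r * (N * (Fintype.card F - 1)) = N * (r * (Fintype.card F - 1)) by ring,
      pow_mul A, hAN, one_pow, mul_comm N, pow_mul, FiniteField.pow_card_sub_one_eq_one _ (inv_ne_zero hz), one_pow,
      one_smul]
  have hcop : (p ^ n).Coprime (N * (Fintype.card F - 1)) := by
    refine (Nat.Coprime.mul_right hN.symm ?_).pow_left n
    obtain ⟨⟨a, ha⟩, hp, hcq⟩ := FiniteField.card F p
    refine (hp.coprime_iff_not_dvd).2 fun hd => ?_
    have h1 : p ∣ Fintype.card F := hcq ▸ dvd_pow_self p (by simp only [PNat.mk_coe]; omega)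
    have h3 := Nat.dvd_sub h1 hd
    have := Fintype.card_pos (α := F)
    rw [show Fintype.card F - (Fintype.card F - 1) = 1 by omega] at h3
    exact hp.ne_one (Nat.dvd_one.1 h3)
  have hMone := pow_gcd_eq_one.2 ⟨hM1, hM2⟩
  rw [hcop.gcd_eq_one, pow_one, hM] at hMone
  rw [← hMone, smul_smul, mul_inv_cancel₀ hz, one_smul]

theorem charpoly_blk {m t : ℕ} (A : Matrix (Fin m) (Fin m) F) (B : Matrix (Fin t) (Fin t) F) :
    (blk A B).charpoly = A.charpoly * B.charpoly := by
  rw [blk, Matrix.coe_reindexAlgEquiv, Matrix.charpoly_reindex, Matrix.charpoly_fromBlocks_zero₁₂]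

/-- Invariant non-degenerate subspaces and stable sub-multisets of roots. -/
theorem fixes_iff_roots [IsAlgClosed K] {p : ℕ} [Fact p.Prime] [CharP F p] (hq : Fintype.card F = q ^ 2)
    {m t : ℕ} {x : GL (Fin (m + t)) F} (hx : x ∈ Cfsg.GU (m + t) F q) (hxo : (orderOf x).Coprime p) :
    Fixes q m (x : Matrix (Fin (m + t)) (Fin (m + t)) F) ↔
      ∃ T ≤ ((x : Matrix (Fin (m + t)) (Fin (m + t)) F).charpoly.map ψ).roots,
        Multiset.card T = m ∧ T.map (conjInv q) = T := by
  classical
  set R := ((x : Matrix (Fin (m + t)) (Fin (m + t)) F).charpoly.map ψ).roots with hR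
  constructor
  · intro h
    obtain ⟨g, A, B, -, hA, hB, hg⟩ := exists_blk_of_fixes hq hx h
    have hc : (x : Matrix (Fin (m + t)) (Fin (m + t)) F).charpoly = A.charpoly * B.charpoly := by
      rw [← charpoly_blk, ← hg, Units.val_mul, Units.val_mul, Matrix.coe_units_inv, Matrix.charpoly_units_conj']
    refine ⟨(A.charpoly.map ψ).roots, ?_, ?_, (roots_invariant ψ hq hA).1⟩
    · rw [hR, hc, Polynomial.map_mul, roots_mul (mul_ne_zero ((Matrix.charpoly_monic A).map ψ).ne_zero
        ((Matrix.charpoly_monic B).map ψ).ne_zero)]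
      exact Multiset.le_add_right _ _
    · rw [← (IsAlgClosed.splits (A.charpoly.map ψ)).natDegree_eq_card_roots,
        natDegree_map_eq_of_injective ψ.injective, Matrix.charpoly_natDegree_eq_dim, Fintype.card_fin]
  · rintro ⟨T, hT, hTc, hTf⟩
    obtain ⟨hRf, hRne⟩ := roots_invariant ψ hq ((mem_GU_iff_qAdjoint hq x).1 hx)
    rw [← hR] at hRf hRne
    obtain ⟨T', hT'⟩ := Multiset.le_iff_exists_add.1 hT
    have hT'f : T'.map (conjInv q) = T' := by
      rw [hT', Multiset.map_add, hTf] at hRf
      exact add_left_cancel hRf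
    have hRc : Multiset.card R = m + t := by
      rw [hR, ← (IsAlgClosed.splits _).natDegree_eq_card_roots, natDegree_map_eq_of_injective ψ.injective,
        Matrix.charpoly_natDegree_eq_dim, Fintype.card_fin]
    obtain ⟨A, N, hA, hN, hN0, hAN, hAc⟩ := exists_unitary_of_roots (p := p) ψ hq hTc
      (fun a ha => hRne a (Multiset.mem_of_le hT ha)) hTf
    obtain ⟨B, N', hB, hN', hN0', hBN, hBc⟩ := exists_unitary_of_roots (p := p) ψ hq (n := t) (R := T')
      (by rw [hT', Multiset.card_add, hTc] at hRc; omega)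
      (fun a ha => hRne a (by rw [hT']; exact Multiset.mem_add.2 (Or.inr ha))) hT'f
    have hyo : (orderOf (toGLU (blk_unitary hq hA hB))).Coprime p := gl_coprime (hN.mul_left hN') (by
      show blk A B ^ (N * N') = 1
      rw [blk, ← map_pow, Matrix.fromBlocks_diagonal_pow, pow_mul, hAN, one_pow, pow_mul', hBN, one_pow,
        Matrix.fromBlocks_one, map_one])
    obtain ⟨e, he⟩ := CfsgLib.SemisimpleClasses.exists_conj_GL p _ x hyo hxo (by
      refine map_injective ψ ψ.injective ?_
      show (blk A B).charpoly.map ψ = _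
      rw [charpoly_blk, Polynomial.map_mul, hAc, hBc, ← Multiset.prod_add, ← Multiset.map_add, ← hT', hR]
      exact ((IsAlgClosed.splits _).eq_prod_roots_of_monic ((Matrix.charpoly_monic _).map ψ)).symm)
    exact fixes_of_conj hq hx hA hB (isConj_iff.2 ⟨e, he⟩)

end CfsgLib.Omega.UnitaryNondeg
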