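import Mathlib
import Cfsg.Agent.Lib.Omega.UnitaryRootMultiset
import Cfsg.Agent.Lib.Derangements.FixedSubspacesMain

/-!
Elements of prime order `r ≠ p` of the unitary groups and invariant non-degenerate subspaces.
-/

set_option autoImplicit false

open Polynomial
open scoped Matrix

namespace CfsgLib.Omega.UnitaryNondeg

open CfsgLib.Generators CfsgLib.SemisimpleClasses.Unitary

variable {F : Type*} [Field F] {q n : ℕ}

/-- All elements of order `r` modulo scalars of `SU` fix a non-degenerate `m`-space. -/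
def ElusiveU (F : Type*) [Field F] (q n r m : ℕ) : Prop :=
  ∀ x : GL (Fin n) F, x ∈ Cfsg.GU n F q → (x : Matrix (Fin n) (Fin n) F).det = 1 →
    (∃ z : F, (x : Matrix (Fin n) (Fin n) F) ^ r = z • (1 : Matrix (Fin n) (Fin n) F)) →
    (∀ z : F, (x : Matrix (Fin n) (Fin n) F) ≠ z • (1 : Matrix (Fin n) (Fin n) F)) →
    Fixes q m (x : Matrix (Fin n) (Fin n) F)

/-- The condition when `r` divides `q + 1`. -/
def OneCondU (r n m q : ℕ) : Prop :=
  r ∣ m ∨ ¬ r ∣ n ∨ (padicValNat r n ≤ padicValNat r (q + 1) ∧ (r = 2 → q % 4 = 3))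

variable [Fintype F]

theorem card_sub_one (hq : Fintype.card F = q ^ 2) : Fintype.card F - 1 = (q + 1) * (q - 1) := by
  rw [hq, ← Nat.sq_sub_sq]

theorem scalar_norm (hq : Fintype.card F = q ^ 2) (hn : 0 < n) {x : GL (Fin n) F} (hx : x ∈ Cfsg.GU n F q)
    {r : ℕ} {z : F} (h : (x : Matrix (Fin n) (Fin n) F) ^ r = z • (1 : Matrix (Fin n) (Fin n) F)) :
    z ^ (q + 1) = 1 := by
  have hxr := (mem_GU_iff_qAdjoint hq (x ^ r)).1 (Subgroup.pow_mem _ hx r)
  rw [Units.val_pow_eq_pow_val, h, CfsgLib.CharDegrees.qAdjoint_smul, qAdjoint_one hq, Matrix.smul_mul,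
    Matrix.mul_smul, one_mul, smul_smul, ← pow_succ] at hxr
  simpa using congrFun (congrFun hxr ⟨0, hn⟩) ⟨0, hn⟩

theorem ne_zero_of_norm {z : F} (h : z ^ (q + 1) = 1) : z ≠ 0 := fun h0 => by
  rw [h0, zero_pow q.succ_ne_zero] at h
  exact zero_ne_one h

theorem coprime_of_pow_scalar {p r : ℕ} [Fact p.Prime] [CharP F p] (hr : r.Prime) (hrp : r ≠ p)
    {x : GL (Fin n) F} {z : F} (hz : z ≠ 0)
    (h : (x : Matrix (Fin n) (Fin n) F) ^ r = z • (1 : Matrix (Fin n) (Fin n) F)) :
    (orderOf x).Coprime p := by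
  refine gl_coprime (N := r * (Fintype.card F - 1)) (Nat.Coprime.mul_left
    ((Nat.coprime_primes hr Fact.out).2 hrp) ?_) ?_
  · obtain ⟨⟨a, ha⟩, hp, hcq⟩ := FiniteField.card F p
    refine Nat.Coprime.symm ((hp.coprime_iff_not_dvd).2 fun hd => ?_)
    have h1 : p ∣ Fintype.card F := hcq ▸ dvd_pow_self p (by simp only [PNat.mk_coe]; omega)
    have h3 := Nat.dvd_sub h1 hd
    have := Fintype.card_pos (α := F)
    rw [show Fintype.card F - (Fintype.card F - 1) = 1 by omega] at h3
    exact hp.ne_one (Nat.dvd_one.1 h3)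
  · rw [pow_mul, h, _root_.smul_pow, one_pow, FiniteField.pow_card_sub_one_eq_one z hz, one_smul]

/-- Roots of unity of order dividing `q + 1` with root extraction. -/
theorem exists_norm_root (hq : Fintype.card F = q ^ 2) {r : ℕ} (hr : 0 < r) (hdvd : r ∣ q + 1) {z : F}
    (hz : z ≠ 0) (h : z ^ ((q + 1) / r) = 1) : ∃ w : F, w ^ r = z ∧ w ^ (q + 1) = 1 := by
  classical
  obtain ⟨g, hg⟩ := IsCyclic.exists_generator (α := Fˣ)
  obtain ⟨m, hm⟩ := Subgroup.mem_zpowers_iff.1 (hg (Units.mk0 z hz))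
  have ho : orderOf g = (q + 1) * (q - 1) := by
    rw [orderOf_eq_card_of_forall_mem_zpowers hg, Nat.card_eq_fintype_card, Fintype.card_units, card_sub_one hq]
  have hq1 : 1 < q := one_lt_of_card_eq_sq hq
  obtain ⟨s, hs⟩ := hdvd
  rw [hs, Nat.mul_div_cancel_left _ hr] at h
  have h1 : g ^ (m * (s : ℤ)) = 1 := by
    rw [zpow_mul, hm, zpow_natCast]
    exact Units.ext (by simpa using h)
  rw [← orderOf_dvd_iff_zpow_eq_one, ho, hs, show ((r * s * (q - 1) : ℕ) : ℤ) = ((r * (q - 1) : ℕ) : ℤ) * s by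
    push_cast; ring] at h1
  obtain ⟨t, ht⟩ := Int.dvd_of_mul_dvd_mul_right (Int.natCast_ne_zero.2 (fun h0 => by simp [h0] at hs)) h1
  refine ⟨((g ^ (((q - 1 : ℕ) : ℤ) * t) : Fˣ) : F), ?_, ?_⟩
  · rw [← Units.val_pow_eq_pow_val, ← zpow_natCast, ← zpow_mul,
      show ((q - 1 : ℕ) : ℤ) * t * (r : ℤ) = m by rw [ht]; push_cast; ring, hm, Units.val_mk0]
  · rw [← Units.val_pow_eq_pow_val, ← zpow_natCast, ← zpow_mul,
      show ((q - 1 : ℕ) : ℤ) * t * ((q + 1 : ℕ) : ℤ) = (orderOf g : ℤ) * t by rw [ho]; push_cast; ring,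
      zpow_mul, zpow_natCast, pow_orderOf_eq_one, one_zpow, Units.val_one]

section Roots

variable {K : Type*} [Field K] {r : ℕ} [Fact r.Prime]

/-- The `r`-th roots of `a₀ ^ r`. -/
def rootFn (a₀ ζ : K) (s : ZMod r) : K := a₀ * ζ ^ s.val

variable {a₀ ζ : K} (hζ : IsPrimitiveRoot ζ r)

include hζ in
theorem rootFn_injective (ha : a₀ ≠ 0) : Function.Injective (rootFn (r := r) a₀ ζ) := fun s t h =>
  ZMod.val_injective r (hζ.pow_inj (ZMod.val_lt s) (ZMod.val_lt t) (mul_left_cancel₀ ha h))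

include hζ in
theorem rootFn_pow (s : ZMod r) : rootFn a₀ ζ s ^ r = a₀ ^ r := by
  rw [rootFn, mul_pow, ← pow_mul, mul_comm s.val, pow_mul, hζ.pow_eq_one, one_pow, mul_one]

include hζ in
theorem exists_rootFn (ha : a₀ ≠ 0) {a : K} (h : a ^ r = a₀ ^ r) : ∃ s : ZMod r, rootFn a₀ ζ s = a := by
  obtain ⟨u, hu, he⟩ := hζ.eq_pow_of_pow_eq_one (ξ := a / a₀) (by rw [div_pow, h, div_self (pow_ne_zero _ ha)])
  refine ⟨(u : ZMod r), ?_⟩
  rw [rootFn, ZMod.val_natCast, Nat.mod_eq_of_lt hu, he, mul_div_cancel₀ _ ha]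

include hζ in
theorem exists_shift (ha : a₀ ≠ 0) (hz : (a₀ ^ r) ^ (q + 1) = 1) :
    ∃ δ : ZMod r, ∀ s, conjInv q (rootFn a₀ ζ s) = rootFn a₀ ζ (-(q : ZMod r) * s + δ) := by
  obtain ⟨δ, hδ⟩ := exists_rootFn hζ ha (a := conjInv q a₀) (by
    rw [conjInv, inv_pow, ← pow_mul, mul_comm, pow_mul]
    exact inv_eq_of_mul_eq_one_right (by rw [← pow_succ, hz]))
  refine ⟨δ, fun s => ?_⟩
  have e : ∀ u v : ZMod r, ζ ^ (u + v).val = ζ ^ u.val * ζ ^ v.val := fun u v => by
    rw [ZMod.val_add, ← pow_eq_pow_mod _ hζ.pow_eq_one, pow_add]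
  have e2 : ζ ^ (-(q : ZMod r) * s).val * (ζ ^ s.val) ^ q = 1 := by
    rw [← pow_mul, ← pow_add, hζ.pow_eq_one_iff_dvd, ← ZMod.natCast_eq_zero_iff]
    push_cast
    rw [ZMod.natCast_rightInverse, ZMod.natCast_rightInverse]
    ring
  rw [conjInv, rootFn, mul_pow, mul_inv, rootFn, e, inv_eq_of_mul_eq_one_left e2, ← mul_assoc]
  show conjInv q a₀ * _ = _
  rw [← hδ, rootFn]
  ring

end Roots

variable {r : ℕ} [Fact r.Prime] {p : ℕ} [Fact p.Prime] [CharP F p]
  {K : Type*} [Field K] [IsAlgClosed K] (ψ : F →+* K) {a₀ ζ : K}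

/-- The roots of an `r`-th root of a scalar as residues. -/
theorem exists_residues (hq : Fintype.card F = q ^ 2) (hrp : r ≠ p) {x : GL (Fin n) F}
    (hx : x ∈ Cfsg.GU n F q) {z : F} (hxr : (x : Matrix (Fin n) (Fin n) F) ^ r = z • (1 : Matrix (Fin n) (Fin n) F))
    (hz : z ≠ 0) (hζ : IsPrimitiveRoot ζ r) (ha : a₀ ^ r = ψ z) {f : ZMod r → ZMod r}
    (hf : ∀ s, conjInv q (rootFn a₀ ζ s) = rootFn a₀ ζ (f s)) :
    ∃ S : Multiset (ZMod r), Multiset.card S = n ∧
      ((x : Matrix (Fin n) (Fin n) F).charpoly.map ψ).roots = S.map (rootFn a₀ ζ) ∧ S.map f = S ∧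
      ∀ m t : ℕ, n = m + t → (Fixes q m (x : Matrix (Fin n) (Fin n) F) ↔
        ∃ T ≤ S, Multiset.card T = m ∧ T.map f = T) := by
  classical
  have ha0 : a₀ ≠ 0 := fun h => by
    rw [h, zero_pow (Fact.out : r.Prime).ne_zero, eq_comm, map_eq_zero_iff ψ ψ.injective] at ha
    exact hz ha
  have hinj := rootFn_injective hζ ha0
  set R := ((x : Matrix (Fin n) (Fin n) F).charpoly.map ψ).roots with hR
  have hRr : ∀ a ∈ R, ∃ s, rootFn a₀ ζ s = a := fun a haR => exists_rootFn hζ ha0 (by
    rw [ha]; exact CfsgLib.Omega.pow_eq_of_isRoot_charpoly ψ _ hxr (isRoot_of_mem_roots haR))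
  set g := Function.invFun (rootFn (r := r) a₀ ζ)
  have hlift : ∀ T : Multiset K, T ≤ R → (T.map g).map (rootFn a₀ ζ) = T := fun T hT => by
    rw [Multiset.map_map]
    exact (Multiset.map_congr rfl fun a haT => Function.invFun_eq (hRr a (Multiset.mem_of_le hT haT))).trans
      (Multiset.map_id' T)
  have hgl : ∀ S : Multiset (ZMod r), (S.map (rootFn a₀ ζ)).map g = S := fun S => by
    rw [Multiset.map_map, Function.invFun_comp hinj, Multiset.map_id]
  have hcomm : ∀ S : Multiset (ZMod r), (S.map (rootFn a₀ ζ)).map (conjInv q) = (S.map f).map (rootFn a₀ ζ) :=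
    fun S => by
      rw [Multiset.map_map, Multiset.map_map]
      exact Multiset.map_congr rfl fun s _ => hf s
  have hRS : (R.map g).map (rootFn a₀ ζ) = R := hlift R le_rfl
  refine ⟨R.map g, ?_, hRS.symm, Multiset.map_injective hinj ?_, ?_⟩
  · rw [Multiset.card_map, hR, ← (IsAlgClosed.splits _).natDegree_eq_card_roots,
      natDegree_map_eq_of_injective ψ.injective, Matrix.charpoly_natDegree_eq_dim, Fintype.card_fin]
  · rw [← hcomm, hRS]
    exact (roots_invariant ψ hq ((mem_GU_iff_qAdjoint hq x).1 hx)).1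
  · rintro m t rfl
    rw [fixes_iff_roots (p := p) ψ hq hx (coprime_of_pow_scalar Fact.out hrp hz hxr)]
    constructor
    · rintro ⟨T, hT, hTc, hTf⟩
      refine ⟨T.map g, Multiset.map_le_map hT, by rw [Multiset.card_map, hTc], Multiset.map_injective hinj ?_⟩
      rw [← hcomm, hlift T hT, hTf]
    · rintro ⟨T, hT, hTc, hTf⟩
      refine ⟨T.map (rootFn a₀ ζ), ?_, by rw [Multiset.card_map, hTc], by rw [hcomm, hTf]⟩
      exact (Multiset.map_le_map hT).trans hRS.le

/-- Elements with prescribed residues. -/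
theorem exists_of_residues (hq : Fintype.card F = q ^ 2) {S : Multiset (ZMod r)}
    (hS : Multiset.card S = n) {z : F} (hz : z ≠ 0) (hζ : IsPrimitiveRoot ζ r) (ha : a₀ ^ r = ψ z)
    {f : ZMod r → ZMod r} (hf : ∀ s, conjInv q (rootFn a₀ ζ s) = rootFn a₀ ζ (f s)) (hSf : S.map f = S) :
    ∃ x : GL (Fin n) F, x ∈ Cfsg.GU n F q ∧ (orderOf x).Coprime p ∧
      (x : Matrix (Fin n) (Fin n) F) ^ r = z • (1 : Matrix (Fin n) (Fin n) F) ∧
      ((x : Matrix (Fin n) (Fin n) F).charpoly.map ψ).roots = S.map (rootFn a₀ ζ) := by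
  have ha0 : a₀ ≠ 0 := fun h => by
    rw [h, zero_pow (Fact.out : r.Prime).ne_zero, eq_comm, map_eq_zero_iff ψ ψ.injective] at ha
    exact hz ha
  obtain ⟨A, N, hA, hN, hN0, hAN, hAc⟩ := exists_unitary_of_roots (p := p) ψ hq (n := n)
    (R := S.map (rootFn a₀ ζ)) (by rw [Multiset.card_map, hS])
    (fun a h => by
      obtain ⟨s, -, rfl⟩ := Multiset.mem_map.1 h
      exact mul_ne_zero ha0 (pow_ne_zero _ (hζ.ne_zero (Fact.out : r.Prime).ne_zero)))
    (by
      rw [Multiset.map_map]
      conv_rhs => rw [← hSf, Multiset.map_map]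
      exact Multiset.map_congr rfl fun s _ => hf s)
  have hroots : (A.charpoly.map ψ).roots = S.map (rootFn a₀ ζ) := by
    rw [hAc, roots_multiset_prod_X_sub_C]
  refine ⟨toGLU hA, toGLU_mem hq hA, gl_coprime hN hAN, pow_eq_of_roots ψ (Fact.out : r.Prime).pos hN hAN hz
    (fun a h => ?_), hroots⟩
  rw [hroots] at h
  obtain ⟨s, -, rfl⟩ := Multiset.mem_map.1 h
  rw [rootFn_pow hζ, ha]

/-- The determinant through the roots. -/
theorem det_eq_prod_roots (A : Matrix (Fin n) (Fin n) F) : ψ A.det = ((A.charpoly.map ψ).roots).prod := by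
  rw [← Matrix.charpoly_map, ← Matrix.det_eq_prod_roots_charpoly_of_splits (IsAlgClosed.splits _),
    RingHom.map_det]
  rfl

omit [Fact p.Prime] [CharP F p] in
theorem prod_rootFn (hζ : IsPrimitiveRoot ζ r) {z : K} (ha : a₀ ^ r = z) :
    ∏ s : ZMod r, rootFn a₀ ζ s = (-1) ^ (r + 1) * z := by
  have h := congrArg (eval 0) (X_pow_sub_C_eq_prod hζ (Fact.out : r.Prime).pos ha)
  rw [eval_sub, eval_pow, eval_X, eval_C, zero_pow (Fact.out : r.Prime).ne_zero, zero_sub, eval_prod] at h
  simp only [eval_sub, eval_X, eval_C, zero_sub] at h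
  rw [Finset.prod_neg, Finset.card_range] at h
  have h' : ∏ i ∈ Finset.range r, ζ ^ i * a₀ = (-1) ^ (r + 1) * z := by
    calc _ = (-1) ^ r * ((-1) ^ r * ∏ i ∈ Finset.range r, ζ ^ i * a₀) := by
          rw [← mul_assoc, ← mul_pow, neg_one_mul, neg_neg, one_pow, one_mul]
      _ = _ := by rw [← h, pow_succ]; ring
  rw [← h']
  refine Finset.prod_nbij' (fun s => s.val) (fun i => (i : ZMod r)) (fun s _ => Finset.mem_range.2 s.val_lt)
    (fun i _ => Finset.mem_univ _) (fun s _ => ZMod.natCast_rightInverse s)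
    (fun i hi => by rw [ZMod.val_natCast, Nat.mod_eq_of_lt (Finset.mem_range.1 hi)]) (fun s _ => ?_)
  rw [rootFn, mul_comm]

omit [Fact p.Prime] [CharP F p] in
/-- A multiset stable under a translation is a multiple of the whole group. -/
theorem eq_nsmul_univ {δ : ZMod r} (hδ : δ ≠ 0) {S : Multiset (ZMod r)}
    (h : S.map (fun s => s + δ) = S) : S = S.count 0 • (Finset.univ : Finset (ZMod r)).val := by
  classical
  have hstep : ∀ s, S.count (s + δ) = S.count s := fun s => by
    conv_lhs => rw [← h]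
    exact Multiset.count_map_eq_count' (fun s : ZMod r => s + δ) S (add_left_injective δ) s
  have hall : ∀ u : ℕ, S.count ((u : ZMod r) * δ) = S.count 0 := fun u => by
    induction u with
    | zero => simp
    | succ u ih => rw [Nat.cast_succ, add_mul, one_mul, hstep, ih]
  ext s
  rw [Multiset.count_nsmul, Multiset.count_univ, mul_one]
  have := hall (s * δ⁻¹).val
  rwa [ZMod.natCast_rightInverse, inv_mul_cancel_right₀ hδ] at this

include ψ in
theorem exists_primitive (hrp : r ≠ p) : ∃ ζ : K, IsPrimitiveRoot ζ r := by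
  haveI : CharP K p := (RingHom.charP_iff ψ ψ.injective p).1 inferInstance
  haveI : NeZero (r : K) := ⟨fun h => hrp ((Nat.prime_dvd_prime_iff_eq (Fact.out : p.Prime) Fact.out).1
    ((CharP.cast_eq_zero_iff K p r).1 h)).symm⟩
  exact HasEnoughRootsOfUnity.exists_primitiveRoot K r

theorem natCast_q_ne_zero (hq : Fintype.card F = q ^ 2) (hrp : r ≠ p) : (q : ZMod r) ≠ 0 := by
  rw [Ne, ZMod.natCast_eq_zero_iff]
  intro h
  obtain ⟨⟨a, ha⟩, hp, hcq⟩ := FiniteField.card F p
  have h' : r ∣ p ^ a := by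
    have := hq.symm.trans hcq
    simp only [PNat.mk_coe] at this
    exact this ▸ h.trans (dvd_pow_self q two_ne_zero)
  exact hrp ((Nat.prime_dvd_prime_iff_eq Fact.out hp).1 ((Fact.out : r.Prime).dvd_of_dvd_pow h'))

/-- The order of a non-power among the roots of unity. -/
theorem not_power_of_order (hdvd : r ∣ q + 1) {z : F} (ho : orderOf z = r ^ padicValNat r (q + 1)) {b : F}
    (hb : b ^ (q + 1) = 1) : b ^ r ≠ z := by
  intro h
  set v := padicValNat r (q + 1) with hv
  have hr : r.Prime := Fact.out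
  have hv0 : 0 < v := one_le_padicValNat_of_dvd (by omega) hdvd
  have hbo : orderOf b ∣ q + 1 := orderOf_dvd_of_pow_eq_one hb
  have hb0 : 0 < orderOf b := orderOf_pos_iff.2 (isOfFinOrder_iff_pow_eq_one.2 ⟨q + 1, q.succ_pos, hb⟩)
  have hdiv : r ∣ orderOf b := by
    have h1 : orderOf (b ^ r) = orderOf b / Nat.gcd (orderOf b) r := orderOf_pow' b hr.ne_zero
    rcases Nat.Prime.eq_one_or_self_of_dvd hr _ (Nat.gcd_dvd_right (orderOf b) r) with hg | hg
    · rw [h, hg, Nat.div_one] at h1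
      rw [← h1, ho]
      exact dvd_pow_self r hv0.ne'
    · exact hg ▸ Nat.gcd_dvd_left _ _
  have h1 := orderOf_pow_of_dvd hr.ne_zero hdiv
  rw [h, ho] at h1
  have h2 : r ^ (v + 1) ∣ q + 1 := by
    refine Dvd.dvd.trans ?_ hbo
    rw [pow_succ, h1, Nat.div_mul_cancel hdiv]
  have := (padicValNat_dvd_iff_le (p := r) (by omega)).1 h2
  omega

/-- The case `r ∣ q + 1`. -/
theorem elusive_iff_of_dvd (hq : Fintype.card F = q ^ 2) (hrp : r ≠ p) (hdvd : r ∣ q + 1) {m t : ℕ}
    (hm : 0 < m) :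
    ElusiveU F q (m + t) r m ↔ OneCondU r (m + t) m q := by
  classical
  have hr : r.Prime := Fact.out
  let K₀ := AlgebraicClosure F
  let ψ₀ : F →+* K₀ := algebraMap F K₀
  obtain ⟨ζ, hζ⟩ := exists_primitive (p := p) ψ₀ hrp
  have hneg : -(q : ZMod r) = 1 := by
    rw [← ZMod.natCast_eq_zero_iff] at hdvd
    push_cast at hdvd
    linear_combination -hdvd
  constructor
  · intro hel
    by_contra hbad
    rw [OneCondU, not_or, not_or, not_not, not_and_or, Classical.not_imp] at hbad
    obtain ⟨hrm, ⟨l, hl⟩, hbad⟩ := hbad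
    -- a scalar which is no `r`-th power
    obtain ⟨z, hz1, hznp, hzdet⟩ : ∃ z : F, z ^ (q + 1) = 1 ∧ (∀ b : F, b ^ (q + 1) = 1 → b ^ r ≠ z) ∧
        ((-1) ^ (r + 1) * z) ^ l = 1 := by
      by_cases h2 : r = 2 ∧ q % 4 ≠ 3
      · obtain ⟨rfl, hq4⟩ := h2
        refine ⟨-1, ?_, fun b hb hb2 => ?_, by norm_num⟩
        · rw [Even.neg_one_pow (even_iff_two_dvd.2 hdvd)]
        · have h1 : b ^ 4 = 1 := by rw [show 4 = 2 * 2 by rfl, pow_mul, hb2, neg_one_sq]
          have ho : orderOf b = 4 := by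
            refine orderOf_eq_prime_pow (p := 2) (n := 1) ?_ (by simpa using h1)
            rw [pow_one, hb2]
            intro h
            have : ((2 : ℕ) : F) = 0 := by push_cast; linear_combination -h
            exact hrp ((Nat.prime_dvd_prime_iff_eq (Fact.out : p.Prime) Nat.prime_two).1
              ((CharP.cast_eq_zero_iff F p 2).1 this)).symm
          have := ho ▸ orderOf_dvd_of_pow_eq_one hb
          omega
      · have hv : padicValNat r (q + 1) < padicValNat r (m + t) := by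
          rcases hbad with h | ⟨h, h'⟩
          · omega
          · exact absurd ⟨h, h'⟩ h2
        set v := padicValNat r (q + 1) with hvdef
        have hv1 : 1 ≤ v := one_le_padicValNat_of_dvd (by omega) hdvd
        obtain ⟨g, hg⟩ := IsCyclic.exists_generator (α := Fˣ)
        have ho : orderOf g = Fintype.card F - 1 := by
          rw [orderOf_eq_card_of_forall_mem_zpowers hg, Nat.card_eq_fintype_card, Fintype.card_units]
        have hdv : r ^ v ∣ orderOf g := by
          rw [ho, card_sub_one hq]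
          exact (pow_padicValNat_dvd).mul_right _
        set z₁ : F := ((g ^ (orderOf g / r ^ v) : Fˣ) : F) with hz₁
        have hz₁o : orderOf z₁ = r ^ v := by
          rw [hz₁, orderOf_units, orderOf_pow_orderOf_div (orderOf_pos g).ne' hdv]
        have hz₁1 : z₁ ^ (q + 1) = 1 := orderOf_dvd_iff_pow_eq_one.1 (hz₁o ▸ pow_padicValNat_dvd)
        have hsign : ((-1 : F) ^ (r + 1)) ^ (q + 1) = 1 := by
          rcases hr.eq_two_or_odd' with rfl | ho
          · rw [← pow_mul]
            exact Even.neg_one_pow ((even_iff_two_dvd.2 hdvd).mul_left _)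
          · rw [ho.add_one.neg_one_pow, one_pow]
        refine ⟨(-1) ^ (r + 1) * z₁, by rw [mul_pow, hsign, hz₁1, one_mul], fun b hb hbz => ?_, ?_⟩
        · rcases hr.eq_two_or_odd' with rfl | ho'
          · -- `-1` is a square of a root of unity
            have h4 : q % 4 = 3 := by
              by_contra h4
              exact h2 ⟨rfl, h4⟩
            obtain ⟨w, hw, hw1⟩ := exists_norm_root hq two_pos hdvd (z := (-1 : F)) (neg_ne_zero.2 one_ne_zero)
              (Even.neg_one_pow (even_iff_two_dvd.2 (by omega)))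
            refine not_power_of_order hdvd hz₁o (b := w * b) (by rw [mul_pow, hw1, hb, one_mul]) ?_
            rw [mul_pow, hw, hbz]
            ring
          · rw [ho'.add_one.neg_one_pow, one_mul] at hbz
            exact not_power_of_order hdvd hz₁o hb hbz
        · rw [← mul_assoc, ← mul_pow, neg_one_mul, neg_neg, one_pow, one_mul]
          refine orderOf_dvd_iff_pow_eq_one.1 (hz₁o ▸ ?_)
          have hl0 : l ≠ 0 := fun h => by rw [h, mul_zero] at hl; omega
          rw [padicValNat_dvd_iff_le hl0]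
          rw [hl, padicValNat.mul hr.ne_zero hl0, padicValNat_self] at hv
          omega
    obtain ⟨a₀, ha⟩ := IsAlgClosed.exists_pow_nat_eq (ψ₀ z) hr.pos
    have hz0 : z ≠ 0 := ne_zero_of_norm hz1
    have ha0 : a₀ ≠ 0 := fun h => by
      rw [h, zero_pow hr.ne_zero, eq_comm, map_eq_zero_iff ψ₀ ψ₀.injective] at ha
      exact hz0 ha
    obtain ⟨δ, hδ⟩ := exists_shift (q := q) hζ ha0 (by rw [ha, ← map_pow, hz1, map_one])
    simp only [hneg, one_mul] at hδ
    have hδ0 : δ ≠ 0 := fun h => by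
      have h1 := hδ 0
      rw [h, zero_add, rootFn, ZMod.val_zero, pow_zero, mul_one, conjInv] at h1
      have h2 : a₀ ^ (q + 1) = 1 := by
        rw [pow_succ]; nth_rewrite 2 [← h1]; rw [mul_inv_cancel₀ (pow_ne_zero _ ha0)]
      obtain ⟨Φ, hΦ⟩ := exists_frob ψ₀ hq
      obtain ⟨Q, hQ⟩ := Omega.exists_map_eq_of_frobenius ψ₀ (Φ.comp Φ)
        (fun a => by rw [RingHom.comp_apply, hΦ, hΦ, Nat.card_eq_fintype_card, hq, ← pow_mul, sq]) (C a₀) (by
          rw [map_C, RingHom.comp_apply, hΦ, hΦ, ← pow_mul]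
          congr 1
          have hq1 : 1 < q := one_lt_of_card_eq_sq hq
          rw [show q * q = (q + 1) * (q - 1) + 1 by
            obtain ⟨u, rfl⟩ : ∃ u, q = u + 1 := ⟨q - 1, by omega⟩
            rw [Nat.add_sub_cancel]; ring, pow_succ, pow_mul, h2, one_pow, one_mul])
      have hb : ψ₀ (Q.coeff 0) = a₀ := by rw [← coeff_map, hQ, coeff_C_zero]
      refine hznp (Q.coeff 0) (ψ₀.injective ?_) (ψ₀.injective ?_)
      · rw [map_pow, hb, h2, map_one]
      · rw [map_pow, hb, ha]
    have huniv : ((Finset.univ : Finset (ZMod r)).val).map (fun s => s + δ) = Finset.univ.val :=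
      Multiset.map_univ_val_equiv (Equiv.addRight δ)
    obtain ⟨x, hx, hxo, hxr, hroots⟩ := exists_of_residues (p := p) ψ₀ hq (n := m + t)
      (S := l • (Finset.univ : Finset (ZMod r)).val)
      (by rw [Multiset.card_nsmul, Finset.card_val, Finset.card_univ, ZMod.card, hl, mul_comm])
      hz0 hζ ha hδ (by rw [Multiset.map_nsmul, huniv])
    have hdet : (x : Matrix (Fin (m + t)) (Fin (m + t)) F).det = 1 := by
      apply ψ₀.injective
      rw [det_eq_prod_roots ψ₀, hroots, Multiset.map_nsmul, Multiset.prod_nsmul, ← Finset.prod_eq_multiset_prod,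
        prod_rootFn hζ ha, map_one]
      simpa using congrArg ψ₀ hzdet
    obtain ⟨S, hSc, hSr, hSf, hfix⟩ := exists_residues (p := p) ψ₀ hq hrp hx hxr hz0 hζ ha hδ
    have hxns : ∀ z' : F, (x : Matrix (Fin (m + t)) (Fin (m + t)) F) ≠ z' • 1 := fun b hb => by
      have hb1 : b ^ (q + 1) = 1 := scalar_norm hq (by omega) hx (r := 1) (by rw [pow_one, hb])
      refine hznp b hb1 ?_
      rw [hb, _root_.smul_pow, one_pow] at hxr
      simpa using congrFun (congrFun hxr ⟨0, by omega⟩) ⟨0, by omega⟩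
    obtain ⟨T, -, hTc, hTf⟩ := (hfix m t rfl).1 (hel x hx hdet ⟨z, hxr⟩ hxns)
    apply hrm
    rw [← hTc, eq_nsmul_univ hδ0 hTf, Multiset.card_nsmul, Finset.card_val, Finset.card_univ, ZMod.card]
    exact dvd_mul_left _ _
  · intro hcond x hx hdet ⟨z, hxr⟩ _
    have hz1 : z ^ (q + 1) = 1 := scalar_norm hq (by omega) hx hxr
    have hz0 : z ≠ 0 := ne_zero_of_norm hz1
    by_cases hpow : ∃ b : F, b ^ (q + 1) = 1 ∧ b ^ r = z
    · obtain ⟨b, hb1, hb⟩ := hpow
      have hb0 : b ≠ 0 := ne_zero_of_norm hb1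
      have hfix0 : ∀ s : ZMod r, conjInv q (rootFn (ψ₀ b) ζ s) = rootFn (ψ₀ b) ζ s := by
        obtain ⟨δ, hδ⟩ := exists_shift (q := q) hζ ((map_ne_zero ψ₀).2 hb0)
          (by rw [← map_pow, ← map_pow, hb, hz1, map_one])
        simp only [hneg, one_mul] at hδ
        have hδ0 : δ = 0 := by
          refine rootFn_injective hζ ((map_ne_zero ψ₀).2 hb0) ?_
          have h1 := hδ 0
          rw [zero_add] at h1
          rw [← h1, rootFn, ZMod.val_zero, pow_zero, mul_one, conjInv, ← map_pow, ← map_inv₀]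
          congr 1
          exact inv_eq_of_mul_eq_one_right (by rw [← pow_succ, hb1])
        intro s
        rw [hδ, hδ0, add_zero]
      obtain ⟨S, hSc, -, -, hfix⟩ := exists_residues (p := p) ψ₀ hq hrp hx hxr hz0 hζ
        (by rw [← map_pow, hb]) (f := id) hfix0
      obtain ⟨-, hsub⟩ := exists_sub_invariant id one_pos _ S hSc (Multiset.map_id S) (fun a _ => rfl)
        (fun a _ u hu v hv _ => by omega)
      obtain ⟨T, hT, -, hTc⟩ := hsub m (by omega)
      exact (hfix m t rfl).2 ⟨T, hT, by omega, Multiset.map_id T⟩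
    · push Not at hpow
      obtain ⟨a₀, ha⟩ := IsAlgClosed.exists_pow_nat_eq (ψ₀ z) hr.pos
      have ha0 : a₀ ≠ 0 := fun h => by
        rw [h, zero_pow hr.ne_zero, eq_comm, map_eq_zero_iff ψ₀ ψ₀.injective] at ha
        exact hz0 ha
      obtain ⟨δ, hδ⟩ := exists_shift (q := q) hζ ha0 (by rw [ha, ← map_pow, hz1, map_one])
      simp only [hneg, one_mul] at hδ
      have hδ0 : δ ≠ 0 := fun h => by
        have h1 := hδ 0
        rw [h, zero_add, rootFn, ZMod.val_zero, pow_zero, mul_one, conjInv] at h1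
        have h2 : a₀ ^ (q + 1) = 1 := by
          rw [pow_succ]; nth_rewrite 2 [← h1]; rw [mul_inv_cancel₀ (pow_ne_zero _ ha0)]
        obtain ⟨Φ, hΦ⟩ := exists_frob ψ₀ hq
        obtain ⟨Q, hQ⟩ := Omega.exists_map_eq_of_frobenius ψ₀ (Φ.comp Φ)
          (fun a => by rw [RingHom.comp_apply, hΦ, hΦ, Nat.card_eq_fintype_card, hq, ← pow_mul, sq]) (C a₀) (by
            rw [map_C, RingHom.comp_apply, hΦ, hΦ, ← pow_mul]
            congr 1
            have hq1 : 1 < q := one_lt_of_card_eq_sq hq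
            rw [show q * q = (q + 1) * (q - 1) + 1 by
              obtain ⟨u, rfl⟩ : ∃ u, q = u + 1 := ⟨q - 1, by omega⟩
              rw [Nat.add_sub_cancel]; ring, pow_succ, pow_mul, h2, one_pow, one_mul])
        have hb : ψ₀ (Q.coeff 0) = a₀ := by rw [← coeff_map, hQ, coeff_C_zero]
        refine hpow (Q.coeff 0) (ψ₀.injective ?_) (ψ₀.injective ?_)
        · rw [map_pow, hb, h2, map_one]
        · rw [map_pow, hb, ha]
      obtain ⟨S, hSc, hSr, hSf, hfix⟩ := exists_residues (p := p) ψ₀ hq hrp hx hxr hz0 hζ ha hδ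
      have hS : S = S.count 0 • (Finset.univ : Finset (ZMod r)).val := eq_nsmul_univ hδ0 hSf
      set l := S.count 0 with hldef
      have hl : m + t = r * l := by
        rw [← hSc, hS, Multiset.card_nsmul, Finset.card_val, Finset.card_univ, ZMod.card, mul_comm]
      rcases hcond with hrm | hrn | ⟨hv, h4⟩
      · obtain ⟨j, rfl⟩ := hrm
        have huniv : ((Finset.univ : Finset (ZMod r)).val).map (fun s => s + δ) = Finset.univ.val :=
          Multiset.map_univ_val_equiv (Equiv.addRight δ)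
        refine (hfix _ t rfl).2 ⟨j • (Finset.univ : Finset (ZMod r)).val, ?_, ?_, ?_⟩
        · rw [hS]
          exact nsmul_le_nsmul_left (Multiset.zero_le _) (Nat.le_of_mul_le_mul_left (by omega) hr.pos)
        · rw [Multiset.card_nsmul, Finset.card_val, Finset.card_univ, ZMod.card, mul_comm]
        · rw [Multiset.map_nsmul, huniv]
      · exact absurd ⟨l, hl⟩ hrn
      · exfalso
        have hzl : ((-1) ^ (r + 1) * z) ^ l = 1 := by
          apply ψ₀.injective
          have h := det_eq_prod_roots ψ₀ (x : Matrix (Fin (m + t)) (Fin (m + t)) F)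
          rw [hdet, map_one, hSr, hS, Multiset.map_nsmul, Multiset.prod_nsmul, ← Finset.prod_eq_multiset_prod,
            prod_rootFn hζ ha] at h
          simp only [map_pow, map_mul, map_neg, map_one]
          exact h.symm
        have hl0 : l ≠ 0 := fun h => by rw [h, mul_zero] at hl; omega
        set y := (-1) ^ (r + 1) * z with hy
        have hy0 : y ≠ 0 := mul_ne_zero (pow_ne_zero _ (neg_ne_zero.2 one_ne_zero)) hz0
        have hy1 : y ^ (q + 1) = 1 := by
          rw [hy, mul_pow, hz1, mul_one, ← pow_mul]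
          rcases hr.eq_two_or_odd' with rfl | ho
          · exact Even.neg_one_pow ((even_iff_two_dvd.2 hdvd).mul_left _)
          · exact Even.neg_one_pow (ho.add_one.mul_right _)
        obtain ⟨u, hu⟩ : orderOf y ∣ q + 1 := orderOf_dvd_of_pow_eq_one hy1
        have ho0 : orderOf y ≠ 0 := left_ne_zero_of_mul (b := u) (by rw [← hu]; exact q.succ_ne_zero)
        have hu0 : u ≠ 0 := right_ne_zero_of_mul (a := orderOf y) (by rw [← hu]; exact q.succ_ne_zero)
        have hvo : padicValNat r (orderOf y) ≤ padicValNat r l :=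
          (padicValNat_dvd_iff_le hl0).1 (pow_padicValNat_dvd.trans (orderOf_dvd_of_pow_eq_one hzl))
        rw [hl, padicValNat.mul hr.ne_zero hl0, padicValNat_self, hu, padicValNat.mul ho0 hu0] at hv
        obtain ⟨s, rfl⟩ : r ∣ u := dvd_of_one_le_padicValNat (by omega)
        obtain ⟨w, hw, hw1⟩ := exists_norm_root hq hr.pos hdvd hy0 (by
          rw [hu, mul_left_comm, Nat.mul_div_cancel_left _ hr.pos, pow_mul, pow_orderOf_eq_one, one_pow])
        rcases hr.eq_two_or_odd' with rfl | ho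
        · obtain ⟨i, hi, hi1⟩ := exists_norm_root hq two_pos hdvd (z := (-1 : F)) (neg_ne_zero.2 one_ne_zero)
            (Even.neg_one_pow (even_iff_two_dvd.2 (by have := h4 rfl; omega)))
          refine hpow (i * w) (by rw [mul_pow, hi1, hw1, one_mul]) ?_
          rw [mul_pow, hi, hw, hy]
          ring
        · refine hpow w hw1 ?_
          rw [hw, hy, ho.add_one.neg_one_pow, one_mul]

/-- Residue multisets for the case `r ∤ q + 1`. -/
theorem exists_free_residues (hq : Fintype.card F = q ^ 2) (hrp : r ≠ p) (L : ℕ) :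
    ∃ S : Multiset (ZMod r), Multiset.card S = L * orderOf (-(q : ZMod r)) ∧ (0 : ZMod r) ∉ S ∧
      S.map (fun s => -(q : ZMod r) * s) = S := by
  classical
  set g := -(q : ZMod r) with hg
  set c := orderOf g with hc
  have hg0 : g ≠ 0 := neg_ne_zero.2 (natCast_q_ne_zero hq hrp)
  have hfin : g ^ (r - 1) = 1 := ZMod.pow_card_sub_one_eq_one hg0
  have hr2 := (Fact.out : r.Prime).two_le
  have hc0 : 0 < c := orderOf_pos_iff.2 (isOfFinOrder_iff_pow_eq_one.2 ⟨r - 1, by omega, hfin⟩)
  set U := ((Finset.univ : Finset (ZMod r)).erase 0).val with hU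
  have hUf : U.map (fun s => g * s) = U := by
    rw [hU, ← Finset.image_val_of_injOn (fun a _ b _ h => mul_left_cancel₀ hg0 h)]
    congr 1
    refine Finset.eq_of_subset_of_card_le (fun a ha => ?_)
      (Finset.card_image_of_injective _ (fun a b h => mul_left_cancel₀ hg0 h)).ge
    obtain ⟨b, hb, rfl⟩ := Finset.mem_image.1 ha
    exact Finset.mem_erase.2 ⟨mul_ne_zero hg0 (Finset.mem_erase.1 hb).1, Finset.mem_univ _⟩
  have hit : ∀ (u : ℕ) (a : ZMod r), (fun s => g * s)^[u] a = g ^ u * a := fun u a => by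
    induction u with
    | zero => simp
    | succ u ih => rw [Function.iterate_succ_apply', ih, pow_succ', mul_assoc]
  obtain ⟨-, hsub⟩ := exists_sub_invariant (fun s => g * s) hc0 _ (L • U) rfl
    (by rw [Multiset.map_nsmul, hUf]) (fun a _ => by rw [hit, pow_orderOf_eq_one, one_mul])
    (fun a ha u hu v hv h => by
      have ha0 : a ≠ 0 := (Finset.mem_erase.1 (Finset.mem_def.2 (Multiset.mem_of_mem_nsmul ha))).1
      rw [hit, hit] at h
      exact pow_injOn_Iio_orderOf hu hv (mul_right_cancel₀ ha0 h))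
  obtain ⟨T, hT, hTf, hTc⟩ := hsub L (by
    rw [Multiset.card_nsmul, hU, Finset.card_val, Finset.card_erase_of_mem (Finset.mem_univ _), Finset.card_univ,
      ZMod.card]
    exact Nat.mul_le_mul_left L (Nat.le_of_dvd (by omega) (orderOf_dvd_of_pow_eq_one hfin)))
  exact ⟨T, hTc, fun h => (Finset.mem_erase.1 (Finset.mem_def.2 (Multiset.mem_of_mem_nsmul
    (Multiset.mem_of_le hT h)))).1 rfl, hTf⟩

omit [Fact p.Prime] [CharP F p] [Fintype F] in
/-- Stable multisets: fixed part and free part. -/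
theorem card_split {g : ZMod r} (hg : g ≠ 0) {S : Multiset (ZMod r)} (hS : S.map (fun s => g * s) = S) :
    orderOf g ∣ Multiset.card S - S.count 0 ∧
      ∀ j, j * orderOf g ≤ Multiset.card S - S.count 0 → ∀ a ≤ S.count 0,
        ∃ T ≤ S, T.map (fun s => g * s) = T ∧ Multiset.card T = a + j * orderOf g := by
  classical
  set S₁ := S.filter fun s => s ≠ 0 with hS₁
  have hsplit : S = Multiset.replicate (S.count 0) 0 + S₁ := by
    rw [hS₁, ← Multiset.filter_eq' S 0]
    exact (Multiset.filter_add_not _ S).symm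
  have hcard : Multiset.card S₁ = Multiset.card S - S.count 0 := by
    conv_rhs => arg 1; rw [hsplit]
    rw [Multiset.card_add, Multiset.card_replicate]; omega
  have hS₁f : S₁.map (fun s => g * s) = S₁ := by
    have h := hS
    rw [hsplit, Multiset.map_add, Multiset.map_replicate, mul_zero] at h
    exact add_left_cancel h
  have hit : ∀ (u : ℕ) (a : ZMod r), (fun s => g * s)^[u] a = g ^ u * a := fun u a => by
    induction u with
    | zero => simp
    | succ u ih => rw [Function.iterate_succ_apply', ih, pow_succ', mul_assoc]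
  have hc0 : 0 < orderOf g := orderOf_pos_iff.2 (isOfFinOrder_iff_pow_eq_one.2
    ⟨r - 1, by have := (Fact.out : r.Prime).two_le; omega, ZMod.pow_card_sub_one_eq_one hg⟩)
  obtain ⟨hdvd, hsub⟩ := exists_sub_invariant (fun s => g * s) hc0 _ S₁ hcard hS₁f
    (fun a _ => by rw [hit, pow_orderOf_eq_one, one_mul])
    (fun a ha u hu v hv h => by
      rw [hit, hit] at h
      exact pow_injOn_Iio_orderOf hu hv (mul_right_cancel₀ (Multiset.mem_filter.1 ha).2 h))
  refine ⟨hdvd, fun j hj a ha => ?_⟩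
  obtain ⟨T, hT, hTf, hTc⟩ := hsub j hj
  refine ⟨Multiset.replicate a 0 + T, ?_, by rw [Multiset.map_add, Multiset.map_replicate, mul_zero, hTf],
    by rw [Multiset.card_add, Multiset.card_replicate, hTc]⟩
  conv_rhs => rw [hsplit]
  exact add_le_add (Multiset.le_replicate_iff.2 ⟨a, ha, rfl⟩) hT

/-- The number of non-degenerate subspaces of small dimension is prime to `r`. -/
theorem not_dvd_card_ndSub (hq : Fintype.card F = q ^ 2) (hrp : r ≠ p) {m k : ℕ}
    (hmc : m < orderOf (-(q : ZMod r))) (hkc : k < orderOf (-(q : ZMod r))) (hmk : m ≤ k) (L : ℕ) :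
    ¬ r ∣ Nat.card {W : Submodule F (Fin (k + L * orderOf (-(q : ZMod r))) → F) //
      Module.finrank F W = m ∧ NdSub q W} := by
  classical
  have hr : r.Prime := Fact.out
  set c := orderOf (-(q : ZMod r)) with hc
  set t := L * c with ht
  let K₀ := AlgebraicClosure F
  let ψ₀ : F →+* K₀ := algebraMap F K₀
  obtain ⟨ζ, hζ⟩ := exists_primitive (p := p) ψ₀ hrp
  have hg0 : -(q : ZMod r) ≠ 0 := neg_ne_zero.2 (natCast_q_ne_zero hq hrp)
  obtain ⟨S₁, hS₁c, hS₁0, hS₁f⟩ := exists_free_residues (F := F) hq hrp L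
  have hf : ∀ s : ZMod r, conjInv q (rootFn (1 : K₀) ζ s) = rootFn 1 ζ (-(q : ZMod r) * s) := by
    obtain ⟨δ, hδ⟩ := exists_shift (q := q) hζ one_ne_zero (by rw [one_pow, one_pow])
    have hδ0 : δ = 0 := by
      refine rootFn_injective hζ one_ne_zero ?_
      have h1 := hδ 0
      rw [mul_zero, zero_add] at h1
      rw [← h1, rootFn, ZMod.val_zero, pow_zero, mul_one, conjInv, one_pow, inv_one]
    intro s
    rw [hδ, hδ0, add_zero]
  obtain ⟨y, hy, hyo, hyr, hyroots⟩ := exists_of_residues (p := p) ψ₀ hq (n := t) (S := S₁) hS₁c one_ne_zero hζ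
    (by rw [one_pow, map_one]) hf hS₁f
  rw [one_smul] at hyr
  have h1 : qAdjoint q (1 : Matrix (Fin k) (Fin k) F) * 1 = 1 := by rw [qAdjoint_one hq, one_mul]
  have hY := blk_unitary hq h1 ((mem_GU_iff_qAdjoint hq y).1 hy)
  set Y := toGLU hY with hYdef
  have hYv : (Y : Matrix (Fin (k + t)) (Fin (k + t)) F) = blk (1 : Matrix (Fin k) (Fin k) F) (y : Matrix _ _ F) := rfl
  have hYr : (Y : Matrix (Fin (k + t)) (Fin (k + t)) F) ^ r = 1 := by
    rw [hYv, blk, ← map_pow, Matrix.fromBlocks_diagonal_pow, one_pow, hyr, Matrix.fromBlocks_one, map_one]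
  have hyfree : ∀ v : Fin t → F, (y : Matrix (Fin t) (Fin t) F) *ᵥ v = v → v = 0 := by
    intro v hv
    by_contra hv0
    have hdet : ((Matrix.scalar (Fin t)) (1 : F) - (y : Matrix (Fin t) (Fin t) F)).det = 0 :=
      Matrix.exists_mulVec_eq_zero_iff.1 ⟨v, hv0, by rw [map_one, Matrix.sub_mulVec, Matrix.one_mulVec, hv, sub_self]⟩
    rw [← Matrix.eval_charpoly] at hdet
    have hmem : (1 : K₀) ∈ ((y : Matrix (Fin t) (Fin t) F).charpoly.map ψ₀).roots := by
      rw [mem_roots ((Matrix.charpoly_monic _).map ψ₀).ne_zero, IsRoot.def, ← map_one ψ₀, eval_map_apply, hdet,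
        map_zero]
    rw [hyroots] at hmem
    obtain ⟨s, hs, hs1⟩ := Multiset.mem_map.1 hmem
    have : s = 0 := rootFn_injective hζ one_ne_zero (by rw [hs1, rootFn, ZMod.val_zero, pow_zero, mul_one])
    exact hS₁0 (this ▸ hs)
  -- the invariant members
  have hin : ∀ W : Submodule F (Fin (k + t) → F), Module.finrank F W = m → NdSub q W →
      W.map (Matrix.toLin' (Y : Matrix (Fin (k + t)) (Fin (k + t)) F)) ≤ W →
      W ≤ LinearMap.range (emb (F := F) k t) := by
    intro W hWd hWn hWi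
    obtain ⟨t', ht'⟩ : ∃ t', k + t = m + t' := ⟨k + t - m, by omega⟩
    have key : ∀ N (_ : N = m + t') (Z : GL (Fin N) F), Z ∈ Cfsg.GU N F q →
        (Z : Matrix (Fin N) (Fin N) F) ^ r = 1 → ∀ W : Submodule F (Fin N → F), Module.finrank F W = m → NdSub q W →
        W.map (Matrix.toLin' (Z : Matrix (Fin N) (Fin N) F)) ≤ W →
        ∀ w ∈ W, (Z : Matrix (Fin N) (Fin N) F) *ᵥ w = w := by
      rintro N rfl Z hZ hZr W hWd hWn hWi
      obtain ⟨g, hg, rfl⟩ := exists_gu_map_std hq hWd hWn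
      obtain ⟨A, B, hA, hB, hAB⟩ := exists_blk_of_invariant_std hq
        (Subgroup.mul_mem _ (Subgroup.mul_mem _ (Subgroup.inv_mem _ hg) hZ) hg) (map_map_mem g Z hWi)
      have hAr : A ^ r = 1 := by
        have h2 : ((g⁻¹ * Z * g : GL (Fin (m + t')) F) : Matrix (Fin (m + t')) (Fin (m + t')) F) ^ r = 1 := by
          rw [← Units.val_pow_eq_pow_val, show g⁻¹ * Z * g = g⁻¹ * Z * g⁻¹⁻¹ by rw [inv_inv], conj_pow,
            show Z ^ r = 1 from Units.ext (by rw [Units.val_pow_eq_pow_val, hZr, Units.val_one]), mul_one,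
            mul_inv_cancel, Units.val_one]
        rw [hAB, blk, ← map_pow, Matrix.fromBlocks_diagonal_pow, map_eq_one_iff _
          (Matrix.reindexAlgEquiv F F finSumFinEquiv).injective, ← Matrix.fromBlocks_one, Matrix.fromBlocks_inj] at h2
        exact h2.1
      obtain ⟨S, hSc, hSr, hSf, -⟩ := exists_residues (p := p) ψ₀ hq hrp (toGLU_mem hq hA) (z := 1)
        (by show A ^ r = _; rw [hAr, one_smul]) one_ne_zero hζ (a₀ := 1) (by rw [one_pow, map_one]) hf
      have hS0 : S.count 0 = m := by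
        have h3 := (card_split hg0 hSf).1
        rw [hSc] at h3
        have := Multiset.count_le_card (0 : ZMod r) S
        rcases Nat.eq_zero_or_pos (m - S.count 0) with h4 | h4
        · omega
        · have := Nat.le_of_dvd h4 h3; omega
      have hA1 : A = 1 := by
        have h4 : ∀ a ∈ (A.charpoly.map ψ₀).roots, a ^ 1 = ψ₀ 1 := by
          intro a haA
          rw [show A.charpoly = (toGLU hA : Matrix (Fin m) (Fin m) F).charpoly from rfl, hSr] at haA
          obtain ⟨s, hs, rfl⟩ := Multiset.mem_map.1 haA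
          have : s = 0 := (Multiset.count_eq_card.1 (hS0.trans hSc.symm) s hs).symm
          rw [this, pow_one, rootFn, ZMod.val_zero, pow_zero, mul_one, map_one]
        have := pow_eq_of_roots ψ₀ one_pos (p := p) (N := r) ((Nat.coprime_primes hr Fact.out).2 hrp) hAr one_ne_zero h4
        rwa [pow_one, one_smul] at this
      rintro _ ⟨_, ⟨u, rfl⟩, rfl⟩
      simp only [Matrix.toLin'_apply]
      have hgz : Z * g = g * (g⁻¹ * Z * g) := by group
      rw [Matrix.mulVec_mulVec, ← Units.val_mul, hgz, Units.val_mul,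
        ← Matrix.mulVec_mulVec, hAB]
      congr 1
      show blk A B *ᵥ Fin.append u 0 = Fin.append u 0
      rw [blk_mulVec, hA1, Matrix.one_mulVec, Matrix.mulVec_zero]
    intro w hw
    have hfix := key _ ht' Y (toGLU_mem hq hY) hYr W hWd hWn hWi w hw
    rw [show w = Fin.append (fun i => w (Fin.castAdd t i)) (fun i => w (Fin.natAdd k i)) from by
      funext i; refine Fin.addCases (fun a => ?_) (fun b => ?_) i <;> simp, hYv, blk_mulVec] at hfix
    have h2 : (y : Matrix (Fin t) (Fin t) F) *ᵥ (fun i => w (Fin.natAdd k i)) = fun i => w (Fin.natAdd k i) :=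
      funext fun i => by simpa using congrFun hfix (Fin.natAdd k i)
    have h3 := hyfree _ h2
    refine ⟨fun i => w (Fin.castAdd t i), ?_⟩
    funext i
    refine Fin.addCases (fun a => ?_) (fun b => ?_) i
    · simp [emb]
    · simpa [emb] using (congrFun h3 b).symm
  -- counting
  let L' := Matrix.toLin' (Y : Matrix (Fin (k + t)) (Fin (k + t)) F)
  have hLinj : Function.Injective L' := fun a b hab => by
    simp only [L', Matrix.toLin'_apply] at hab
    exact Matrix.mulVec_injective_of_isUnit Y.isUnit hab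
  let Ω := {W : Submodule F (Fin (k + t) → F) // Module.finrank F W = m ∧ NdSub q W}
  let f : Function.End Ω := fun W => ⟨W.1.map L', by
    rw [← LinearEquiv.finrank_eq (Submodule.equivMapOfInjective _ hLinj _), W.2.1],
    ndSub_map (toGLU_mem hq hY) W.2.2⟩
  have hit : ∀ (u : ℕ) (W : Ω), ((f ^ u : Function.End Ω) W).1 =
      W.1.map (Matrix.toLin' ((Y : Matrix (Fin (k + t)) (Fin (k + t)) F) ^ u)) := fun u => by
    induction u with
    | zero => intro W; rw [pow_zero, pow_zero, Matrix.toLin'_one, Submodule.map_id]; rfl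
    | succ u ih =>
      intro W
      rw [pow_succ' f u, pow_succ' _ u, Matrix.toLin'_mul, Submodule.map_comp, ← ih W]
      rfl
  have hfr : f ^ r ^ 1 = 1 := by
    rw [pow_one]
    refine funext fun W => Subtype.ext ?_
    rw [hit, hYr, Matrix.toLin'_one, Submodule.map_id]; rfl
  haveI : Finite (Submodule F (Fin (k + t) → F)) := Finite.of_injective
    (fun W : Submodule F (Fin (k + t) → F) => (W : Set (Fin (k + t) → F))) SetLike.coe_injective
  haveI : Fintype Ω := Fintype.ofFinite _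
  have hmod := Equiv.Perm.card_fixedPoints_modEq (f := f) (p := r) (n := 1) hfr
  rw [← Nat.card_eq_fintype_card, ← Nat.card_eq_fintype_card] at hmod
  have he : Nat.card (Function.fixedPoints f) =
      Nat.card {W : Submodule F (Fin k → F) // Module.finrank F W = m ∧ NdSub q W} := by
    refine Nat.card_congr
      { toFun := fun W => ⟨W.1.1.comap (emb k t), ?_, ?_⟩
        invFun := fun U => ⟨⟨U.1.map (emb k t), ?_, ?_⟩, ?_⟩
        left_inv := fun W => Subtype.ext (Subtype.ext ?_)
        right_inv := fun U => Subtype.ext (Submodule.comap_map_eq_of_injective (emb_injective k t) U.1) }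
    · have hW := hin W.1.1 W.1.2.1 W.1.2.2 (congrArg Subtype.val W.2).le
      rw [LinearEquiv.finrank_eq (Submodule.equivMapOfInjective _ (emb_injective k t) _),
        Submodule.map_comap_eq_self hW, W.1.2.1]
    · have hW := hin W.1.1 W.1.2.1 W.1.2.2 (congrArg Subtype.val W.2).le
      intro u hu hu0
      obtain ⟨v, hv, h⟩ := W.1.2.2 (emb k t u) hu (fun h0 => hu0 (emb_injective k t (by rw [h0, map_zero])))
      obtain ⟨v', rfl⟩ := hW hv
      exact ⟨v', hv, by rwa [hermForm_emb hq] at h⟩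
    · rw [← LinearEquiv.finrank_eq (Submodule.equivMapOfInjective _ (emb_injective k t) _), U.2.1]
    · rintro _ ⟨u, hu, rfl⟩ h0
      obtain ⟨v, hv, h⟩ := U.2.2 u hu (fun h' => h0 (by rw [h', map_zero]))
      exact ⟨_, ⟨v, hv, rfl⟩, by rwa [hermForm_emb hq]⟩
    · refine Subtype.ext ?_
      show (U.1.map (emb k t)).map L' = U.1.map (emb k t)
      rw [← Submodule.map_comp]
      congr 1
      refine LinearMap.ext fun u => ?_
      show L' (emb k t u) = emb k t u
      rw [Matrix.toLin'_apply, hYv]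
      show blk _ _ *ᵥ Fin.append u 0 = Fin.append u 0
      rw [blk_mulVec, Matrix.one_mulVec, Matrix.mulVec_zero]
    · exact Submodule.map_comap_eq_self (hin W.1.1 W.1.2.1 W.1.2.2 (congrArg Subtype.val W.2).le)
  intro hdvd
  rw [he] at hmod
  have h2 : r ∣ Nat.card {W : Submodule F (Fin k → F) // Module.finrank F W = m ∧ NdSub q W} :=
    (Nat.ModEq.dvd_iff hmod dvd_rfl).1 hdvd
  have h3 := h2.trans (card_ndSub_dvd hq hmk)
  rw [CfsgLib.ClassicalForms.card_gu (by rw [Nat.card_eq_fintype_card, hq])] at h3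
  rcases hr.dvd_mul.1 h3 with h4 | h4
  · exact natCast_q_ne_zero hq hrp ((ZMod.natCast_eq_zero_iff q r).2 (hr.dvd_of_dvd_pow h4))
  · obtain ⟨i, hi, h5⟩ := (hr.prime.dvd_finsetProd_iff _).1 h4
    rw [Finset.mem_range] at hi
    rw [← ZMod.natCast_eq_zero_iff] at h5
    have h6 : (-(q : ZMod r)) ^ (i + 1) = 1 := by
      rcases Nat.even_or_odd i with he | ho
      · rw [if_pos he] at h5
        push_cast at h5
        rw [he.add_one.neg_pow]
        linear_combination -h5
      · rw [if_neg (Nat.not_even_iff_odd.2 ho), Nat.cast_sub (Nat.one_le_pow _ _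
          (zero_lt_one.trans (one_lt_of_card_eq_sq hq)))] at h5
        push_cast at h5
        rw [ho.add_one.neg_pow]
        linear_combination h5
    have := Nat.le_of_dvd i.succ_pos (orderOf_dvd_of_pow_eq_one h6)
    omega

/-- The case `r ∤ q + 1`. -/
theorem elusive_iff_of_not_dvd (hq : Fintype.card F = q ^ 2) (hrp : r ≠ p) (hdvd : ¬ r ∣ q + 1) {m t : ℕ}
    (hm : 0 < m)
    (hcount : r ∣ Nat.card {W : Submodule F (Fin (m + t) → F) // Module.finrank F W = m ∧ NdSub q W}) :
    ElusiveU F q (m + t) r m ↔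
      orderOf (-(q : ZMod r)) ≤ m ∧ m % orderOf (-(q : ZMod r)) ≤ (m + t) % orderOf (-(q : ZMod r)) := by
  classical
  have hr : r.Prime := Fact.out
  set c := orderOf (-(q : ZMod r)) with hc
  let K₀ := AlgebraicClosure F
  let ψ₀ : F →+* K₀ := algebraMap F K₀
  obtain ⟨ζ, hζ⟩ := exists_primitive (p := p) ψ₀ hrp
  have hg0 : -(q : ZMod r) ≠ 0 := neg_ne_zero.2 (natCast_q_ne_zero hq hrp)
  have hc0 : 0 < c := orderOf_pos_iff.2 (isOfFinOrder_iff_pow_eq_one.2
    ⟨r - 1, by have := hr.two_le; omega, ZMod.pow_card_sub_one_eq_one hg0⟩)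
  have hco : r.Coprime (q + 1) := hr.coprime_iff_not_dvd.2 hdvd
  have hf : ∀ {b : F}, b ^ (q + 1) = 1 → ∀ s : ZMod r,
      conjInv q (rootFn (ψ₀ b) ζ s) = rootFn (ψ₀ b) ζ (-(q : ZMod r) * s) := by
    intro b hb
    have hb0 : ψ₀ b ≠ 0 := (map_ne_zero ψ₀).2 (ne_zero_of_norm hb)
    obtain ⟨δ, hδ⟩ := exists_shift (q := q) hζ hb0 (by
      rw [← map_pow, ← map_pow, ← pow_mul, mul_comm, pow_mul, hb, one_pow, map_one])
    have hδ0 : δ = 0 := by
      refine rootFn_injective hζ hb0 ?_
      have h1 := hδ 0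
      rw [mul_zero, zero_add] at h1
      rw [← h1, rootFn, ZMod.val_zero, pow_zero, mul_one, conjInv, ← map_pow, ← map_inv₀]
      congr 1
      exact inv_eq_of_mul_eq_one_right (by rw [← pow_succ, hb])
    intro s
    rw [hδ, hδ0, add_zero]
  constructor
  · intro hel
    have hsmall : m < c → m ≤ (m + t) % c → False := fun h1 h2 => by
      have := not_dvd_card_ndSub (F := F) hq hrp h1 (Nat.mod_lt _ hc0) h2 ((m + t) / c)
      rw [← hc, Nat.mod_add_div'] at this
      exact this hcount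
    rcases lt_or_ge (m + t) c with hlt | hge
    · exact (hsmall (by omega) (by rw [Nat.mod_eq_of_lt hlt]; omega)).elim
    have hmod : m % c ≤ (m + t) % c := by
      obtain ⟨S₁, hS₁c, hS₁0, hS₁f⟩ := exists_free_residues (F := F) hq hrp ((m + t) / c)
      rw [← hc] at hS₁c
      obtain ⟨x, hx, hxo, hxr, hroots⟩ := exists_of_residues (p := p) ψ₀ hq (n := m + t)
        (S := Multiset.replicate ((m + t) % c) 0 + S₁)
        (by rw [Multiset.card_add, Multiset.card_replicate, hS₁c, Nat.mod_add_div'])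
        (one_ne_zero : (1 : F) ≠ 0) hζ (a₀ := ψ₀ 1) (by rw [← map_pow, one_pow]) (hf (one_pow _))
        (by rw [Multiset.map_add, Multiset.map_replicate, mul_zero, hS₁f])
      have hroot1 : ∀ b : F, b ^ r = 1 → b ^ (q + 1) = 1 → b = 1 := fun b h1 h2 => by
        have := pow_gcd_eq_one.2 ⟨h1, h2⟩
        rwa [hco.gcd_eq_one, pow_one] at this
      have hdet : (x : Matrix (Fin (m + t)) (Fin (m + t)) F).det = 1 := by
        refine hroot1 _ ?_ ?_
        · rw [← Matrix.det_pow, hxr, one_smul, Matrix.det_one]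
        · obtain ⟨φ, hφ, -⟩ := exists_frobenius_half hq
          rw [pow_succ, ← det_qAdjoint φ hφ, ← Matrix.det_mul, (mem_GU_iff_qAdjoint hq x).1 hx, Matrix.det_one]
      have hxns : ∀ b : F, (x : Matrix (Fin (m + t)) (Fin (m + t)) F) ≠ b • 1 := fun b hb => by
        have hb1 : b ^ (q + 1) = 1 := scalar_norm hq (by omega) hx (r := 1) (by rw [pow_one, hb])
        have hbr : b ^ r = 1 := by
          rw [hb, _root_.smul_pow, one_pow] at hxr
          simpa using congrFun (congrFun hxr ⟨0, by omega⟩) ⟨0, by omega⟩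
        obtain ⟨s, hs⟩ := Multiset.card_pos_iff_exists_mem.1 (show 0 < Multiset.card S₁ by
          rw [hS₁c]; exact Nat.mul_pos (Nat.div_pos hge hc0) hc0)
        have hmem : rootFn (ψ₀ 1) ζ s ∈ ((x : Matrix (Fin (m + t)) (Fin (m + t)) F).charpoly.map ψ₀).roots :=
          hroots ▸ Multiset.mem_map_of_mem _ (Multiset.mem_add.2 (Or.inr hs))
        have h2 := CfsgLib.Omega.pow_eq_of_isRoot_charpoly ψ₀ _ (r := 1) (z := (1 : F))
          (by rw [pow_one, hb, hroot1 b hbr hb1]) (isRoot_of_mem_roots hmem)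
        rw [pow_one] at h2
        have hs0 : s = 0 := by
          refine rootFn_injective hζ (a₀ := ψ₀ 1) (by rw [map_one]; exact one_ne_zero) ?_
          rw [h2, rootFn, ZMod.val_zero, pow_zero, mul_one]
        exact hS₁0 (hs0 ▸ hs)
      obtain ⟨S, -, hSr, -, hfix⟩ := exists_residues (p := p) ψ₀ hq hrp hx hxr one_ne_zero hζ
        (a₀ := ψ₀ 1) (by rw [← map_pow, one_pow]) (hf (one_pow _))
      have hS : S = Multiset.replicate ((m + t) % c) 0 + S₁ :=
        Multiset.map_injective (rootFn_injective hζ (by rw [map_one]; exact one_ne_zero)) (hSr.symm.trans hroots)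
      obtain ⟨T, hT, hTc, hTf⟩ := (hfix m t rfl).1 (hel x hx hdet ⟨1, hxr⟩ hxns)
      obtain ⟨d, hd⟩ := (card_split hg0 hTf).1
      have hle : T.count 0 ≤ (m + t) % c := by
        refine (Multiset.count_le_of_le 0 (hS ▸ hT)).trans ?_
        rw [Multiset.count_add, Multiset.count_replicate_self, Multiset.count_eq_zero.2 hS₁0]
        simp
      have hTle := Multiset.count_le_card (0 : ZMod r) T
      rw [← hc, hTc] at hd
      have := CfsgLib.Derangements.SubFix.mod_of_eq_add (x := m) (d := T.count 0) (l := d) (i := c)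
        (lt_of_le_of_lt hle (Nat.mod_lt _ hc0)) (by rw [mul_comm]; omega)
      omega
    refine ⟨?_, hmod⟩
    by_contra hmc
    push Not at hmc
    exact hsmall hmc (by rwa [Nat.mod_eq_of_lt hmc] at hmod)
  · rintro ⟨-, hmod⟩ x hx - ⟨z, hxr⟩ -
    have hz1 : z ^ (q + 1) = 1 := scalar_norm hq (by omega) hx hxr
    have hz0 : z ≠ 0 := ne_zero_of_norm hz1
    obtain ⟨u, -, hu⟩ := Nat.exists_mul_mod_eq_one_of_coprime hco (by have := one_lt_of_card_eq_sq hq; omega : 1 < q + 1)
    have hb1 : (z ^ u) ^ (q + 1) = 1 := by rw [← pow_mul, mul_comm, pow_mul, hz1, one_pow]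
    have hb : (z ^ u) ^ r = z := by
      rw [← pow_mul, mul_comm, pow_eq_pow_mod _ hz1, hu, pow_one]
    obtain ⟨S, hSc, -, hSf, hfix⟩ := exists_residues (p := p) ψ₀ hq hrp hx hxr hz0 hζ
      (a₀ := ψ₀ (z ^ u)) (by rw [← map_pow, hb]) (hf hb1)
    obtain ⟨⟨L, hL⟩, hsub⟩ := card_split hg0 hSf
    rw [← hc, hSc] at hL hsub
    have hle := Multiset.count_le_card (0 : ZMod r) S
    obtain ⟨l, hl, hlm, hlk⟩ := CfsgLib.Derangements.SubFix.split_one (n := m + t) (k := S.count 0) (L := L)
      (i := c) (by rw [mul_comm L]; omega) (by omega) hmod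
    obtain ⟨T, hT, hTf, hTc⟩ := hsub l (by rw [hL, mul_comm c]; exact Nat.mul_le_mul_right _ hl) _ hlk
    exact (hfix m t rfl).2 ⟨T, hT, by omega, hTf⟩

end CfsgLib.Omega.UnitaryNondeg
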