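import Mathlib
import Cfsg.Agent.Lib.Omega.UnitaryNondegSemisimple
import Cfsg.Agent.Lib.Derangements.FixedPairsUnipotent

/-!
Elements of order `p` modulo scalars of the unitary groups and invariant non-degenerate subspaces.
-/

set_option autoImplicit false

open Module
open scoped Matrix

namespace CfsgLib.Omega.UnitaryNondeg

open CfsgLib.Generators CfsgLib.SemisimpleClasses.Unitary CfsgLib.Derangements

variable {F : Type*} [Field F] [Fintype F] {q : ℕ} {p : ℕ} [Fact p.Prime] [CharP F p]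

omit [Fintype F] in
theorem exists_blk_conj {m t : ℕ} (X : GL (Fin (m + t)) F) {U W : Submodule F (Fin (m + t) → F)}
    (hUW : IsCompl U W) (hU : finrank F U = m)
    (hUi : U.map (Matrix.toLin' (X : Matrix (Fin (m + t)) (Fin (m + t)) F)) ≤ U)
    (hWi : W.map (Matrix.toLin' (X : Matrix (Fin (m + t)) (Fin (m + t)) F)) ≤ W) :
    ∃ (P : GL (Fin (m + t)) F) (A : Matrix (Fin m) (Fin m) F) (B : Matrix (Fin t) (Fin t) F),
      ((P⁻¹ * X * P : GL (Fin (m + t)) F) : Matrix (Fin (m + t)) (Fin (m + t)) F) = blk A B := by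
  classical
  have hW : finrank F W = t := by
    have := Submodule.finrank_add_eq_of_isCompl hUW
    rw [hU, finrank_fin_fun] at this
    omega
  let bU : Basis (Fin m) F U := (finBasis F U).reindex (finCongr hU)
  let bW : Basis (Fin t) F W := (finBasis F W).reindex (finCongr hW)
  let b : Basis (Fin (m + t)) F (Fin (m + t) → F) :=
    ((bU.prod bW).map (Submodule.prodEquivOfIsCompl U W hUW)).reindex finSumFinEquiv
  let L := Matrix.toLin' (X : Matrix (Fin (m + t)) (Fin (m + t)) F)
  let M : Matrix (Fin (m + t)) (Fin (m + t)) F := LinearMap.toMatrix b b L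
  have hb1 : ∀ i : Fin m, b (Fin.castAdd t i) = (bU i : Fin (m + t) → F) := fun i => by simp [b]
  have hb2 : ∀ i : Fin t, b (Fin.natAdd m i) = (bW i : Fin (m + t) → F) := fun i => by simp [b]
  have hr1 : ∀ u : U, ∀ i : Fin t, b.repr (u : Fin (m + t) → F) (Fin.natAdd m i) = 0 := fun u i => by
    simp [b, Submodule.prodEquivOfIsCompl_symm_apply_left]
  have hr2 : ∀ u : W, ∀ i : Fin m, b.repr (u : Fin (m + t) → F) (Fin.castAdd t i) = 0 := fun u i => by
    simp [b, Submodule.prodEquivOfIsCompl_symm_apply_right]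
  let A : Matrix (Fin m) (Fin m) F := fun i j => M (Fin.castAdd t i) (Fin.castAdd t j)
  let B : Matrix (Fin t) (Fin t) F := fun i j => M (Fin.natAdd m i) (Fin.natAdd m j)
  have hM : M = blk A B := by
    ext i j
    refine Fin.addCases (fun a => ?_) (fun a => ?_) i <;> refine Fin.addCases (fun a' => ?_) (fun a' => ?_) j
    · simp [blk, A, Matrix.fromBlocks]
    · have h1 : L (bW a' : Fin (m + t) → F) ∈ W := hWi ⟨_, (bW a').2, rfl⟩
      simpa [blk, M, LinearMap.toMatrix_apply, hb2] using hr2 ⟨_, h1⟩ a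
    · have h1 : L (bU a' : Fin (m + t) → F) ∈ U := hUi ⟨_, (bU a').2, rfl⟩
      simpa [blk, M, LinearMap.toMatrix_apply, hb1] using hr1 ⟨_, h1⟩ a
    · simp [blk, B, Matrix.fromBlocks]
  let P₀ := (Pi.basisFun F (Fin (m + t))).toMatrix b
  have hP₀ : IsUnit P₀ := by
    have := (Pi.basisFun F (Fin (m + t))).invertibleToMatrix b
    exact isUnit_of_invertible P₀
  obtain ⟨P, hP⟩ := hP₀
  refine ⟨P, A, B, ?_⟩
  have h1 : (X : Matrix (Fin (m + t)) (Fin (m + t)) F) * P₀ = P₀ * M := by
    have h := basis_toMatrix_mul_linearMap_toMatrix_mul_basis_toMatrix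
      (Pi.basisFun F (Fin (m + t))) b (Pi.basisFun F (Fin (m + t))) b L
    show _ = P₀ * LinearMap.toMatrix b b L
    conv_lhs => rw [← LinearMap.toMatrix'_toLin' (X : Matrix (Fin (m + t)) (Fin (m + t)) F),
      ← LinearMap.toMatrix_eq_toMatrix', ← h, mul_assoc, mul_assoc, Basis.toMatrix_mul_toMatrix_flip, mul_one]
  rw [Units.val_mul, Units.val_mul, mul_assoc, hP, h1, ← hP, ← mul_assoc, ← Units.val_mul, inv_mul_cancel,
    Units.val_one, one_mul, hM]

omit [Fintype F] in
theorem eq_one_of_pow_char {w : F} (h : w ^ p = 1) : w = 1 :=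
  sub_eq_zero.1 (eq_zero_of_pow_eq_zero (n := p) (by rw [sub_pow_char, h, one_pow, sub_self]))

theorem exists_char_root (hq : Fintype.card F = q ^ 2) {z : F} (hz : z ^ (q + 1) = 1) :
    ∃ a : F, a ^ p = z ∧ a ^ (q + 1) = 1 := by
  haveI : PerfectRing F p := PerfectRing.ofFiniteOfIsReduced p F
  obtain ⟨a, ha⟩ := (bijective_frobenius F p).surjective z
  rw [frobenius_def] at ha
  exact ⟨a, ha, eq_one_of_pow_char (p := p) (by rw [← pow_mul, mul_comm, pow_mul, ha, hz])⟩

/-- A `p`-th root of a scalar is similar to a scalar multiple of a unitary unipotent. -/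
theorem exists_unitary_similar (hq : Fintype.card F = q ^ 2) {n : ℕ} {A : Matrix (Fin n) (Fin n) F} {a z : F}
    (ha : a ^ p = z) (ha1 : a ^ (q + 1) = 1) (hA : A ^ p = z • (1 : Matrix (Fin n) (Fin n) F)) :
    ∃ (e : GL (Fin n) F) (g : Matrix (Fin n) (Fin n) F), qAdjoint q (a • g) * (a • g) = 1 ∧
      (e : Matrix (Fin n) (Fin n) F) * A = (a • g) * e ∧ qAdjoint q g * g = 1 := by
  have ha0 := ne_zero_of_norm ha1
  rcases Nat.eq_zero_or_pos n with rfl | hn
  · exact ⟨1, 1, Subsingleton.elim _ _, Subsingleton.elim _ _, Subsingleton.elim _ _⟩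
  haveI : Nonempty (Fin n) := ⟨⟨0, hn⟩⟩
  set N := a⁻¹ • A - 1 with hN
  have hNp : N ^ p = 0 := by
    rw [hN, sub_pow_char_of_commute _ (Commute.one_right _), _root_.smul_pow, hA, smul_smul, one_pow, inv_pow,
      ha, inv_mul_cancel₀ (ha ▸ pow_ne_zero _ ha0), one_smul, sub_self]
  obtain ⟨g, e, he⟩ := CfsgLib.Classes.exists_gu_similar_of_unipotent hq (N := N) ⟨p, hNp⟩
  have hg := (mem_GU_iff_qAdjoint hq _).1 g.2
  refine ⟨e, _, ?_, ?_, hg⟩
  · rw [CfsgLib.CharDegrees.qAdjoint_smul, Matrix.smul_mul, Matrix.mul_smul, smul_smul, hg, ← pow_succ, ha1,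
      one_smul]
  · rw [Matrix.smul_mul, ← he, hN, add_sub_cancel, Matrix.mul_smul, smul_smul, mul_inv_cancel₀ ha0, one_smul]

theorem elusive_iff_partCond (hq : Fintype.card F = q ^ 2) {m t : ℕ} (hm : 0 < m) :
    ElusiveU F q (m + t) p m ↔ SubFix.PartCond p (m + t) m := by
  classical
  have hp : p.Prime := Fact.out
  have hn : finrank F (Fin (m + t) → F) = m + t := finrank_fin_fun F
  haveI : Nonempty (Fin (m + t)) := ⟨⟨0, by omega⟩⟩
  constructor
  · intro hel
    rw [← hn]
    refine SubFix.partCond_of_elusive (F := F) (V := Fin (m + t) → F) (p := p) (by omega) ?_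
    intro T hdet c hT hns
    set X := LinearMap.toMatrix' T with hX
    have hTX : Matrix.toLin' X = T := Matrix.toLin'_toMatrix' T
    have hc0 : c ≠ 0 := SubFix.const_ne_zero (by omega) hdet hT
    haveI : PerfectRing F p := PerfectRing.ofFiniteOfIsReduced p F
    obtain ⟨a, ha⟩ := (bijective_frobenius F p).surjective c
    rw [frobenius_def] at ha
    have ha0 : a ≠ 0 := fun h => hc0 (by rw [← ha, h, zero_pow hp.ne_zero])
    have hXp : X ^ p = c • (1 : Matrix (Fin (m + t)) (Fin (m + t)) F) := by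
      apply Matrix.toLin'.injective
      rw [Matrix.toLin'_pow, hTX, hT, map_smul, Matrix.toLin'_one]
      rfl
    set N := a⁻¹ • X - 1 with hN
    have hNp : N ^ p = 0 := by
      rw [hN, sub_pow_char_of_commute _ (Commute.one_right _), _root_.smul_pow, hXp, smul_smul, one_pow,
        inv_pow, ha, inv_mul_cancel₀ hc0, one_smul, sub_self]
    obtain ⟨g, e, he⟩ := CfsgLib.Classes.exists_gu_similar_of_unipotent hq (N := N) ⟨p, hNp⟩
    set G := ((g : GL (Fin (m + t)) F) : Matrix (Fin (m + t)) (Fin (m + t)) F) with hG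
    have hXN : X = a • (1 + N) := by rw [hN, add_sub_cancel, smul_smul, mul_inv_cancel₀ ha0, one_smul]
    have h1N : (1 + N) ^ p = 1 := by
      rw [add_pow_char_of_commute _ (Commute.one_left _), one_pow, hNp, add_zero]
    have hG' : G = (e : Matrix _ _ F) * (1 + N) * ((e⁻¹ : GL (Fin (m + t)) F) : Matrix _ _ F) := by
      rw [he, mul_assoc, ← Units.val_mul, mul_inv_cancel, Units.val_one, mul_one]
    have hGp : G ^ p = 1 := by
      rw [hG', Units.conj_pow, h1N, mul_one, ← Units.val_mul, mul_inv_cancel, Units.val_one]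
    have hGdet : G.det = 1 := eq_one_of_pow_char (p := p) (by rw [← Matrix.det_pow, hGp, Matrix.det_one])
    obtain ⟨U, W, hUW, hU, hUi, hWi⟩ := exists_compl_of_fixes hq g.2 (hel _ g.2 hGdet
      ⟨1, by rw [one_smul]; exact hGp⟩ (fun b hb => hns (a * b) (by
        have h2 : (1 : Matrix (Fin (m + t)) (Fin (m + t)) F) + N = b • 1 := by
          calc 1 + N = ((e⁻¹ : GL (Fin (m + t)) F) : Matrix _ _ F) * ((e : Matrix _ _ F) * (1 + N)) := by
                rw [← mul_assoc, ← Units.val_mul, inv_mul_cancel, Units.val_one, one_mul]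
            _ = _ := by
              rw [he, show G = b • 1 from hb, Matrix.smul_mul, one_mul, Matrix.mul_smul, ← Units.val_mul, inv_mul_cancel, Units.val_one]
        rw [← hTX, hXN, h2, smul_smul, map_smul, Matrix.toLin'_one]
        rfl)))
    let E := Matrix.toLin' ((e⁻¹ : GL (Fin (m + t)) F) : Matrix (Fin (m + t)) (Fin (m + t)) F)
    have hEinj : Function.Injective E := fun u v h => by
      simp only [E, Matrix.toLin'_apply] at h
      exact Matrix.mulVec_injective_of_isUnit (e⁻¹).isUnit h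
    have hEsurj : Function.Surjective E := LinearMap.injective_iff_surjective.1 hEinj
    have key : ∀ v, T (E v) = a • E (G *ᵥ v) := fun v => by
      rw [← hTX, hXN]
      simp only [E, Matrix.toLin'_apply, Matrix.mulVec_mulVec, Matrix.smul_mulVec]
      rw [Matrix.smul_mul, Matrix.smul_mulVec, hG', ← mul_assoc, ← mul_assoc, ← Units.val_mul, inv_mul_cancel,
        Units.val_one, one_mul]
    refine ⟨U.map E, W.map E, ⟨Submodule.disjoint_map hEinj hUW.disjoint, ?_⟩, ?_, ?_, ?_⟩
    · rw [codisjoint_iff, ← Submodule.map_sup, hUW.sup_eq_top, Submodule.map_top, LinearMap.range_eq_top.2 hEsurj]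
    · rw [← LinearEquiv.finrank_eq (Submodule.equivMapOfInjective _ hEinj _), hU]
    · rintro _ ⟨v, hv, rfl⟩
      show T (E v) ∈ U.map E
      rw [key]
      exact Submodule.smul_mem _ _ ⟨_, hUi ⟨v, hv, rfl⟩, by simp [E, hG, Matrix.toLin'_apply]⟩
    · rintro _ ⟨v, hv, rfl⟩
      show T (E v) ∈ W.map E
      rw [key]
      exact Submodule.smul_mem _ _ ⟨_, hWi ⟨v, hv, rfl⟩, by simp [E, hG, Matrix.toLin'_apply]⟩
  · intro hcond x hx hdet ⟨z, hxp⟩ hns
    have hz1 : z ^ (q + 1) = 1 := scalar_norm hq (by omega) hx hxp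
    obtain ⟨a, ha, ha1⟩ := exists_char_root (p := p) hq hz1
    set L := Matrix.toLin' (x : Matrix (Fin (m + t)) (Fin (m + t)) F) with hL
    obtain ⟨U, W, hUW, hU, hUi, hWi⟩ := SubFix.elusive_of_partCond (F := F) (V := Fin (m + t) → F) (p := p)
      (by omega) (m := m) (by rwa [hn]) L (by rw [hL, LinearMap.det_toLin', hdet]) z
      (by rw [hL, ← Matrix.toLin'_pow, hxp, map_smul, Matrix.toLin'_one]; rfl)
      (fun b hb => hns b (Matrix.toLin'.injective (by
        rw [← hL, hb, map_smul, Matrix.toLin'_one]; rfl)))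
    obtain ⟨P, A, B, hP⟩ := exists_blk_conj x hUW hU (SubFix.inv_iff_map.1 hUi) (SubFix.inv_iff_map.1 hWi)
    have hpow : A ^ p = z • 1 ∧ B ^ p = z • 1 := by
      have h1 : blk A B ^ p = z • (1 : Matrix (Fin (m + t)) (Fin (m + t)) F) := by
        rw [← hP, Units.val_mul, Units.val_mul, Units.conj_pow', hxp, Matrix.mul_smul, mul_one, Matrix.smul_mul,
          ← Units.val_mul, inv_mul_cancel, Units.val_one]
      rw [blk, ← map_pow, Matrix.fromBlocks_diagonal_pow, ← blk_one, blk, ← map_smul, Matrix.fromBlocks_smul,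
        smul_zero, smul_zero] at h1
      have h2 := (Matrix.reindexAlgEquiv F F finSumFinEquiv).injective h1
      rw [Matrix.fromBlocks_inj] at h2
      exact ⟨h2.1, h2.2.2.2⟩
    obtain ⟨e₁, g₁, hg₁, he₁, -⟩ := exists_unitary_similar (p := p) hq ha ha1 hpow.1
    obtain ⟨e₂, g₂, hg₂, he₂, -⟩ := exists_unitary_similar (p := p) hq ha ha1 hpow.2
    let E : GL (Fin (m + t)) F :=
      ⟨blk (e₁ : Matrix (Fin m) (Fin m) F) (e₂ : Matrix (Fin t) (Fin t) F),
        blk ((e₁⁻¹ : GL (Fin m) F) : Matrix (Fin m) (Fin m) F) ((e₂⁻¹ : GL (Fin t) F) : Matrix (Fin t) (Fin t) F),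
        by rw [blk_mul, ← Units.val_mul, ← Units.val_mul, mul_inv_cancel, mul_inv_cancel, Units.val_one,
          Units.val_one, blk_one],
        by rw [blk_mul, ← Units.val_mul, ← Units.val_mul, inv_mul_cancel, inv_mul_cancel, Units.val_one,
          Units.val_one, blk_one]⟩
    refine fixes_of_conj hq hx hg₁ hg₂ (isConj_iff.2 ⟨P * E⁻¹, ?_⟩)
    apply mul_inv_eq_iff_eq_mul.2
    apply Units.ext
    have h3 : (E : Matrix (Fin (m + t)) (Fin (m + t)) F) *
        ((P⁻¹ * x * P : GL (Fin (m + t)) F) : Matrix (Fin (m + t)) (Fin (m + t)) F) =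
        blk (a • g₁) (a • g₂) * E := by
      rw [hP]
      show blk _ _ * blk A B = _ * blk _ _
      rw [blk_mul, blk_mul, he₁, he₂]
    calc ((P * E⁻¹ * toGLU (blk_unitary hq hg₁ hg₂) : GL (Fin (m + t)) F) : Matrix (Fin (m + t)) (Fin (m + t)) F)
        = (P : Matrix (Fin (m + t)) (Fin (m + t)) F) *
            ((E⁻¹ : GL (Fin (m + t)) F) : Matrix (Fin (m + t)) (Fin (m + t)) F) *
            (blk (a • g₁) (a • g₂) * E) *
            ((E⁻¹ : GL (Fin (m + t)) F) : Matrix (Fin (m + t)) (Fin (m + t)) F) := by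
          rw [Units.val_mul, Units.val_mul, mul_assoc, mul_assoc, mul_assoc, mul_assoc, ← Units.val_mul E,
            mul_inv_cancel, Units.val_one, mul_one]
          rfl
      _ = ((x * (P * E⁻¹) : GL (Fin (m + t)) F) : Matrix (Fin (m + t)) (Fin (m + t)) F) := by
          rw [← h3]
          simp only [← Units.val_mul]
          congr 1
          group

end CfsgLib.Omega.UnitaryNondeg
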